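import Cfsg.Agent.Lib.Geometric.TensorUnitary.Basic

/-!
With factors of dimension at least four an element of the wreath product moving at most a slice
exchanges no factors, hence moves exactly a slice.
-/

set_option autoImplicit false

namespace CfsgLib.Geometric.TPowU

open Matrix TPow

variable {T : Type} [Fintype T] [DecidableEq T] {k : ℕ} {F : Type*} [Field F]

/-- An exchange of two factors moves more than a slice. -/
theorem sdim_lt_finrank_mov (hk : 4 ≤ k) {g : GL (T → Fin k) F} {σ : Equiv.Perm T}
    {a : T → GL (Fin k) F} (hg : WrW g σ a) {x y : T} (hxy : x ≠ y) (hσ : σ x = y) :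
    sdim T k < Module.finrank F (mov g) := by
  classical
  -- normalise the matrix between the two factors
  set b := a y with hb
  set g' := (slot y b)⁻¹ * g * slot y b with hg'def
  have hB := wrW_slot (T := T) y b
  have hg' := (hB.inv.mul hg).mul hB
  rw [← hg'def] at hg'
  simp only [inv_one, one_mul, mul_one] at hg'
  have hσy : σ.symm y = x := σ.symm_apply_eq.2 hσ.symm
  have hdim : Module.finrank F (mov g') = Module.finrank F (mov g) := by
    have h := mov_conj (slot y b)⁻¹ g
    rw [inv_inv, ← hg'def] at h
    rw [h, LinearEquiv.finrank_map_eq]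
  have hsupp : ∀ f p : T → Fin k, ap g' (Pi.single f 1) p ≠ 0 → p y = f x := by
    intro f p hne
    rw [← pv_single, hg', pv, Finset.prod_ne_zero_iff] at hne
    have h2 := hne y (Finset.mem_univ _)
    simpa [hσy, ← hb, Pi.mulSingle_eq_of_ne hxy, Equiv.Perm.one_def, Pi.single_apply] using h2
  let Z := {f : T → Fin k // f y < f x}
  let ext' : (Z → F) →ₗ[F] ((T → Fin k) → F) :=
    { toFun := fun c p => if h : p y < p x then c ⟨p, h⟩ else 0
      map_add' := fun c c' => funext fun p => by
        simp only [Pi.add_apply]; split_ifs <;> simp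
      map_smul' := fun r c => funext fun p => by
        simp only [Pi.smul_apply, RingHom.id_apply]; split_ifs <;> simp }
  have hinj : Function.Injective (((apEquiv g').toLinearMap - LinearMap.id).comp ext') := by
    refine (injective_iff_map_eq_zero _).2 fun c hc => ?_
    by_contra hc0
    obtain ⟨f₀, hf₀⟩ := Function.ne_iff.1 hc0
    set z := ext' c with hz
    have hgz : ap g' z = z := sub_eq_zero.1 hc
    have hne : (Finset.univ.filter fun p => z p ≠ 0).Nonempty :=
      ⟨f₀.1, by simpa [hz, ext', f₀.2] using hf₀⟩
    obtain ⟨p, hp, hmin⟩ := Finset.exists_min_image _ (fun p : T → Fin k => p y) hne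
    simp only [Finset.mem_filter, Finset.mem_univ, true_and] at hp hmin
    rw [← hgz] at hp
    conv at hp => rw [pi_eq_sum_univ' z]
    rw [show ap g' (∑ f, z f • Pi.single f 1) = ∑ f, ap g' (z f • Pi.single f 1) from
      map_sum (apEquiv g').toLinearMap _ _, Finset.sum_apply] at hp
    obtain ⟨f, -, hf⟩ := Finset.exists_ne_zero_of_sum_ne_zero hp
    rw [ap_smul, Pi.smul_apply, smul_eq_mul] at hf
    have hzf : z f ≠ 0 := left_ne_zero_of_mul hf
    have e := hsupp f p (right_ne_zero_of_mul hf)
    have hfZ : f y < f x := by
      by_contra hn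
      exact hzf (by simp [hz, ext', hn])
    have := hmin f hzf
    rw [← e] at hfZ
    exact absurd this (not_le.2 hfZ)
  have hcard : Fintype.card Z ≤ Module.finrank F (mov g) := by
    have h1 := LinearMap.finrank_range_of_inj hinj
    rw [Module.finrank_fintype_fun_eq_card] at h1
    rw [← h1, ← hdim]
    exact Submodule.finrank_mono (LinearMap.range_comp_le_range _ _)
  refine lt_of_lt_of_le ?_ hcard
  -- counting
  let p0 : Fin k := ⟨0, by omega⟩
  let p1 : Fin k := ⟨1, by omega⟩
  let p2 : Fin k := ⟨2, by omega⟩
  let p3 : Fin k := ⟨3, by omega⟩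
  let some' : Rest y k → (T → Fin k) := fun r =>
    if r ⟨x, hxy⟩ = p0 then Function.update (ins y p1 r) x p2 else ins y p0 r
  have hsome : ∀ r, some' r y < some' r x := by
    intro r
    simp only [some']
    split_ifs with h
    · simp [Function.update_of_ne hxy.symm, p1, p2, Fin.lt_def]
    · have h1 := ins_ne y p0 r ⟨x, hxy⟩
      simp only at h1
      rw [ins_same, h1]
      exact Fin.lt_def.2 (Nat.pos_of_ne_zero fun h0 => h (Fin.ext h0))
  let f₁ : T → Fin k := fun l => if l = y then p1 else p3
  have hf₁ : f₁ y < f₁ x := by simp [f₁, hxy, p1, p3, Fin.lt_def]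
  have hsinj : Function.Injective some' := by
    intro r r' h
    have h2 := congrFun h y
    funext l
    have hl := congrFun h (l : T)
    simp only [some'] at h2 hl
    split_ifs at h2 hl with ha hb hb <;>
      simp [Function.update_of_ne hxy.symm, p0, p1, Fin.ext_iff] at h2
    · by_cases he : (l : T) = x
      · have : l = ⟨x, hxy⟩ := Subtype.ext he
        rw [this, ha, hb]
      · rwa [Function.update_of_ne he, Function.update_of_ne he, ins_ne, ins_ne] at hl
    · rwa [ins_ne, ins_ne] at hl
  have hne₁ : ∀ r, some' r ≠ f₁ := by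
    intro r h
    have hy := congrFun h y
    have hx := congrFun h x
    simp only [some', f₁] at hy hx
    split_ifs at hy hx with ha
    · simp [p2, p3, hxy, Fin.ext_iff] at hx
    · simp [p0, p1, Fin.ext_iff] at hy
  let emb : Option (Rest y k) → Z := fun o =>
    o.elim ⟨f₁, hf₁⟩ fun r => ⟨some' r, hsome r⟩
  have hemb : Function.Injective emb := by
    rintro (_ | r) (_ | r') h
    · rfl
    · exact absurd (congrArg Subtype.val h).symm (hne₁ r')
    · exact absurd (congrArg Subtype.val h) (hne₁ r)
    · exact congrArg some (hsinj (congrArg Subtype.val h))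
  have := Fintype.card_le_of_injective emb hemb
  rw [Fintype.card_option, card_rest] at this
  omega

/-- An element of the wreath product moving at most a slice moves exactly a slice. -/
theorem exists_slice_of_mem_wreath (hk : 4 ≤ k) [Nonempty T] {d : GL (T → Fin k) F}
    (hd : d ∈ wreath T k F) (h1 : d ≠ 1) (hr : Module.finrank F (mov d) ≤ sdim T k) :
    ∃ l v, v ≠ 0 ∧ mov d = slice l v := by
  obtain ⟨σ, a, ha⟩ := hd
  by_cases hσ : σ = 1
  · subst hσ
    exact mov_eq_slice (by omega) ha h1 hr
  · obtain ⟨x, y, hxy, rfl⟩ := perm_eq_swap (by omega) ha hr hσ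
    exact absurd (sdim_lt_finrank_mov hk ha hxy (Equiv.swap_apply_left x y)) (by omega)

end CfsgLib.Geometric.TPowU
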