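import Cfsg.Agent.Lib.Geometric.TensorUnitary.PlaneUp
import Cfsg.Agent.Lib.Geometric.TensorUnitary.Swap
import Cfsg.Agent.Lib.Geometric.TensorPower.Minimal
import Cfsg.Agent.Lib.Geometric.UnitaryPowerGen

/-!
Over the field of four elements and factors of dimension at least four an overgroup in which
isotropic slices are only moved factorwise lies in the wreath product: in a least span of a plane of
slices and a moved slice, two involutions which are not conjugate would centralise a common one.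
-/

set_option autoImplicit false
set_option linter.unusedSectionVars false

namespace CfsgLib.Geometric.TPowU

open Matrix TPow

/-- Two involutions which are not conjugate centralise an involution of the group they generate. -/
lemma exists_commuting_involution {G : Type*} [Group G] [Finite G] {a b : G} (ha : a * a = 1)
    (hb : b * b = 1) (h : ∀ c : G, c * a * c⁻¹ ≠ b) :
    ∃ z ∈ Subgroup.closure {a, b}, z ≠ 1 ∧ z * z = 1 ∧ z * a = a * z ∧ z * b = b * z := by
  set r := a * b with hr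
  have ai : a⁻¹ = a := inv_eq_of_mul_eq_one_left ha
  have bi : b⁻¹ = b := inv_eq_of_mul_eq_one_left hb
  have hconj : a * r * a⁻¹ = r⁻¹ := by
    rw [hr, _root_.mul_inv_rev, bi, ai, ← mul_assoc, ha, one_mul]
  have hconjb : b * r * b⁻¹ = r⁻¹ := by
    rw [hr, _root_.mul_inv_rev, bi, ai, mul_assoc, mul_assoc, hb, mul_one]
  rcases Nat.even_or_odd' (orderOf r) with ⟨m, hm | hm⟩
  · have hm0 : 0 < m := by have := orderOf_pos r; omega
    refine ⟨r ^ m, Subgroup.pow_mem _ (mul_mem (Subgroup.subset_closure (by simp))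
      (Subgroup.subset_closure (by simp))) m, pow_ne_one_of_lt_orderOf hm0.ne' (by omega), ?_, ?_, ?_⟩
    · rw [← pow_add, show m + m = orderOf r by omega, pow_orderOf_eq_one]
    all_goals
      have hz : (r ^ m)⁻¹ = r ^ m :=
        inv_eq_of_mul_eq_one_left (by
          rw [← pow_add, show m + m = orderOf r by omega, pow_orderOf_eq_one])
    · have := congrArg (· ^ m) hconj
      simp only [conj_pow, inv_pow, hz] at this
      exact (mul_inv_eq_iff_eq_mul.1 this).symm
    · have := congrArg (· ^ m) hconjb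
      simp only [conj_pow, inv_pow, hz] at this
      exact (mul_inv_eq_iff_eq_mul.1 this).symm
  · exfalso
    refine h (r ^ m) ?_
    have e1 : r ^ (2 * m + 1) = 1 := by rw [← hm, pow_orderOf_eq_one]
    have e2 : a * (r ^ m)⁻¹ = r ^ m * a := by
      have := congrArg (· ^ m) hconj
      simp only [conj_pow, inv_pow] at this
      rw [← this, ← mul_assoc, ← mul_assoc, ha, one_mul, ai]
    rw [mul_assoc, e2, ← mul_assoc, ← pow_add, ← two_mul]
    have e3 : r ^ (2 * m) * r = 1 := by rw [← pow_succ, e1]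
    rw [eq_inv_of_mul_eq_one_left e3, hr, _root_.mul_inv_rev, bi, ai, mul_assoc, ha, mul_one]

variable {T : Type} [Fintype T] [DecidableEq T] {k : ℕ} {F : Type*} [Field F] {σ : F ≃+* F}
  {h : (Fin k → F) → (Fin k → F) → F} {ζ : F} {M : Subgroup (GL (T → Fin k) F)}

lemma IsPlane.h_eq_zero (hS : Space σ h ζ) {w v : Fin k → F} (hp : IsPlane h w v)
    {a b : Fin k → F} (ha : a ∈ Submodule.span F {w, v}) (hb : b ∈ Submodule.span F {w, v}) :
    h a b = 0 := by
  obtain ⟨s, t, rfl⟩ := Submodule.mem_span_pair.1 ha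
  obtain ⟨s', t', rfl⟩ := Submodule.mem_span_pair.1 hb
  simp [hS.herm.add_left, hS.herm.smul_left, hS.add_right, hS.smul_right, hp.ww, hp.vv, hp.wv,
    hp.vw]

lemma finrank_span_plane {w v : Fin k → F} (hp : IsPlane h w v) :
    Module.finrank F ↥(Submodule.span F {w, v}) = 2 := by
  rw [Submodule.span_insert, sup_comm]
  have := finrank_sup_singleton (W := Submodule.span F {v}) hp.symm.notMem
  rw [finrank_span_singleton hp.ne_snd] at this
  exact this

lemma slice_le_planeS (i : T) {w v u : Fin k → F} (hu : u ∈ Submodule.span F {w, v}) :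
    slice i u ≤ planeS i w v := by
  rintro _ ⟨y, rfl⟩
  obtain ⟨s, t, rfl⟩ := Submodule.mem_span_pair.1 hu
  rw [ten_add_left, ten_smul_left, ten_smul_left, ← map_smul, ← map_smul]
  exact Submodule.add_mem_sup (ten_mem_slice _ _ _) (ten_mem_slice _ _ _)

lemma dot_eq_zero_of_span {w v u : Fin k → F} {φ : Fin k → F}
    (hw : φ ⬝ᵥ w = 0) (hv : φ ⬝ᵥ v = 0) (hu : u ∈ Submodule.span F {w, v}) : φ ⬝ᵥ u = 0 := by
  obtain ⟨s, t, rfl⟩ := Submodule.mem_span_pair.1 hu
  simp [hw, hv]

lemma con_eq_zero_of_plane (i : T) {w v φ : Fin k → F} (hw : φ ⬝ᵥ w = 0) (hv : φ ⬝ᵥ v = 0)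
    {x : (T → Fin k) → F} (hx : x ∈ planeS i w v) : con i φ x = 0 := by
  obtain ⟨_, ⟨p, rfl⟩, _, ⟨q, rfl⟩, rfl⟩ := Submodule.mem_sup.1 hx
  simp [hw, hv]

lemma mem_span_of_ten_mem_plane (i : T) {w v u : Fin k → F} {y : Rest i k → F} (hy : y ≠ 0)
    (hu : ten i u y ∈ planeS i w v) : u ∈ Submodule.span F {w, v} := by
  by_contra hn
  obtain ⟨φ, hφ, hφu⟩ := exists_dot_of_notMem hn
  have := con_eq_zero_of_plane i (hφ w (Submodule.subset_span (by simp)))
    (hφ v (Submodule.subset_span (by simp))) hu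
  rw [con_ten, hφu, one_smul] at this
  exact hy this

lemma one_ne_zero_rest [Nonempty (Fin k)] (i : T) : (fun _ => 1 : Rest i k → F) ≠ 0 :=
  fun h0 => one_ne_zero (congrFun h0 fun _ => Classical.arbitrary _)

/-- An element acting on the factor `i` alone. -/
lemma exists_eq_slot [Nonempty (Fin k)] (i : T) {d : GL (T → Fin k) F}
    (g : (Fin k → F) →ₗ[F] (Fin k → F)) (hd : ∀ u y, ap d (ten i u y) = ten i (g u) y) :
    ∃ a : GL (Fin k) F, d = slot i a ∧ ∀ u, ap a u = g u := by
  have hginj : Function.Injective g := by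
    refine (injective_iff_map_eq_zero g).2 fun u hu0 => ?_
    have h1 := hd u fun _ => 1
    rw [hu0, ten_zero_left, ← ap_zero d] at h1
    exact ten_inj_left i (one_ne_zero_rest i) ((ap_injective d h1).trans (ten_zero_left i _).symm)
  refine ⟨ofEquiv (LinearEquiv.ofInjectiveEndo g hginj), gl_ext fun z => ?_, fun u => by simp⟩
  exact LinearMap.congr_fun (ext_ten i (f := (apEquiv d).toLinearMap)
    (f' := (apEquiv (slot i (ofEquiv (LinearEquiv.ofInjectiveEndo g hginj)))).toLinearMap)
    fun u r => by simp [hd, slot_ten]) z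

/-- The transvection of a slice with coefficient one. -/
def tauU (hS : Space σ h ζ) (i : T) {w : Fin k → F} (hw : h w w = 0) : GL (T → Fin k) F :=
  slot i (Unitary.T hS.skew₁ w 1 (by rw [sf, hw, mul_zero]))

lemma ap_tauU (hS : Space σ h ζ) (i : T) {w : Fin k → F} (hw : h w w = 0)
    (z : (T → Fin k) → F) : ap (tauU hS i hw) z = z + ten i w (ζ • cv h i w z) := by
  refine LinearMap.congr_fun (ext_ten i (f := (apEquiv (tauU hS i hw)).toLinearMap)
    (f' := LinearMap.id + (ten i w).comp (ζ • cv h i w)) fun u r => ?_) z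
  simp only [LinearEquiv.coe_coe, apEquiv_apply, tauU, slot_ten, Unitary.ap_T hS.skew₁, one_mul,
    LinearMap.add_apply, LinearMap.id_apply, LinearMap.comp_apply, LinearMap.smul_apply,
    hS.cv_ten, map_smul, ten_add_left, ten_smul_left, sf, smul_smul]

lemma tauU_mem (hS : Space σ h ζ) (hM : Over σ h M) (i : T) {w : Fin k → F} (hw : h w w = 0) :
    tauU hS i hw ∈ M :=
  hM.slot_mem i _ (tvGroup_le_su hS hw ⟨1, map_one σ, fun v => by
    rw [Unitary.ap_T hS.skew₁, sf, mul_assoc]⟩)

lemma mov_tauU (hS : Space σ h ζ) (i : T) {w : Fin k → F} (hw : h w w = 0) (hw0 : w ≠ 0) :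
    mov (tauU hS i hw) = slice i w := by
  refine le_antisymm (mov_le_iff.2 fun z => by
    rw [ap_tauU, add_sub_cancel_left]; exact ten_mem_slice _ _ _) ?_
  rintro _ ⟨y, rfl⟩
  obtain ⟨⟨x, hx⟩, -⟩ := hS.herm.nondegenerate w hw0
  have := sub_mem_mov (tauU hS i hw) (ten i ((ζ * h x w)⁻¹ • x) y)
  rw [ap_tauU, add_sub_cancel_left, hS.cv_ten, hS.herm.smul_left, smul_smul,
    show ζ * ((ζ * h x w)⁻¹ * h x w) = 1 by field_simp [hS.ne, hx], one_smul] at this
  exact this

lemma tauU_sq (hS : Space σ h ζ) (h2 : (2 : F) = 0) (i : T) {w : Fin k → F} (hw : h w w = 0) :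
    tauU hS i hw * tauU hS i hw = 1 := by
  refine gl_ext fun z => ?_
  rw [ap_mul, ap_one, ap_tauU, ap_tauU, map_add, hS.cv_ten, hw, zero_smul, add_zero, add_assoc,
    ← two_smul F (ten i w (ζ • cv h i w z)), h2, zero_smul, add_zero]

lemma isotropic_of_slice [Finite F] (hS : Space σ h ζ) [Nonempty (Fin k)] (l : T) {u : Fin k → F}
    (hl : ∀ x ∈ slice l u, ∀ y ∈ slice l u, tform σ h T x y = 0) : h u u = 0 := by
  obtain ⟨-, y, hy⟩ := (hS.herm_tform {m : T // m ≠ l}).nondegenerate _
    (one_ne_zero_rest (F := F) (k := k) l)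
  have := hl _ (ten_mem_slice l u fun _ => 1) _ (ten_mem_slice l u y)
  rw [hS.tform_ten] at this
  exact (mul_eq_zero.1 this).resolve_right hy

/-- An element carrying an isotropic slice to a slice acts factorwise. -/
lemma SliceClosed.mem_of_map [Finite F] (hS : Space σ h ζ) (hM : Over σ h M) (hA : SliceClosed h M)
    [Nonempty (Fin k)] {g : GL (T → Fin k) F} (hg : g ∈ M) {j l : T} {w' u : Fin k → F}
    (hw' : w' ≠ 0) (hu : u ≠ 0) (hww : h w' w' = 0)
    (he : (slice j w').map (apEquiv g).toLinearMap = slice l u) : g ∈ wreath T k F := by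
  refine hA g hg l j u w' hu hw' (isotropic_of_slice hS l fun x hx y hy => ?_) hww he
  rw [← he] at hx hy
  obtain ⟨x, hx, rfl⟩ := hx
  obtain ⟨y, hy, rfl⟩ := hy
  exact (mem_isom_iff.1 (hM.le hg) x y).trans (hS.tform_slice j hww hx hy)

/-- The least span of a plane of slices and a moved slice. -/
structure LeastPlane (h : (Fin k → F) → (Fin k → F) → F) (M : Subgroup (GL (T → Fin k) F))
    (g : GL (T → Fin k) F) (i j : T) (w v w' : Fin k → F) : Prop where
  mem : g ∈ M
  notMem : g ∉ wreath T k F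
  plane : IsPlane h w v
  ne' : w' ≠ 0
  iso' : h w' w' = 0
  least : ∀ g' ∈ M, g' ∉ wreath T k F → ∀ (i' j' : T) (a b c : Fin k → F), IsPlane h a b → c ≠ 0 →
    h c c = 0 →
    Module.finrank F ↥(planeS i w v ⊔ (slice j w').map (apEquiv g).toLinearMap) ≤
      Module.finrank F ↥(planeS i' a b ⊔ (slice j' c).map (apEquiv g').toLinearMap)

/-- The span. -/
abbrev span3 (g : GL (T → Fin k) F) (i j : T) (w v w' : Fin k → F) :
    Submodule F ((T → Fin k) → F) :=
  planeS i w v ⊔ (slice j w').map (apEquiv g).toLinearMap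

variable {g : GL (T → Fin k) F} {i j : T} {w v w' : Fin k → F}

/-- A vector of the plane kills only the plane's slices in the span. -/
lemma LeastPlane.mem_plane [Finite F] (hS : Space σ h ζ) (hM : Over σ h M)
    (hL : LeastPlane h M g i j w v w') (hf : g * tauU hS j hL.iso' * g⁻¹ ∉ wreath T k F)
    {u : Fin k → F} (hu : u ∈ Submodule.span F {w, v}) (hu0 : u ≠ 0)
    {x : (T → Fin k) → F} (hx : x ∈ span3 g i j w v w') (hxu : cv h i u x = 0) :
    x ∈ planeS i w v := by
  by_contra hxP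
  set f := g * tauU hS j hL.iso' * g⁻¹ with hfdef
  have huu : h u u = 0 := hL.plane.h_eq_zero hS hu hu
  have hle := hL.least f (M.mul_mem (M.mul_mem hL.mem (tauU_mem hS hM j hL.iso'))
    (M.inv_mem hL.mem)) hf i i w v u hL.plane hu0 huu
  set R := span3 g i j w v w' with hR
  set A : (Rest i k → F) →ₗ[F] (Rest j k → F) :=
    (cv h j w').comp ((apEquiv g⁻¹).toLinearMap.comp (ten i u)) with hA
  set B : (Rest j k → F) →ₗ[F] (Rest i k → F) :=
    (cv h i u).comp ((apEquiv g).toLinearMap.comp (ten j w')) with hB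
  set Ψ : (Rest i k → F) →ₗ[F] ((T → Fin k) → F) :=
    (apEquiv g).toLinearMap.comp ((ten j w').comp (ζ • A)) with hΨ
  have hf' : ∀ y, ap f (ten i u y) = ten i u y + Ψ y := fun y => by
    simp only [hfdef, hΨ, hA, ap_mul, ap_tauU, ap_add, ap_ap_inv, LinearMap.comp_apply,
      LinearMap.smul_apply, LinearEquiv.coe_coe, apEquiv_apply]
  -- the rank
  have hker : Unitary.perp (hS.skewT {l : T // l ≠ i}) (LinearMap.range B) ≤ LinearMap.ker A := by
    intro y hy
    rw [LinearMap.mem_ker]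
    by_contra hne
    obtain ⟨-, y', hy'⟩ := (hS.herm_tform {l : T // l ≠ j}).nondegenerate _ hne
    refine hy' ?_
    have h1 : sf ζ (tform σ h {l : T // l ≠ i}) y (B y') = 0 := hy _ ⟨y', rfl⟩
    have h2 : tform σ h {l : T // l ≠ i} y (B y') = 0 := (mul_eq_zero.1 h1).resolve_left hS.ne
    rw [hA, LinearMap.comp_apply, LinearMap.comp_apply, ← hS.tform_ten_right j]
    have h3 := mem_isom_iff.1 (hM.le hL.mem) (ap g⁻¹ (ten i u y)) (ten j w' y')
    rw [ap_ap_inv] at h3
    rw [LinearEquiv.coe_coe, apEquiv_apply, ← h3, (hS.herm_tform T).herm, hS.tform_ten_right i,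
      ← (hS.herm_tform {l : T // l ≠ i}).herm]
    exact h2
  have h1 : Module.finrank F (LinearMap.range Ψ) ≤ Module.finrank F (LinearMap.range B) := by
    have e1 := A.finrank_range_add_finrank_ker
    have e2 := Submodule.finrank_mono hker
    have e3 := Unitary.card_le_finrank_add_finrank_perp (hS.skewT {l : T // l ≠ i})
      (LinearMap.range B)
    rw [Module.finrank_fintype_fun_eq_card] at e1
    have e4 : LinearMap.range Ψ ≤
        (LinearMap.range A).map ((apEquiv g).toLinearMap.comp ((ten j w').comp (ζ • LinearMap.id))) := by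
      rintro _ ⟨y, rfl⟩
      exact ⟨A y, ⟨y, rfl⟩, by simp [hΨ]⟩
    have e5 := (Submodule.finrank_mono e4).trans (Submodule.finrank_map_le _ _)
    simp only [← Nat.card_eq_fintype_card] at e1 e3
    obtain ⟨rA, hrA⟩ : ∃ n, Module.finrank F (LinearMap.range A) = n := ⟨_, rfl⟩
    obtain ⟨kA, hkA⟩ : ∃ n, Module.finrank F (LinearMap.ker A) = n := ⟨_, rfl⟩
    obtain ⟨pB, hpB⟩ : ∃ n, Module.finrank F
        (Unitary.perp (hS.skewT {l : T // l ≠ i}) (LinearMap.range B)) = n := ⟨_, rfl⟩
    obtain ⟨rB, hrB⟩ : ∃ n, Module.finrank F (LinearMap.range B) = n := ⟨_, rfl⟩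
    have g1 : rA + kA = Nat.card (Rest i k) := hrA ▸ hkA ▸ e1
    have g3 : Nat.card (Rest i k) ≤ pB + rB := hpB ▸ hrB ▸ e3
    have g2 : pB ≤ kA := hpB ▸ hkA ▸ e2
    calc Module.finrank F (LinearMap.range Ψ) ≤ rA := e5.trans hrA.le
      _ ≤ rB := by omega
      _ = _ := hrB.symm
  have h2 : LinearMap.range B ≤ R.map (cv h i u) := by
    rintro _ ⟨y, rfl⟩
    exact ⟨_, Submodule.mem_sup_right ⟨_, ten_mem_slice j w' y, rfl⟩, rfl⟩
  have h3 := finrank_map_add_le (cv h i u) (S := planeS i w v ⊔ Submodule.span F {x}) (R := R)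
    (sup_le le_sup_left ((Submodule.span_singleton_le_iff_mem _ _).2 hx))
    (sup_le (sup_le (by
        rintro _ ⟨y, rfl⟩
        simp [hS.cv_ten, hL.plane.h_eq_zero hS (Submodule.subset_span (by simp : w ∈ ({w, v} : Set _))) hu])
      (by
        rintro _ ⟨y, rfl⟩
        simp [hS.cv_ten, hL.plane.h_eq_zero hS (Submodule.subset_span (by simp : v ∈ ({w, v} : Set _))) hu]))
      ((Submodule.span_singleton_le_iff_mem _ _).2 hxu))
  rw [finrank_sup_singleton hxP] at h3
  have h4 : planeS i w v ⊔ (slice i u).map (apEquiv f).toLinearMap ≤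
      planeS i w v ⊔ LinearMap.range Ψ := by
    refine sup_le le_sup_left ?_
    rintro _ ⟨_, ⟨y, rfl⟩, rfl⟩
    rw [LinearEquiv.coe_coe, apEquiv_apply, hf']
    exact Submodule.add_mem_sup (slice_le_planeS i hu (ten_mem_slice _ _ _)) ⟨y, rfl⟩
  have h5 := Submodule.finrank_mono h4
  have h6 := Submodule.finrank_add_le_finrank_add_finrank (planeS i w v) (LinearMap.range Ψ)
  have h7 := Submodule.finrank_mono h2
  have h8 : Module.finrank F R =
      Module.finrank F ↥(planeS i w v ⊔ (slice j w').map (apEquiv g).toLinearMap) := rfl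
  omega

/-- Slices inside the span belong to the plane. -/
lemma LeastPlane.of_ten_mem [Finite F] (hS : Space σ h ζ) (hM : Over σ h M)
    (hL : LeastPlane h M g i j w v w') (hf : g * tauU hS j hL.iso' * g⁻¹ ∉ wreath T k F)
    {u : Fin k → F} {y : Rest i k → F} (hy : y ≠ 0) (hu : ten i u y ∈ span3 g i j w v w') :
    u ∈ Submodule.span F {w, v} := by
  obtain ⟨p, hp, hp0, hup⟩ : ∃ p ∈ Submodule.span F {w, v}, p ≠ 0 ∧ h u p = 0 := by
    by_cases hv : h u v = 0
    · exact ⟨v, Submodule.subset_span (by simp), hL.plane.ne_snd, hv⟩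
    refine ⟨w - σ (h u w / h u v) • v, Submodule.mem_span_pair.2 ⟨1, -σ (h u w / h u v), by module⟩,
      fun h0 => hL.plane.symm.notMem (Submodule.mem_span_singleton.2
        ⟨_, (sub_eq_zero.1 h0).symm⟩), ?_⟩
    rw [sub_eq_add_neg, ← neg_smul, hS.add_right, hS.smul_right, map_neg, hS.herm.involutive]
    field_simp
    ring
  refine mem_span_of_ten_mem_plane i hy (hL.mem_plane hS hM hf hp hp0 hu ?_)
  rw [hS.cv_ten, hup, zero_smul]

/-- A factorwise element of square one moving into the span acts on the factor of the plane and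
moves into the plane. -/
lemma LeastPlane.exists_slot [Finite F] (hS : Space σ h ζ) (hM : Over σ h M) (hk : 4 ≤ k)
    (h2 : (2 : F) = 0) (hL : LeastPlane h M g i j w v w')
    (hf : g * tauU hS j hL.iso' * g⁻¹ ∉ wreath T k F) {d : GL (T → Fin k) F}
    (hdW : d ∈ wreath T k F) (hdM : d ∈ M) (hdR : d ∈ movInto (span3 g i j w v w'))
    (hd2 : d * d = 1) :
    ∃ a : GL (Fin k) F, d = slot i a ∧ ∀ u, ap a u - u ∈ Submodule.span F {w, v} := by
  have hne : Nonempty (Fin k) := ⟨⟨0, by omega⟩⟩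
  set T0 := Submodule.span F {w, v} with hT0
  have hfin : Module.finrank F T0 = 2 := finrank_span_plane hL.plane
  obtain ⟨π, b, hdb⟩ := hdW
  obtain ⟨φ, hφ⟩ := hdb.split (by omega) i
  -- the factor is fixed
  have himg : ∀ u ∈ T0, slice (π i) (ap (b (π i)) u) ≤ span3 g i j w v w' := by
    intro u hu
    rw [← Split.map_slice hφ u]
    rintro _ ⟨z, hz, rfl⟩
    exact ap_mem_of_movInto hdR (Submodule.mem_sup_left (slice_le_planeS i hu hz))
  have hπ : π i = i := by
    by_contra hne'
    obtain ⟨p, -, hp⟩ := SetLike.exists_of_lt (show T0 < ⊤ from lt_top_iff_ne_top.2 fun htop => by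
      rw [htop, finrank_top, Module.finrank_fin_fun] at hfin; omega)
    set c := ap (b (π i)) w
    set u₀ : T → Fin k → F := Function.update (fun _ => c) i p with hu₀
    have h1 : pv u₀ ∈ slice (π i) c := by
      rw [pv_eq_ten (π i), hu₀, Function.update_of_ne hne']
      exact ten_mem_slice _ _ _
    have h2' : pv u₀ = ten i p (pv fun _ : {l : T // l ≠ i} => c) := by
      rw [pv_eq_ten i, hu₀, Function.update_self]
      congr 2
      funext l
      rw [Function.update_of_ne l.2]
    have hy : (pv fun _ : {l : T // l ≠ i} => c) ≠ 0 := by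
      obtain ⟨q, hq⟩ := Function.ne_iff.1 (ap_ne_zero (b (π i)) hL.plane.ne)
      exact Function.ne_iff.2 ⟨fun _ => q, by
        simp only [pv, Pi.zero_apply, Finset.prod_ne_zero_iff]
        exact fun _ _ => hq⟩
    exact hp (hL.of_ten_mem hS hM hf hy
      (h2' ▸ himg w (Submodule.subset_span (by simp)) h1))
  obtain ⟨a, η, hsplit⟩ : Split d i i := by
    have := split_of_wreath (show 1 ≤ k by omega) hdb i
    rwa [hπ] at this
  have hηne : ∀ {y}, y ≠ 0 → η y ≠ 0 := fun hy h0 => hy (η.map_eq_zero_iff.1 h0)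
  have haT : ∀ u ∈ T0, ap a u ∈ T0 := fun u hu =>
    hL.of_ten_mem hS hM hf (hηne (one_ne_zero_rest i)) (hsplit u _ ▸
      ap_mem_of_movInto hdR (Submodule.mem_sup_left (slice_le_planeS i hu (ten_mem_slice i u _))))
  -- the square
  obtain ⟨lam, hlam⟩ : ∃ lam : F, ∀ u, ap a (ap a u) = lam • u := by
    have hsq : ∀ u y, ten i (ap a (ap a u)) (η (η y)) = ten i u y := fun u y => by
      rw [← hsplit, ← hsplit, ← ap_mul, hd2, ap_one]
    refine exists_scalar (B := ((apEquiv a).toLinearMap.comp (apEquiv a).toLinearMap)) fun u => ?_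
    by_contra hn
    push Not at hn
    obtain ⟨φ', hφ', hφu⟩ := exists_dot_of_notMem (U := Submodule.span F {u})
      (x := ap a (ap a u)) fun hm => by
        obtain ⟨c, hc⟩ := Submodule.mem_span_singleton.1 hm
        exact hn c hc.symm
    have := congrArg (con i φ') (hsq u fun _ => 1)
    rw [con_ten, con_ten, hφu, one_smul, hφ' u (Submodule.mem_span_singleton_self u),
      zero_smul] at this
    exact hηne (hηne (one_ne_zero_rest i)) this
  obtain ⟨μ, hμ⟩ : ∃ μ : F, μ ^ 2 = lam := by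
    refine Finite.surjective_of_injective (fun x y (hxy : x ^ 2 = y ^ 2) => sub_eq_zero.1 ?_) lam
    refine pow_eq_zero_iff (n := 2) two_ne_zero |>.1 ?_
    linear_combination hxy + (y ^ 2 - x * y) * h2
  -- an eigenvector in the plane
  obtain ⟨v₀, hv₀, hv₀0, hav₀⟩ : ∃ v₀ ∈ T0, v₀ ≠ 0 ∧ ap a v₀ = μ • v₀ := by
    by_cases hw : ap a w - μ • w = 0
    · exact ⟨w, Submodule.subset_span (by simp), hL.plane.ne, sub_eq_zero.1 hw⟩
    refine ⟨_, T0.sub_mem (haT w (Submodule.subset_span (by simp)))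
      (T0.smul_mem μ (Submodule.subset_span (by simp))), hw, ?_⟩
    rw [ap_sub, ap_smul, hlam, ← hμ, smul_sub, smul_smul, pow_two]
    refine eq_of_sub_eq_zero ?_
    rw [show (μ * μ) • w - μ • ap a w - (μ • ap a w - (μ * μ) • w) =
      (2 : F) • ((μ * μ) • w - μ • ap a w) by rw [two_smul]; abel, h2, zero_smul]
  have hμ0 : μ ≠ 0 := fun h0 => ap_ne_zero a hv₀0 (by rw [hav₀, h0, zero_smul])
  -- a similitude
  have hperp : ∀ u, h u v₀ = 0 → h (ap a u) v₀ = 0 := by
    intro u hu
    obtain ⟨-, y₂, hy₂⟩ := (hS.herm_tform {l : T // l ≠ i}).nondegenerate _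
      (one_ne_zero_rest (F := F) (k := k) i)
    have h1 := mem_isom_iff.1 (hM.le hdM) (ten i u (η.symm fun _ => 1)) (ten i v₀ (η.symm y₂))
    rw [hsplit, hsplit, hS.tform_ten, hS.tform_ten, hu, zero_mul, η.apply_symm_apply,
      η.apply_symm_apply, mul_eq_zero] at h1
    have h3 := h1.resolve_right hy₂
    rw [hav₀, hS.smul_right, mul_eq_zero] at h3
    exact h3.resolve_left ((map_ne_zero σ).2 hμ0)
  -- the other factors are scaled
  obtain ⟨p, hpv, hp⟩ : ∃ p, h p v₀ = 0 ∧ p ∉ T0 := by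
    by_contra hc
    push Not at hc
    have hle : Unitary.perp hS.skew₁ (Submodule.span F {v₀}) ≤ T0 := fun x hx =>
      hc x ((mul_eq_zero.1 ((Unitary.mem_perp_span hS.skew₁).1 hx)).resolve_left hS.ne)
    have h1 := Unitary.card_le_finrank_add_finrank_perp hS.skew₁ (Submodule.span F {v₀})
    have h3 := Submodule.finrank_mono hle
    rw [finrank_span_singleton hv₀0, Fintype.card_fin] at h1
    omega
  obtain ⟨χ, hχ, hχp⟩ := exists_dot_of_notMem hp
  have hη : ∀ y, (χ ⬝ᵥ ap a p) • η y = y := by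
    intro y
    have hmem : ap d (ten i p y) - ten i p y ∈ planeS i w v :=
      hL.mem_plane hS hM hf hv₀ hv₀0 (hdR _) (by
        rw [map_sub, hsplit, hS.cv_ten, hS.cv_ten, hperp p hpv, hpv, zero_smul, zero_smul,
          sub_zero])
    have := con_eq_zero_of_plane i (hχ w (Submodule.subset_span (by simp)))
      (hχ v (Submodule.subset_span (by simp))) hmem
    rwa [map_sub, hsplit, con_ten, con_ten, hχp, one_smul, sub_eq_zero] at this
  have hν0 : χ ⬝ᵥ ap a p ≠ 0 := fun h0 => by
    have := hη fun _ => 1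
    rw [h0, zero_smul] at this
    exact one_ne_zero_rest i this.symm
  have hd' : ∀ u y, ap d (ten i u y) =
      ten i (((χ ⬝ᵥ ap a p)⁻¹ • (apEquiv a).toLinearMap) u) y := fun u y => by
    rw [hsplit]
    conv_rhs => rw [← hη y]
    rw [map_smul, LinearMap.smul_apply, ten_smul_left, smul_smul, mul_inv_cancel₀ hν0, one_smul]
    rfl
  obtain ⟨a', rfl, ha'⟩ := exists_eq_slot i _ hd'
  refine ⟨a', rfl, fun u => hL.of_ten_mem hS hM hf (one_ne_zero_rest i) ?_⟩
  rw [ten_sub_left, ← slot_ten]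
  exact hdR _

/-- The moved space of an element of one factor. -/
lemma mov_slot_eq (i : T) {a : GL (Fin k) F} {u : Fin k → F}
    (ha : ∀ p, ap a p - p ∈ Submodule.span F {u}) {p : Fin k → F} (hp : ap a p ≠ p) :
    mov (slot i a) = slice i u := by
  refine le_antisymm ?_ ?_
  · rw [mov_le_iff]
    intro z
    rw [show ap (slot i a) z - z = ((apEquiv (slot i a)).toLinearMap -
      (LinearMap.id : ((T → Fin k) → F) →ₗ[F] ((T → Fin k) → F))) z from rfl,
      eq_sum_ten i z, map_sum]
    refine Submodule.sum_mem _ fun c _ => ?_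
    simp only [LinearMap.sub_apply, LinearEquiv.coe_coe, apEquiv_apply, LinearMap.id_apply,
      slot_ten, ← ten_sub_left]
    obtain ⟨s, hs⟩ := Submodule.mem_span_singleton.1 (ha (Pi.single c 1))
    rw [← hs, ten_smul_left, ← map_smul]
    exact ten_mem_slice _ _ _
  · rintro _ ⟨y, rfl⟩
    obtain ⟨s, hs⟩ := Submodule.mem_span_singleton.1 (ha p)
    have hs0 : s ≠ 0 := fun h0 => hp (sub_eq_zero.1 (by rw [← hs, h0, zero_smul]))
    have := Submodule.smul_mem _ s⁻¹ (sub_mem_mov (slot i a) (ten i p y))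
    rwa [slot_ten, ← ten_sub_left, ← hs, ten_smul_left, smul_smul, inv_mul_cancel₀ hs0,
      one_smul] at this

/-- An element of one factor moving onto a plane. -/
lemma mov_slot_plane (hp : IsPlane h w v) (i : T) {a : GL (Fin k) F}
    (ha : ∀ p, ap a p - p ∈ Submodule.span F {w, v})
    (hbig : ∀ u, ∃ p, ap a p - p ∉ Submodule.span F {u}) :
    mov (slot i a) = planeS i w v := by
  set T0 := Submodule.span F {w, v} with hT0
  have hrange : LinearMap.range ((apEquiv a).toLinearMap - LinearMap.id) = T0 := by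
    refine Submodule.eq_of_le_of_finrank_le (by rintro _ ⟨p, rfl⟩; exact ha p) ?_
    rw [finrank_span_plane hp]
    obtain ⟨p₁, hp₁⟩ := hbig 0
    obtain ⟨p₂, hp₂⟩ := hbig (ap a p₁ - p₁)
    have hne : ap a p₁ - p₁ ≠ 0 := fun h0 => hp₁ (by rw [h0]; exact zero_mem _)
    have := finrank_sup_singleton hp₂
    rw [finrank_span_singleton hne] at this
    refine this.symm.le.trans ?_
    exact Submodule.finrank_mono (sup_le ((Submodule.span_singleton_le_iff_mem _ _).2 ⟨p₁, rfl⟩)
      ((Submodule.span_singleton_le_iff_mem _ _).2 ⟨p₂, rfl⟩))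
  refine le_antisymm (mov_le_iff.2 fun z => ?_) (sup_le ?_ ?_)
  · rw [show ap (slot i a) z - z = ((apEquiv (slot i a)).toLinearMap -
      (LinearMap.id : ((T → Fin k) → F) →ₗ[F] ((T → Fin k) → F))) z from rfl,
      eq_sum_ten i z, map_sum]
    refine Submodule.sum_mem _ fun c _ => ?_
    simp only [LinearMap.sub_apply, LinearEquiv.coe_coe, apEquiv_apply, LinearMap.id_apply,
      slot_ten, ← ten_sub_left]
    exact slice_le_planeS i (ha _) (ten_mem_slice _ _ _)
  all_goals
    rintro _ ⟨y, rfl⟩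
  · obtain ⟨p, hp'⟩ := hrange.ge (Submodule.subset_span (by simp : w ∈ ({w, v} : Set _)))
    rw [← hp']
    simp only [LinearMap.sub_apply, LinearEquiv.coe_coe, apEquiv_apply, LinearMap.id_apply,
      ten_sub_left, ← slot_ten]
    exact sub_mem_mov _ _
  · obtain ⟨p, hp'⟩ := hrange.ge (Submodule.subset_span (by simp : v ∈ ({w, v} : Set _)))
    rw [← hp']
    simp only [LinearMap.sub_apply, LinearEquiv.coe_coe, apEquiv_apply, LinearMap.id_apply,
      ten_sub_left, ← slot_ten]
    exact sub_mem_mov _ _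

lemma sdim_lt_finrank_plane [Nonempty (Fin k)] (hp : IsPlane h w v) (i : T) :
    sdim T k < Module.finrank F ↥(planeS (T := T) i w v) := by
  rw [← finrank_slice i hp.ne]
  refine Submodule.finrank_lt_finrank_of_lt (lt_of_le_of_ne le_sup_left fun he => hp.notMem ?_)
  exact mem_span_of_slice_le i hp.ne (he ▸ le_sup_right)

/-- A factorwise involution in the span moves a slice of the plane or the plane. -/
lemma LeastPlane.mov_cases [Finite F] (hS : Space σ h ζ) (hM : Over σ h M) (hk : 4 ≤ k)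
    (h2 : (2 : F) = 0) (hL : LeastPlane h M g i j w v w')
    (hf : g * tauU hS j hL.iso' * g⁻¹ ∉ wreath T k F) {d : GL (T → Fin k) F}
    (hdW : d ∈ wreath T k F) (hdM : d ∈ M) (hdR : d ∈ movInto (span3 g i j w v w'))
    (hd2 : d * d = 1) (hd1 : d ≠ 1) :
    (∃ u, u ≠ 0 ∧ h u u = 0 ∧ mov d = slice i u) ∨ mov d = planeS i w v := by
  obtain ⟨a, rfl, ha⟩ := hL.exists_slot hS hM hk h2 hf hdW hdM hdR hd2
  by_cases hone : ∃ u, ∀ p, ap a p - p ∈ Submodule.span F {u}
  · obtain ⟨u, hu⟩ := hone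
    obtain ⟨p, hp⟩ : ∃ p, ap a p ≠ p := by
      by_contra hc
      push Not at hc
      refine hd1 ?_
      rw [show a = 1 from gl_ext fun p => by rw [hc, ap_one], map_one]
    refine Or.inl ⟨ap a p - p, sub_ne_zero.2 hp, hL.plane.h_eq_zero hS (ha p) (ha p),
      mov_slot_eq i (fun q => ?_) hp⟩
    obtain ⟨s, hs⟩ := Submodule.mem_span_singleton.1 (hu p)
    obtain ⟨t, ht⟩ := Submodule.mem_span_singleton.1 (hu q)
    have hs0 : s ≠ 0 := fun h0 => hp (sub_eq_zero.1 (by rw [← hs, h0, zero_smul]))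
    exact Submodule.mem_span_singleton.2 ⟨t * s⁻¹, by
      rw [← hs, ← ht, smul_smul, mul_assoc, inv_mul_cancel₀ hs0, mul_one]⟩
  · push Not at hone
    exact Or.inr (mov_slot_plane hL.plane i ha hone)

/-- An element of the span's group carrying a factorwise involution to one acts factorwise. -/
lemma LeastPlane.mem_of_conj [Finite F] (hS : Space σ h ζ) (hM : Over σ h M) (hk : 4 ≤ k)
    (h2 : (2 : F) = 0) (hA : SliceClosed h M) (hU : UpScalar h M)
    (hL : LeastPlane h M g i j w v w') (hf : g * tauU hS j hL.iso' * g⁻¹ ∉ wreath T k F)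
    {x d : GL (T → Fin k) F} (hx : x ∈ M ⊓ movInto (span3 g i j w v w'))
    (hd : d ∈ M ⊓ movInto (span3 g i j w v w')) (hd2 : d * d = 1) (hd1 : d ≠ 1)
    (hdW : d ∈ wreath T k F) (hxd : x * d * x⁻¹ ∈ wreath T k F) : x ∈ wreath T k F := by
  have hne : Nonempty (Fin k) := ⟨⟨0, by omega⟩⟩
  have : Nonempty T := ⟨i⟩
  have hc := hL.mov_cases hS hM hk h2 hf hxd
    (M.mul_mem (M.mul_mem hx.1 hd.1) (M.inv_mem hx.1))
    ((movInto _).mul_mem ((movInto _).mul_mem hx.2 hd.2) ((movInto _).inv_mem hx.2))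
    (by rw [show x * d * x⁻¹ * (x * d * x⁻¹) = x * (d * d) * x⁻¹ by group, hd2]; group)
    (fun h1 => hd1 (by rwa [conj_eq_one_iff] at h1))
  rw [mov_conj] at hc
  rcases hL.mov_cases hS hM hk h2 hf hdW hd.1 hd.2 hd2 hd1 with ⟨u, hu, huu, hdu⟩ | hdp
  · rw [hdu] at hc
    rcases hc with ⟨u', hu', -, he⟩ | he
    · exact hA.mem_of_map hS hM hx.1 hu hu' huu he
    · have := congrArg (fun R : Submodule F ((T → Fin k) → F) => Module.finrank F R) he
      simp only [LinearEquiv.finrank_map_eq, finrank_slice i hu] at this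
      have := sdim_lt_finrank_plane (T := T) hL.plane i
      omega
  · rw [hdp] at hc
    rcases hc with ⟨u', hu', -, he⟩ | he
    · have := congrArg (fun R : Submodule F ((T → Fin k) → F) => Module.finrank F R) he
      simp only [LinearEquiv.finrank_map_eq, finrank_slice i hu'] at this
      have := sdim_lt_finrank_plane (T := T) hL.plane i
      omega
    · set y := x * tauU hS i hL.plane.ww * x⁻¹ with hy
      have hymov : mov y = (slice i w).map (apEquiv x).toLinearMap := by
        rw [hy, mov_conj, mov_tauU hS i _ hL.plane.ne]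
      have hdim : Module.finrank F (mov y) = sdim T k := by
        rw [hymov, LinearEquiv.finrank_map_eq, finrank_slice i hL.plane.ne]
      have hyW := mem_wreath_of_mov_le_plane hS hL.plane hM hU
        (y := y) (M.mul_mem (M.mul_mem hx.1 (tauU_mem hS hM i _)) (M.inv_mem hx.1))
        (hymov ▸ (Submodule.map_mono le_sup_left).trans he.le)
      have hy1 : y ≠ 1 := fun h1 => by
        have hbot : mov (1 : GL (T → Fin k) F) = ⊥ := le_bot_iff.1 (mov_le_iff.2 fun z => by simp)
        rw [h1, hbot, finrank_bot] at hdim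
        have := TPow.sdim_pos (T := T) (show 3 ≤ k by omega)
        omega
      obtain ⟨l, u, hu, he'⟩ := exists_slice_of_mem_wreath hk hyW hy1 hdim.le
      exact hA.mem_of_map hS hM hx.1 hL.plane.ne hu hL.plane.ww (hymov ▸ he')

/-- With factors of dimension at least four over the field of four elements an overgroup in which
isotropic slices are moved factorwise is factorwise. -/
theorem le_wreath_of_two [Finite F] (hS : Space σ h ζ) (h2 : ∀ c : F, σ c = c → c = 0 ∨ c = 1)
    (hk : 4 ≤ k) (hT : 2 ≤ Fintype.card T) (hM : Over σ h M) (hA : SliceClosed h M)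
    (hU : UpScalar h M) : M ≤ wreath T k F := by
  classical
  have hne : Nonempty (Fin k) := ⟨⟨0, by omega⟩⟩
  have : Nonempty T := Fintype.card_pos_iff.1 (by omega)
  have hchar : (2 : F) = 0 := (h2 2 (map_ofNat σ 2)).resolve_right fun h0 =>
    one_ne_zero (show (1 : F) = 0 by linear_combination h0)
  intro g₀ hg₀
  by_contra hg₀W
  -- a plane
  have hf₁ := hS.skew₁
  obtain ⟨w₀, -, hw₀, hw₀w⟩ := Unitary.exists_isotropic hf₁ (Unitary.perp_bot_nondeg_on hf₁) (by
    have := Unitary.card_le_finrank_add_finrank_perp hf₁ (⊥ : Submodule F (Fin k → F))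
    rw [finrank_bot, add_zero, Fintype.card_fin] at this
    omega)
  obtain ⟨v₀, hv₀, hv₀v, hwv⟩ : ∃ v₀, v₀ ∉ Submodule.span F {w₀} ∧ sf ζ h v₀ v₀ = 0 ∧
      sf ζ h v₀ w₀ = 0 := by
    obtain ⟨x, hx, hx'⟩ := SetLike.not_le_iff_exists.mp (show ¬ Unitary.perp hf₁
        (Submodule.span F {w₀}) ≤ Submodule.span F {w₀} from fun hle => by
      have h1 := Unitary.card_le_finrank_add_finrank_perp hf₁ (Submodule.span F {w₀})
      have h3 := Submodule.finrank_mono hle
      rw [finrank_span_singleton hw₀, Fintype.card_fin] at h1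
      rw [finrank_span_singleton hw₀] at h3
      omega)
    obtain ⟨a, b, ha, hb, haw, hbw, rfl⟩ := Unitary.exists_iso_sum_perp hf₁ (by simpa using hk)
      hw₀w ((Unitary.mem_perp_span hf₁).mp hx)
    by_cases ham : a ∈ Submodule.span F {w₀}
    · exact ⟨b, fun hbm => hx' (add_mem ham hbm), hb, hbw⟩
    · exact ⟨a, ham, ha, haw⟩
  have z0 : ∀ {a b : Fin k → F}, sf ζ h a b = 0 → h a b = 0 := fun hab =>
    (mul_eq_zero.1 hab).resolve_left hS.ne
  have hp₀ : IsPlane h w₀ v₀ := ⟨hw₀, hv₀, z0 hw₀w, z0 hv₀v,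
    z0 ((Unitary.eq_zero_comm hf₁).1 hwv), z0 hwv⟩
  let P : ℕ → Prop := fun n => ∃ g ∈ M, g ∉ wreath T k F ∧ ∃ (i j : T) (w v w' : Fin k → F),
    IsPlane h w v ∧ w' ≠ 0 ∧ h w' w' = 0 ∧ Module.finrank F ↥(span3 g i j w v w') = n
  have hex : ∃ n, P n := ⟨_, g₀, hg₀, hg₀W, Classical.arbitrary T, Classical.arbitrary T, w₀, v₀,
    w₀, hp₀, hw₀, z0 hw₀w, rfl⟩
  obtain ⟨g, hg, hgW, i, j, w, v, w', hp, hw', hww, hn⟩ := Nat.find_spec hex
  have hL : LeastPlane h M g i j w v w' := ⟨hg, hgW, hp, hw', hww,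
    fun g' hg' hg'W i' j' a b c hab hc hcc =>
      hn.trans_le (Nat.find_min' hex ⟨g', hg', hg'W, i', j', a, b, c, hab, hc, hcc, rfl⟩)⟩
  set f := g * tauU hS j hL.iso' * g⁻¹ with hfdef
  have hfmov : mov f = (slice j w').map (apEquiv g).toLinearMap := by
    rw [hfdef, mov_conj, mov_tauU hS j _ hw']
  have hf : f ∉ wreath T k F := by
    intro hfW
    have hd : Module.finrank F (mov f) = sdim T k := by
      rw [hfmov, LinearEquiv.finrank_map_eq, finrank_slice j hw']
    have hf1 : f ≠ 1 := fun h1 => hgW (by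
      have hbot : mov (1 : GL (T → Fin k) F) = ⊥ := le_bot_iff.1 (mov_le_iff.2 fun z => by simp)
      rw [h1, hbot, finrank_bot] at hd
      have := TPow.sdim_pos (T := T) (show 3 ≤ k by omega)
      omega)
    obtain ⟨l, u, hu, he⟩ := exists_slice_of_mem_wreath hk hfW hf1 hd.le
    exact hgW (hA.mem_of_map hS hM hg hw' hu hww (hfmov.symm.trans he))
  set J := M ⊓ movInto (span3 g i j w v w') with hJ
  have hfJ : f ∈ J := ⟨M.mul_mem (M.mul_mem hg (tauU_mem hS hM j _)) (M.inv_mem hg),
    mem_movInto.2 fun z => Submodule.mem_sup_right (hfmov ▸ sub_mem_mov f z)⟩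
  have htauJ : ∀ {u : Fin k → F} (huu : h u u = 0), u ∈ Submodule.span F {w, v} →
      tauU hS i huu ∈ J := fun huu hu => ⟨tauU_mem hS hM i _, mem_movInto.2 fun z => by
    rw [ap_tauU, add_sub_cancel_left]
    exact Submodule.mem_sup_left (slice_le_planeS i hu (ten_mem_slice _ _ _))⟩
  have hwT : w ∈ Submodule.span F {w, v} := Submodule.subset_span (by simp)
  have hvT : v ∈ Submodule.span F {w, v} := Submodule.subset_span (by simp)
  set e := tauU hS i hp.ww with he
  set u := tauU hS i hp.ww * tauU hS i hp.vv with hu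
  have heW : e ∈ wreath T k F := slot_mem_wreath _ _
  have huW : u ∈ wreath T k F := (wreath T k F).mul_mem (slot_mem_wreath _ _) (slot_mem_wreath _ _)
  have hap : ∀ z, ap u z = z + ten i v (ζ • cv h i v z) + ten i w (ζ • cv h i w z) := fun z => by
    rw [hu, ap_mul, ap_tauU, ap_tauU, map_add, hS.cv_ten, hp.vw, zero_smul, add_zero]
  have hu2 : u * u = 1 := gl_ext fun z => by
    rw [ap_mul, hap, hap, ap_one]
    simp only [map_add, hS.cv_ten, hp.vv, hp.wv, hp.vw, hp.ww, zero_smul, add_zero]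
    rw [show z + ten i v (ζ • cv h i v z) + ten i w (ζ • cv h i w z) +
      ten i v (ζ • cv h i v z) + ten i w (ζ • cv h i w z) =
      z + (2 : F) • (ten i v (ζ • cv h i v z) + ten i w (ζ • cv h i w z)) by
        rw [two_smul]; abel, hchar, zero_smul, add_zero]
  -- `u` moves onto the plane
  have humov : mov u = planeS i w v := by
    refine le_antisymm (mov_le_iff.2 fun z => ?_) (sup_le ?_ ?_)
    · rw [hap, add_assoc, add_sub_cancel_left, add_comm]
      exact Submodule.add_mem_sup (ten_mem_slice _ _ _) (ten_mem_slice _ _ _)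
    · rintro _ ⟨y, rfl⟩
      obtain ⟨x, hx, hxv⟩ := exists_dual hS hp.symm.notMem
      have := sub_mem_mov u (ten i (ζ⁻¹ • x) y)
      rwa [hap, add_assoc, add_sub_cancel_left, hS.cv_ten, hS.cv_ten, hS.herm.smul_left,
        hS.herm.smul_left, hxv, hx, mul_zero, mul_one, zero_smul, smul_zero, map_zero, zero_add,
        smul_smul, mul_inv_cancel₀ hS.ne, one_smul] at this
    · rintro _ ⟨y, rfl⟩
      obtain ⟨x, hx, hxw⟩ := exists_dual hS hp.notMem
      have := sub_mem_mov u (ten i (ζ⁻¹ • x) y)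
      rwa [hap, add_assoc, add_sub_cancel_left, hS.cv_ten, hS.cv_ten, hS.herm.smul_left,
        hS.herm.smul_left, hxw, hx, mul_zero, mul_one, zero_smul, smul_zero, map_zero, add_zero,
        smul_smul, mul_inv_cancel₀ hS.ne, one_smul] at this
  have hlt := sdim_lt_finrank_plane (T := T) hp i
  have hu1 : u ≠ 1 := fun h1 => by
    have hbot : mov (1 : GL (T → Fin k) F) = ⊥ := le_bot_iff.1 (mov_le_iff.2 fun z => by simp)
    rw [← humov, h1, hbot, finrank_bot] at hlt
    omega
  have he1 : e ≠ 1 := fun h1 => by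
    have hbot : mov (1 : GL (T → Fin k) F) = ⊥ := le_bot_iff.1 (mov_le_iff.2 fun z => by simp)
    have hm := mov_tauU hS i hp.ww hp.ne
    rw [← he, h1, hbot] at hm
    have h3 := finrank_slice (F := F) i hp.ne
    rw [← hm, finrank_bot] at h3
    have := TPow.sdim_pos (T := T) (show 3 ≤ k by omega)
    omega
  have he2 : e * e = 1 := tauU_sq hS hchar i hp.ww
  have hb2 : f * u * f⁻¹ * (f * u * f⁻¹) = 1 := by
    rw [show f * u * f⁻¹ * (f * u * f⁻¹) = f * (u * u) * f⁻¹ by group, hu2]; group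
  obtain ⟨z, hz, hz1, hz2, hze, hzb⟩ := exists_commuting_involution he2 hb2 fun c hc => by
    have hm : Module.finrank F (mov (c * e * c⁻¹)) = Module.finrank F (mov (f * u * f⁻¹)) := by
      rw [hc]
    rw [mov_conj, mov_conj, LinearEquiv.finrank_map_eq, LinearEquiv.finrank_map_eq, humov, he,
      mov_tauU hS i hp.ww hp.ne, finrank_slice i hp.ne] at hm
    omega
  have huJ : u ∈ J := J.mul_mem (htauJ hp.ww hwT) (htauJ hp.vv hvT)
  have hzJ : z ∈ J := by
    refine Subgroup.closure_le J |>.2 ?_ hz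
    rintro _ (rfl | rfl)
    · exact htauJ hp.ww hwT
    · exact J.mul_mem (J.mul_mem hfJ huJ) (J.inv_mem hfJ)
  have hzW : z ∈ wreath T k F := hL.mem_of_conj hS hM hk hchar hA hU hf hzJ (htauJ hp.ww hwT)
    he2 he1 heW (by rw [hze, mul_inv_cancel_right]; exact heW)
  set z' := f⁻¹ * z * f with hz'
  have hz'J : z' ∈ J := J.mul_mem (J.mul_mem (J.inv_mem hfJ) hzJ) hfJ
  have hz'u : z' * u = u * z' := by
    have := congrArg (fun x => f⁻¹ * x * f) hzb
    simp only [mul_assoc, inv_mul_cancel, mul_one, inv_mul_cancel_left] at this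
    simpa [hz', mul_assoc] using this
  have hz'W : z' ∈ wreath T k F := hL.mem_of_conj hS hM hk hchar hA hU hf hz'J huJ
    hu2 hu1 huW (by rw [hz'u, mul_inv_cancel_right]; exact huW)
  refine hf (hL.mem_of_conj hS hM hk hchar hA hU hf hfJ hz'J ?_ ?_ hz'W ?_)
  · rw [show z' * z' = f⁻¹ * (z * z) * f by rw [hz']; group, hz2]; group
  · intro h1
    refine hz1 ?_
    rw [show z = f * z' * f⁻¹ by rw [hz']; group, h1]
    group
  · rw [show f * z' * f⁻¹ = z by rw [hz']; group]
    exact hzW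

end CfsgLib.Geometric.TPowU
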