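import Cfsg.Agent.Lib.Geometric.TensorPower.Wreath
import Cfsg.Agent.Lib.Geometric.UnitaryVectors

/-!
The tensor power of a unitary form on `T → Fin k`: pure tensors, slices, contractions against
vectors, factorwise isometries and the overgroups of the special ones.
-/

set_option autoImplicit false

namespace CfsgLib.Geometric.TPowU

open Matrix TPow

variable {T : Type} [Fintype T] [DecidableEq T] {k : ℕ} {F : Type*} [Field F]

/-- The tensor power of the form `h`. -/
def tform (σ : F ≃+* F) (h : (Fin k → F) → (Fin k → F) → F) (T : Type) [Fintype T]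
    [DecidableEq T] (x y : (T → Fin k) → F) : F :=
  ∑ a, ∑ b, x a * (∏ l, Cfsg.Geo.gramMatrix h (a l) (b l)) * σ (y b)

/-- The functional of `w`, as a coordinate vector: `fu h w ⬝ᵥ v = h v w`. -/
def fu (h : (Fin k → F) → (Fin k → F) → F) (w : Fin k → F) : Fin k → F :=
  fun a => h (Pi.single a 1) w

/-- The contraction of the factor `i` against `w`. -/
def cv (h : (Fin k → F) → (Fin k → F) → F) (i : T) (w : Fin k → F) :
    ((T → Fin k) → F) →ₗ[F] (Rest i k → F) :=
  con i (fu h w)

/-- A skew multiple of a form. -/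
def sf {κ : Type*} (ζ : F) (h : κ → κ → F) (x y : κ) : F := ζ * h x y

/-- A unitary form on one factor with a skew scalar. -/
structure Space (σ : F ≃+* F) (h : (Fin k → F) → (Fin k → F) → F) (ζ : F) : Prop where
  herm : Cfsg.Geo.IsUnitaryForm σ h
  ne : ζ ≠ 0
  skew : σ ζ = -ζ

variable {σ : F ≃+* F} {h : (Fin k → F) → (Fin k → F) → F} {ζ : F}

/-- A space exists for every unitary form. -/
lemma exists_space (hh : Cfsg.Geo.IsUnitaryForm σ h) : ∃ ζ, Space σ h ζ := by
  obtain ⟨a, ha⟩ : ∃ a, σ a ≠ a := by
    by_contra hc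
    push Not at hc
    exact hh.ne_refl (RingEquiv.ext hc)
  exact ⟨a - σ a, hh, sub_ne_zero.2 (Ne.symm ha), by rw [map_sub, hh.involutive]; ring⟩

namespace Space

variable (hS : Space σ h ζ)
include hS

lemma skew₁ : IsSkewForm σ (sf ζ h) where
  ne_refl := hS.herm.ne_refl
  involutive := hS.herm.involutive
  add_left x y v := by simp only [sf, hS.herm.add_left]; ring
  smul_left c x v := by simp only [sf, hS.herm.smul_left]; ring
  skew v w := by simp only [sf, map_mul, hS.skew]; rw [hS.herm.herm v w]; ring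
  nondegenerate v hv := by
    obtain ⟨⟨x, hx⟩, ⟨y, hy⟩⟩ := hS.herm.nondegenerate v hv
    exact ⟨⟨x, mul_ne_zero hS.ne hx⟩, ⟨y, mul_ne_zero hS.ne hy⟩⟩

lemma add_right (u v w : Fin k → F) : h u (v + w) = h u v + h u w := by
  rw [hS.herm.herm u (v + w), hS.herm.add_left, map_add, ← hS.herm.herm, ← hS.herm.herm]

lemma smul_right (c : F) (u v : Fin k → F) : h u (c • v) = σ c * h u v := by
  rw [hS.herm.herm u (c • v), hS.herm.smul_left, map_mul, ← hS.herm.herm]

lemma fu_add (u v : Fin k → F) : fu h (u + v) = fu h u + fu h v :=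
  funext fun _ => hS.add_right _ _ _

lemma fu_smul (c : F) (u : Fin k → F) : fu h (c • u) = σ c • fu h u :=
  funext fun _ => hS.smul_right _ _ _

lemma fu_dot (w v : Fin k → F) : fu h w ⬝ᵥ v = h v w := by
  have key : h v w = Unitary.fl hS.skew₁ w v * ζ⁻¹ := by
    rw [Unitary.fl_apply, sf]; field_simp [hS.ne]
  rw [key]
  conv_rhs => rw [pi_eq_sum_univ' v]
  rw [map_sum, Finset.sum_mul, dotProduct]
  refine Finset.sum_congr rfl fun a _ => ?_
  rw [map_smul, Unitary.fl_apply, sf, fu, smul_eq_mul]
  field_simp [hS.ne]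

lemma fu_surjective [Finite F] (φ : Fin k → F) : ∃ w, fu h w = φ := by
  obtain ⟨w, hw⟩ := Unitary.exists_eq_fl hS.skew₁
    (ζ • ∑ a, φ a • (LinearMap.proj a : (Fin k → F) →ₗ[F] F))
  refine ⟨w, funext fun a => mul_left_cancel₀ hS.ne ?_⟩
  have := LinearMap.congr_fun hw (Pi.single a 1)
  simpa [sf, fu, Pi.single_apply, Finset.sum_ite_eq'] using this

/-! ### The tensor power -/

omit hS in
lemma tform_add_left (x x' y : (T → Fin k) → F) :
    tform σ h T (x + x') y = tform σ h T x y + tform σ h T x' y := by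
  simp [tform, add_mul, Finset.sum_add_distrib]

omit hS in
lemma tform_smul_left (c : F) (x y : (T → Fin k) → F) :
    tform σ h T (c • x) y = c * tform σ h T x y := by
  simp [tform, Finset.mul_sum, mul_assoc]

omit hS in
lemma tform_add_right (x y y' : (T → Fin k) → F) :
    tform σ h T x (y + y') = tform σ h T x y + tform σ h T x y' := by
  simp [tform, map_add, mul_add, Finset.sum_add_distrib]

omit hS in
lemma tform_sum_right {κ : Type*} (s : Finset κ) (x : (T → Fin k) → F)
    (y : κ → (T → Fin k) → F) :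
    tform σ h T x (∑ j ∈ s, y j) = ∑ j ∈ s, tform σ h T x (y j) := by
  simp only [tform, Finset.sum_apply, map_sum, Finset.mul_sum]
  rw [Finset.sum_comm (s := s)]
  exact Finset.sum_congr rfl fun a _ => Finset.sum_comm

lemma sum_gram (a : Fin k) (v : Fin k → F) :
    ∑ b, Cfsg.Geo.gramMatrix h a b * σ (v b) = fu h v a := by
  conv_rhs => rw [fu, pi_eq_sum_univ' v]
  have key : ∀ (s : Finset (Fin k)), h (Pi.single a 1) (∑ b ∈ s, v b • Pi.single b 1) =
      ∑ b ∈ s, Cfsg.Geo.gramMatrix h a b * σ (v b) := by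
    intro s
    induction s using Finset.induction with
    | empty => simpa using hS.smul_right 0 (Pi.single a 1) 0
    | insert b s hb ih =>
      rw [Finset.sum_insert hb, Finset.sum_insert hb, hS.add_right, ih, hS.smul_right,
        Cfsg.Geo.gramMatrix, mul_comm]
  exact (key _).symm

/-- Pairing with a pure tensor on the right. -/
lemma tform_pv_right (x : (T → Fin k) → F) (u : T → Fin k → F) :
    tform σ h T x (pv u) = ∑ a, x a * ∏ l, fu h (u l) (a l) := by
  refine Finset.sum_congr rfl fun a _ => ?_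
  simp only [← hS.sum_gram, Fintype.prod_sum, Finset.mul_sum, Finset.prod_mul_distrib, pv,
    map_prod, mul_assoc]

lemma tform_pv (u u' : T → Fin k → F) :
    tform σ h T (pv u) (pv u') = ∏ l, h (u l) (u' l) := by
  rw [hS.tform_pv_right]
  simp only [← hS.fu_dot, dotProduct, Fintype.prod_sum, pv, ← Finset.prod_mul_distrib]
  exact Finset.sum_congr rfl fun a _ => Finset.prod_congr rfl fun l _ => mul_comm _ _

/-- The tensor power is unitary. -/
lemma herm_tform [Finite F] (T : Type) [Fintype T] [DecidableEq T] :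
    Cfsg.Geo.IsUnitaryForm σ (tform σ h T) where
  ne_refl := hS.herm.ne_refl
  involutive := hS.herm.involutive
  add_left := tform_add_left
  smul_left := tform_smul_left
  herm x y := by
    simp only [tform, map_sum, map_mul, map_prod, hS.herm.involutive]
    rw [Finset.sum_comm]
    refine Finset.sum_congr rfl fun b _ => Finset.sum_congr rfl fun a _ => ?_
    simp only [Cfsg.Geo.gramMatrix, ← hS.herm.herm]
    ring
  nondegenerate x hx := by
    obtain ⟨a, ha⟩ := Function.ne_iff.1 hx
    choose d hd using fun b : Fin k => hS.fu_surjective (Pi.single b 1)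
    have key : tform σ h T x (pv fun l => d (a l)) = x a := by
      rw [hS.tform_pv_right, Finset.sum_eq_single a]
      · simp [hd]
      · intro b _ hb
        obtain ⟨l, hl⟩ := Function.ne_iff.1 hb
        rw [Finset.prod_eq_zero (Finset.mem_univ l), mul_zero]
        simp [hd, hl]
      · simp
    refine ⟨⟨pv fun l => d (a l), ?_⟩, ⟨pv fun l => d (a l), by rw [key]; exact ha⟩⟩
    have e : tform σ h T (pv fun l => d (a l)) x = σ (tform σ h T x (pv fun l => d (a l))) := by
      simp only [tform, map_sum, map_mul, map_prod, hS.herm.involutive]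
      rw [Finset.sum_comm]
      refine Finset.sum_congr rfl fun b _ => Finset.sum_congr rfl fun c _ => ?_
      simp only [Cfsg.Geo.gramMatrix, ← hS.herm.herm]
      ring
    rw [e, key]
    exact (map_ne_zero_iff σ σ.injective).2 ha

/-- The skew multiple of the tensor power. -/
lemma skewT [Finite F] (T : Type) [Fintype T] [DecidableEq T] :
    IsSkewForm σ (sf ζ (tform σ h T)) where
  ne_refl := hS.herm.ne_refl
  involutive := hS.herm.involutive
  add_left x y v := by simp only [sf, tform_add_left]; ring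
  smul_left c x v := by simp only [sf, tform_smul_left]; ring
  skew v w := by simp only [sf, map_mul, hS.skew]; rw [(hS.herm_tform T).herm v w]; ring
  nondegenerate v hv := by
    obtain ⟨⟨x, hx⟩, ⟨y, hy⟩⟩ := (hS.herm_tform T).nondegenerate v hv
    exact ⟨⟨x, mul_ne_zero hS.ne hx⟩, ⟨y, mul_ne_zero hS.ne hy⟩⟩

/-- Pairing with a slice through the contraction. -/
lemma tform_ten_right [Finite F] (i : T) (z : (T → Fin k) → F) (w : Fin k → F)
    (y : Rest i k → F) :
    tform σ h T z (ten i w y) = tform σ h {l : T // l ≠ i} (cv h i w z) y := by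
  let L : ((T → Fin k) → F) →ₗ[F] F :=
    { toFun := fun z => tform σ h T z (ten i w y)
      map_add' := fun z z' => tform_add_left z z' _
      map_smul' := fun c z => tform_smul_left c z _ }
  let R : ((T → Fin k) → F) →ₗ[F] F :=
    { toFun := fun z => tform σ h {l : T // l ≠ i} (cv h i w z) y
      map_add' := fun z z' => by rw [map_add, tform_add_left]
      map_smul' := fun c z => by rw [map_smul, tform_smul_left]; rfl }
  refine LinearMap.congr_fun (f := L) (g := R) (ext_pv fun u => ?_) z
  change tform σ h T (pv u) (ten i w y) =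
    tform σ h {l : T // l ≠ i} (cv h i w (pv u)) y
  have key : ∀ r : Rest i k, tform σ h T (pv u) (ten i w (Pi.single r 1)) =
      tform σ h {l : T // l ≠ i} (cv h i w (pv u)) (Pi.single r 1) := by
    intro r
    rw [ten_single, hS.tform_pv, pv_eq_ten i u, cv, con_ten, hS.fu_dot, tform_smul_left,
      ← pv_single r, hS.tform_pv, ← Finset.mul_prod_erase _ _ (Finset.mem_univ i), dif_pos rfl]
    congr 1
    rw [Finset.prod_subtype (Finset.univ.erase i) (p := fun l => l ≠ i) (by simp)]
    exact Finset.prod_congr rfl fun l _ => by rw [dif_neg l.2]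
  conv_lhs => rw [pi_eq_sum_univ' y, map_sum, tform_sum_right]
  conv_rhs => rw [pi_eq_sum_univ' y, tform_sum_right]
  refine Finset.sum_congr rfl fun r _ => ?_
  rw [map_smul, (hS.herm_tform T).herm, tform_smul_left, map_mul, ← (hS.herm_tform T).herm,
    key, (hS.herm_tform _).herm _ (y r • Pi.single r 1), tform_smul_left, map_mul,
    ← (hS.herm_tform _).herm]

lemma tform_ten [Finite F] (i : T) (v w : Fin k → F) (y y' : Rest i k → F) :
    tform σ h T (ten i v y) (ten i w y') = h v w * tform σ h {l : T // l ≠ i} y y' := by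
  rw [hS.tform_ten_right, cv, con_ten, hS.fu_dot, tform_smul_left]

/-- The slice of an isotropic vector is totally isotropic. -/
lemma tform_slice [Finite F] (i : T) {w : Fin k → F} (hw : h w w = 0) {x y : (T → Fin k) → F}
    (hx : x ∈ slice i w) (hy : y ∈ slice i w) : tform σ h T x y = 0 := by
  obtain ⟨x, rfl⟩ := hx
  obtain ⟨y, rfl⟩ := hy
  rw [hS.tform_ten, hw, zero_mul]

@[simp] lemma cv_ten (i : T) (w v : Fin k → F) (y : Rest i k → F) :
    cv h i w (ten i v y) = h v w • y := by
  rw [cv, con_ten, hS.fu_dot]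

lemma cv_add (i : T) (u v : Fin k → F) (z : (T → Fin k) → F) :
    cv h i (u + v) z = cv h i u z + cv h i v z := by
  rw [cv, hS.fu_add, con_add_left]; rfl

lemma cv_smul (i : T) (c : F) (u : Fin k → F) (z : (T → Fin k) → F) :
    cv h i (c • u) z = σ c • cv h i u z := by
  rw [cv, hS.fu_smul, con_smul_left]; rfl

/-- Isometries of one factor act isometrically. -/
lemma slot_isom [Finite F] (i : T) {a : GL (Fin k) F} (ha : a ∈ isom h) :
    slot i a ∈ isom (tform σ h T) := by
  refine mem_isom_iff.2 fun x y => ?_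
  have h1 : ∀ (x : (T → Fin k) → F) (v : Fin k → F) (y : Rest i k → F),
      tform σ h T (ap (slot i a) x) (ten i (ap a v) y) = tform σ h T x (ten i v y) := by
    intro x v y
    conv_lhs => rw [eq_sum_ten i x]
    conv_rhs => rw [eq_sum_ten i x]
    rw [show ap (slot i a) (∑ c, ten i (Pi.single c 1) (con i (Pi.single c 1) x)) =
      ∑ c, ap (slot i a) (ten i (Pi.single c 1) (con i (Pi.single c 1) x)) from
        map_sum (apEquiv (slot i a)).toLinearMap _ _]
    simp only [hS.tform_ten_right i, map_sum, slot_ten, hS.cv_ten, mem_isom_iff.1 ha]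
  conv_lhs => rw [eq_sum_ten i y]
  conv_rhs => rw [eq_sum_ten i y]
  rw [show ap (slot i a) (∑ c, ten i (Pi.single c 1) (con i (Pi.single c 1) y)) =
    ∑ c, ap (slot i a) (ten i (Pi.single c 1) (con i (Pi.single c 1) y)) from
      map_sum (apEquiv (slot i a)).toLinearMap _ _, tform_sum_right, tform_sum_right]
  exact Finset.sum_congr rfl fun c _ => by rw [slot_ten, h1]

omit hS in
/-- Permutations of the factors act isometrically. -/
lemma perm_isom (π : Equiv.Perm T) : perm π ∈ isom (tform σ h T) := by
  refine mem_isom_iff.2 fun x y => ?_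
  let e : (T → Fin k) ≃ (T → Fin k) := Equiv.arrowCongr π.symm (Equiv.refl (Fin k))
  have he : ∀ a : T → Fin k, e a = a ∘ π := fun a => by
    funext l; simp [e, Equiv.arrowCongr]
  refine Fintype.sum_equiv e _ _ fun a => Fintype.sum_equiv e _ _ fun b => ?_
  rw [ap_perm, ap_perm, he, he]
  congr 2
  exact (Equiv.prod_comp π fun l => Cfsg.Geo.gramMatrix h (a l) (b l)).symm

end Space

/-! ### Root elements and overgroups -/

/-- The special isometries of one factor. -/
def su (h : (Fin k → F) → (Fin k → F) → F) : Subgroup (GL (Fin k) F) :=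
  isom h ⊓ Cfsg.Geo.specialLinear (Fin k) F

/-- `u` is the identity plus `C` from the contraction against `w` into the slice of `w`. -/
def IsUp (h : (Fin k → F) → (Fin k → F) → F) (i : T) (w : Fin k → F)
    (C : (Rest i k → F) →ₗ[F] (Rest i k → F)) (u : GL (T → Fin k) F) : Prop :=
  ∀ z, ap u z = z + ten i w (C (cv h i w z))

variable (σ h) in
/-- An overgroup, inside the unitary group, of the special factorwise isometries and the cyclic
exchanges of three factors. -/
structure Over (M : Subgroup (GL (T → Fin k) F)) : Prop where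
  le : M ≤ isom (tform σ h T)
  slot_mem : ∀ (i : T) (a : GL (Fin k) F), a ∈ su h → slot i a ∈ M
  cyc_mem : ∀ a b c : T, a ≠ b → b ≠ c → a ≠ c → perm (Equiv.swap a c * Equiv.swap a b) ∈ M

variable (σ h) in
/-- `M` holds the special unitary group of the tensor power. -/
def Full (M : Subgroup (GL (T → Fin k) F)) : Prop :=
  isom (tform σ h T) ⊓ Cfsg.Geo.specialLinear (T → Fin k) F ≤ M

variable (σ h) in
/-- The dichotomy for the index type `T`. -/
def Dichotomy (T : Type) [Fintype T] [DecidableEq T] : Prop :=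
  ∀ M : Subgroup (GL (T → Fin k) F), Over σ h M → Full σ h M ∨ M ≤ wreath T k F

/-- `M` holds a transvection whose centre is a product of isotropic vectors. -/
def HasPure (h : (Fin k → F) → (Fin k → F) → F) (σ : F ≃+* F)
    (M : Subgroup (GL (T → Fin k) F)) : Prop :=
  ∃ u : T → Fin k → F, (∀ l, u l ≠ 0 ∧ h (u l) (u l) = 0) ∧ ∃ d : F, d ≠ 0 ∧
    ∃ g ∈ M, ∀ z, ap g z = z + (d * tform σ h T z (pv u)) • pv u

variable (h) in
/-- Elements of `M` carrying slices of isotropic vectors to such slices act factorwise. -/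
def SliceClosed (M : Subgroup (GL (T → Fin k) F)) : Prop :=
  ∀ g ∈ M, ∀ (i j : T) (w w' : Fin k → F), w ≠ 0 → w' ≠ 0 → h w w = 0 → h w' w' = 0 →
    (slice j w').map (apEquiv g).toLinearMap = slice i w → g ∈ wreath T k F

variable (h) in
/-- The radical elements of isotropic slices in `M` come from the single factor. -/
def UpScalar (M : Subgroup (GL (T → Fin k) F)) : Prop :=
  ∀ (i : T) (w : Fin k → F), w ≠ 0 → h w w = 0 → ∀ u ∈ M,
    ∀ C : (Rest i k → F) →ₗ[F] (Rest i k → F), IsUp h i w C u → ∃ c : F, ∀ y, C y = c • y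

/-- The transvections of one factor with a given isotropic centre. -/
def tvGroup (hS : Space σ h ζ) {w : Fin k → F} (hw : h w w = 0) : Subgroup (GL (Fin k) F) where
  carrier := {a | ∃ c : F, σ c = c ∧ ∀ v, ap a v = v + (c * ζ * h v w) • w}
  one_mem' := ⟨0, map_zero σ, fun v => by simp⟩
  mul_mem' := by
    rintro a b ⟨c, hc, ha⟩ ⟨d, hd, hb⟩
    refine ⟨c + d, by rw [map_add, hc, hd], fun v => ?_⟩
    rw [ap_mul, hb, ha, hS.herm.add_left, hS.herm.smul_left, hw]
    module
  inv_mem' := by
    rintro a ⟨c, hc, ha⟩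
    refine ⟨-c, by rw [map_neg, hc], fun v => ap_injective a ?_⟩
    rw [ap_ap_inv, ha, hS.herm.add_left, hS.herm.smul_left, hw]
    module

/-- The root group of an isotropic slice. -/
def rootU (hS : Space σ h ζ) (i : T) {w : Fin k → F} (hw : h w w = 0) :
    Subgroup (GL (T → Fin k) F) :=
  (tvGroup hS hw).map (slot i)

lemma tvGroup_le_su (hS : Space σ h ζ) {w : Fin k → F} (hw : h w w = 0) :
    tvGroup hS hw ≤ su h := by
  rintro a ⟨c, hc, ha⟩
  have hsw : sf ζ h w w = 0 := by rw [sf, hw, mul_zero]
  have hTa : a = Unitary.T hS.skew₁ w c hsw := gl_ext fun v => by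
    rw [Unitary.ap_T hS.skew₁, ha, sf, mul_assoc]
  subst hTa
  refine ⟨?_, Unitary.T_mem_specialLinear hS.skew₁ hsw⟩
  have := Unitary.T_mem_isom hS.skew₁ hsw hc
  exact (isom_mul_const hS.ne h).le this

end CfsgLib.Geometric.TPowU
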