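import Cfsg.Agent.Lib.Geometric.TensorUnitary.Gen
import Cfsg.Agent.Lib.Geometric.TensorHerm.Sesq

/-!
A radical element of an isotropic slice which is not the product of a scalar and a transvection of
one factor forces the special unitary group of the tensor power: sandwiching with root operators of
the other factors yields an elementary operator on several factors, and the commutator of two of
them one on more factors.
-/

set_option autoImplicit false

namespace CfsgLib.Geometric.TPowU

open Matrix TPow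

variable {T : Type} [Fintype T] [DecidableEq T] {k : ℕ} {F : Type*} [Field F]
variable {σ : F ≃+* F} {h : (Fin k → F) → (Fin k → F) → F} {ζ : F}

/-- The linear map of an invertible matrix. -/
def lin (g : GL (T → Fin k) F) : Module.End F ((T → Fin k) → F) := (apEquiv g).toLinearMap

@[simp] lemma lin_apply (g : GL (T → Fin k) F) (z : (T → Fin k) → F) : lin g z = ap g z := rfl

lemma lin_mul (g g' : GL (T → Fin k) F) : lin (g * g') = lin g * lin g' :=
  LinearMap.ext fun z => by simp [ap_mul]

lemma lin_one : lin (1 : GL (T → Fin k) F) = 1 := LinearMap.ext fun z => by simp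

lemma lin_mul_inv (g : GL (T → Fin k) F) : lin g * lin g⁻¹ = 1 := by
  rw [← lin_mul, mul_inv_cancel, lin_one]

lemma lin_inv_mul (g : GL (T → Fin k) F) : lin g⁻¹ * lin g = 1 := by
  rw [← lin_mul, inv_mul_cancel, lin_one]

lemma lin_inv_eq {g : GL (T → Fin k) F} {Y : Module.End F ((T → Fin k) → F)}
    (hY : lin g * Y = 1) : lin g⁻¹ = Y := by
  rw [← mul_one (lin g⁻¹), ← hY, ← mul_assoc, lin_inv_mul, one_mul]

lemma end_mul_neg (A B : Module.End F ((T → Fin k) → F)) : A * -B = -(A * B) :=
  LinearMap.ext fun z => map_neg A (B z)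

lemma end_neg_mul (A B : Module.End F ((T → Fin k) → F)) : -A * B = -(A * B) :=
  LinearMap.ext fun _ => rfl

/-- The operator `⊗`-acting as `x ↦ h(x, b) a` on the factor `l`. -/
def rop (h : (Fin k → F) → (Fin k → F) → F) (l : T) (a b : Fin k → F) :
    Module.End F ((T → Fin k) → F) :=
  (ten l a).comp (cv h l b)

lemma rop_apply (l : T) (a b : Fin k → F) (z : (T → Fin k) → F) :
    rop h l a b z = ten l a (cv h l b z) := rfl

/-- `X` commutes with the operators of the factor `l`. -/
def Free (h : (Fin k → F) → (Fin k → F) → F) (l : T) (X : Module.End F ((T → Fin k) → F)) : Prop :=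
  ∀ a b, rop h l a b * X = X * rop h l a b

/-- `X` factors through the root operator of `w` at the factor `l`. -/
def SlotN (h : (Fin k → F) → (Fin k → F) → F) (l : T) (w v : Fin k → F)
    (X : Module.End F ((T → Fin k) → F)) : Prop :=
  rop h l w v * X = X ∧ X * rop h l v w = X

/-- `1 + X` lies in `M`. -/
def Mem (M : Subgroup (GL (T → Fin k) F)) (X : Module.End F ((T → Fin k) → F)) : Prop :=
  ∃ g ∈ M, lin g = 1 + X

/-- The coefficient of the elementary operator on the factors in `A`. -/
def patc (h : (Fin k → F) → (Fin k → F) → F) (A : Finset T) (w u : T → Fin k → F) : F :=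
  ∏ l ∈ A, h (u l) (w l)

/-- `M` holds a non-trivial elementary operator on the factors in `A` with the vectors `w`. -/
def HasPat (h : (Fin k → F) → (Fin k → F) → F) (M : Subgroup (GL (T → Fin k) F)) (A : Finset T)
    (w : T → Fin k → F) : Prop :=
  (∀ l ∈ A, w l ≠ 0 ∧ h (w l) (w l) = 0) ∧ ∃ d : F, d ≠ 0 ∧ ∃ X, Mem M X ∧
    ∀ u, X (pv u) = (d * patc h A w u) • pv (A.piecewise w u)

lemma pv_ne_zero {u : T → Fin k → F} (hu : ∀ l, u l ≠ 0) : pv u ≠ 0 := by
  choose a ha using fun l => Function.ne_iff.1 (hu l)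
  exact fun h0 => Finset.prod_ne_zero_iff.2 (fun l _ => ha l) (congrFun h0 a)

lemma Free.mul {l : T} {X Y : Module.End F ((T → Fin k) → F)} (hX : Free h l X)
    (hY : Free h l Y) : Free h l (X * Y) := fun a b => by
  rw [← mul_assoc, hX, mul_assoc, hY, mul_assoc]

lemma Free.sub {l : T} {X Y : Module.End F ((T → Fin k) → F)} (hX : Free h l X)
    (hY : Free h l Y) : Free h l (X - Y) := fun a b => by rw [mul_sub, sub_mul, hX, hY]

lemma Free.add {l : T} {X Y : Module.End F ((T → Fin k) → F)} (hX : Free h l X)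
    (hY : Free h l Y) : Free h l (X + Y) := fun a b => by rw [mul_add, add_mul, hX, hY]

lemma Free.smul {l : T} {X : Module.End F ((T → Fin k) → F)} (hX : Free h l X) (c : F) :
    Free h l (c • X) := fun a b => by rw [mul_smul_comm, smul_mul_assoc, hX]

lemma Free.one (l : T) : Free h l (1 : Module.End F ((T → Fin k) → F)) := fun a b => by simp

lemma Free.lin_inv {l : T} {g : GL (T → Fin k) F} (hg : Free h l (lin g)) :
    Free h l (lin g⁻¹) := fun a b => by
  calc rop h l a b * lin g⁻¹ = lin g⁻¹ * (lin g * rop h l a b) * lin g⁻¹ := by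
        rw [← mul_assoc (lin g⁻¹), lin_inv_mul, one_mul]
    _ = lin g⁻¹ * rop h l a b := by
        rw [← hg, mul_assoc, mul_assoc, lin_mul_inv, mul_one]

namespace Space

variable (hS : Space σ h ζ)
include hS

lemma rop_mul (l : T) (a b c d : Fin k → F) :
    rop h l a b * rop h l c d = h c b • rop h l a d :=
  LinearMap.ext fun z => by simp [rop, hS.cv_ten]

lemma rop_pv (l : T) (a b : Fin k → F) (u : T → Fin k → F) :
    rop h l a b (pv u) = h (u l) b • pv (Function.update u l a) := by
  rw [rop_apply, pv_eq_ten l u, hS.cv_ten, map_smul, pv_update]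

lemma free_rop {l l' : T} (hl : l' ≠ l) (a b : Fin k → F) : Free h l (rop h l' a b) := by
  intro c d
  refine ext_pv fun u => ?_
  simp only [Module.End.mul_apply, hS.rop_pv, map_smul, Function.update_of_ne hl,
    Function.update_of_ne hl.symm, smul_smul, Function.update_comm hl.symm]
  rw [mul_comm]

lemma partner_symm {w v : Fin k → F} (hvw : h v w = 1) : h w v = 1 := by
  rw [hS.herm.herm, hvw, map_one]

variable {l : T} {w v : Fin k → F} {X Y : Module.End F ((T → Fin k) → F)}

lemma slotN_change {v' : Fin k → F} (hX : SlotN h l w v X) (hv' : h v' w = 1) :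
    SlotN h l w v' X := by
  constructor
  · conv_lhs => rw [← hX.1]
    rw [← mul_assoc, hS.rop_mul, hS.partner_symm hv', one_smul, hX.1]
  · conv_lhs => rw [← hX.2]
    rw [mul_assoc, hS.rop_mul, hv', one_smul, hX.2]

lemma slotN_mul_mul (hw : h w w = 0) (hX : SlotN h l w v X) (hY : Free h l Y) :
    X * Y * X = 0 := by
  calc X * Y * X = X * rop h l v w * Y * (rop h l w v * X) := by rw [hX.1, hX.2]
    _ = X * Y * (rop h l v w * rop h l w v) * X := by
        rw [mul_assoc X (rop h l v w) Y, hY]; simp only [mul_assoc]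
    _ = 0 := by rw [hS.rop_mul, hw]; simp

lemma slotN_apply_slice (hw : h w w = 0) (hX : SlotN h l w v X) {z : (T → Fin k) → F}
    (hz : z ∈ slice l w) : X z = 0 := by
  obtain ⟨y, rfl⟩ := hz
  rw [← hX.2, Module.End.mul_apply, rop_apply, hS.cv_ten, hw, zero_smul, map_zero, map_zero]

omit hS in
lemma slotN_apply_mem (hX : SlotN h l w v X) (z : (T → Fin k) → F) : X z ∈ slice l w := by
  rw [← hX.1, Module.End.mul_apply, rop_apply]
  exact ten_mem_slice _ _ _

end Space

section

variable (hS : Space σ h ζ) {M : Subgroup (GL (T → Fin k) F)}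
include hS

/-- Elements of `1 +` maps through one root operator form a group. -/
lemma Mem.sub {i : T} {w v : Fin k → F} {X Y : Module.End F ((T → Fin k) → F)} (hw : h w w = 0)
    (hX : SlotN h i w v X) (hY : SlotN h i w v Y) (hXm : Mem M X) (hYm : Mem M Y) :
    Mem M (X - Y) := by
  obtain ⟨g, hg, hgX⟩ := hXm
  obtain ⟨g', hg', hgY⟩ := hYm
  have hz : ∀ A B, SlotN h i w v A → SlotN h i w v B → A * B = 0 := fun A B hA hB => by
    rw [← hA.2, ← hB.1, mul_assoc, ← mul_assoc (rop h i v w), hS.rop_mul, hw]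
    simp
  refine ⟨g * g'⁻¹, mul_mem hg (inv_mem hg'), ?_⟩
  rw [lin_mul, hgX, lin_inv_eq (g := g') (Y := 1 - Y) (by
    rw [hgY]; simp only [mul_sub, add_mul, mul_one, one_mul, hz Y Y hY hY]; abel)]
  simp only [mul_sub, add_mul, mul_one, one_mul, hz X Y hX hY]
  abel

variable [Finite F] (hM : Over σ h M)
include hM

/-- Sandwiching with a root operator of another factor. -/
lemma sandwich (hk : 3 ≤ k) {i l : T} (hli : l ≠ i) {w v u : Fin k → F} (hw : h w w = 0)
    (hu : h u u = 0) (hu0 : u ≠ 0) {X : Module.End F ((T → Fin k) → F)}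
    (hX : SlotN h i w v X) (hXm : Mem M X) :
    SlotN h i w v (rop h l u u * X * rop h l u u) ∧
      Mem M (rop h l u u * X * rop h l u u) := by
  have hf₁ := hS.skew₁
  set n := rop h l u u with hn
  have hfn := hS.free_rop (l := i) (l' := l) hli u u
  refine ⟨⟨?_, ?_⟩, ?_⟩
  · rw [← mul_assoc, ← mul_assoc, hfn w v, mul_assoc n, hX.1]
  · rw [mul_assoc, ← hfn v w, ← mul_assoc, mul_assoc n X, hX.2]
  obtain ⟨p, hp, hpu⟩ := hS.exists_partner hu hu0
  obtain ⟨x, -, hxx, hux, -⟩ := Unitary.exists_anisotropic_perp_pair hf₁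
    (Unitary.nondeg_perp_bot hf₁)
    (by rw [Unitary.finrank_perp_bot hf₁, Fintype.card_fin]; exact hk)
    (Unitary.mem_perp_bot hf₁ u) (Unitary.mem_perp_bot hf₁ p) (hS.sf_eq_zero.2 hu)
    (hS.sf_eq_zero.2 hp) (by rw [Ne, hS.sf_eq_zero, hS.partner_symm hpu]; exact one_ne_zero)
  rw [hS.sf_eq_zero] at hux
  rw [Ne, hS.sf_eq_zero] at hxx
  have hxu : h x u = 0 := hS.eq_zero_comm₁.1 hux
  obtain ⟨s, hs⟩ := Unitary.exists_sub_eq hf₁ (s := ζ) hS.skew
  have hsx : h (s • x) u = 0 := by rw [hS.herm.smul_left, hxu, mul_zero]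
  set c := 1 / (ζ * ζ * (ζ * ζ) * h x x) with hc
  have hσc : σ c = c := by
    rw [hc, map_div₀, map_one, map_mul, map_mul, map_mul, hS.skew, ← hS.herm.herm x x]
    ring
  have hin : ∀ (y : Fin k → F) (d : F) (hyu : sf ζ h y u = 0),
      d - σ d = sf ζ h y y → ∃ g ∈ M, Free h i (lin g) ∧
        lin g = 1 + (ζ • rop h l y u + ζ • rop h l u y + (d * ζ) • rop h l u u) := by
    intro y d hyu hd
    set e := Unitary.E hf₁ u y d (hS.sf_eq_zero.2 hu) hyu
    have he : e ∈ su h := ⟨(isom_mul_const hS.ne h).le (Unitary.E_mem hf₁ hd).1,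
      (Unitary.E_mem hf₁ hd).2⟩
    have hval : lin (slot l e) =
        1 + (ζ • rop h l y u + ζ • rop h l u y + (d * ζ) • rop h l u u) := by
      refine ext_ten l fun a z => ?_
      simp only [lin_apply, slot_ten, e, Unitary.ap_E hf₁, LinearMap.add_apply,
        Module.End.one_apply, LinearMap.smul_apply, rop_apply, hS.cv_ten, map_smul, sf,
        ten_add_left, ten_smul_left, smul_smul, mul_assoc]
      abel
    refine ⟨slot l e, hM.slot_mem l e he, ?_, hval⟩
    rw [hval]
    exact (Free.one i).add ((((hS.free_rop hli _ _).smul _).add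
      ((hS.free_rop hli _ _).smul _)).add (hfn.smul _))
  have hconj : ∀ {g : GL (T → Fin k) F} {Y : Module.End F ((T → Fin k) → F)}, g ∈ M →
      Free h i (lin g) → SlotN h i w v Y → Mem M Y →
      SlotN h i w v (lin g * Y * lin g⁻¹ - Y) ∧ Mem M (lin g * Y * lin g⁻¹ - Y) := by
    intro g Y hg hgf hY hYm
    have h1 : SlotN h i w v (lin g * Y * lin g⁻¹) := by
      constructor
      · rw [← mul_assoc, ← mul_assoc, hgf, mul_assoc (lin g), hY.1]
      · rw [mul_assoc, ← hgf.lin_inv v w, ← mul_assoc, mul_assoc (lin g) Y, hY.2]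
    refine ⟨⟨by rw [mul_sub, h1.1, hY.1], by rw [sub_mul, h1.2, hY.2]⟩, Mem.sub hS hw h1 hY ?_ hYm⟩
    obtain ⟨g', hg', hg'Y⟩ := hYm
    refine ⟨g * g' * g⁻¹, mul_mem (mul_mem hg hg') (inv_mem hg), ?_⟩
    rw [lin_mul, lin_mul, hg'Y, mul_add, mul_one, add_mul, lin_mul_inv]
  obtain ⟨c₁, hc₁⟩ := Unitary.exists_sub_eq hf₁ (Unitary.skew_self hf₁ x)
  obtain ⟨c₂, hc₂⟩ := Unitary.exists_sub_eq hf₁ (Unitary.skew_self hf₁ (s • x))
  obtain ⟨g₁, hg₁, hf1, he₁⟩ := hin x c₁ (hS.sf_eq_zero.2 hxu) hc₁
  obtain ⟨g₂, hg₂, hf2, he₂⟩ := hin (s • x) c₂ (hS.sf_eq_zero.2 hsx) hc₂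
  obtain ⟨g₃, hg₃, hf3, he₃⟩ := hin 0 c (Unitary.zero_left hf₁ u) (by
    rw [hσc, sub_self, Unitary.zero_left hf₁])
  set A₁ := ζ • rop h l x u + ζ • rop h l u x + (c₁ * ζ) • n with hA₁
  set A₂ := ζ • rop h l (s • x) u + ζ • rop h l u (s • x) + (c₂ * ζ) • n with hA₂
  have hus : h u (s • x) = 0 := by rw [hS.smul_right, hux, mul_zero]
  have n1 : n * A₁ = 0 := by simp [hA₁, hn, mul_add, hS.rop_mul, hxu, hu]
  have n2 : n * A₂ = 0 := by simp [hA₂, hn, mul_add, hS.rop_mul, hsx, hu]
  have m1 : A₁ * n = 0 := by simp [hA₁, hn, add_mul, hS.rop_mul, hux, hu]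
  have m2 : A₂ * n = 0 := by simp [hA₂, hn, add_mul, hS.rop_mul, hus, hu]
  have p12 : A₁ * A₂ = (ζ * ζ * (s * h x x)) • n := by
    simp [hA₁, hA₂, hn, add_mul, mul_add, hS.rop_mul, hxu, hux, hu, hsx, hus,
      hS.herm.smul_left, smul_smul]
    ring_nf
  have p21 : A₂ * A₁ = (ζ * ζ * (σ s * h x x)) • n := by
    simp [hA₁, hA₂, hn, add_mul, mul_add, hS.rop_mul, hxu, hux, hu, hsx, hus,
      hS.smul_right, smul_smul]
    ring_nf
  have e3 : lin g₃ = 1 + (c * ζ) • n := by
    rw [he₃, show rop h l (0 : Fin k → F) u = 0 from LinearMap.ext fun z => by simp [rop_apply],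
      show rop h l u (0 : Fin k → F) = 0 from LinearMap.ext fun z => by
        rw [rop_apply, show (0 : Fin k → F) = (0 : F) • u by simp, hS.cv_smul]; simp]
    simp [hn]
  have hnn : n * n = 0 := by simp [hn, hS.rop_mul, hu]
  have e3' : lin g₃⁻¹ = 1 - (c * ζ) • n := lin_inv_eq (by
    rw [e3]; simp [mul_sub, add_mul, hnn])
  have a1 : n * lin g₁ = n := by rw [he₁, mul_add, mul_one, n1, add_zero]
  have a2 : n * lin g₂ = n := by rw [he₂, mul_add, mul_one, n2, add_zero]
  have b1 : lin g₁ * n = n := by rw [he₁, add_mul, one_mul, m1, add_zero]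
  have a2' : n * lin g₂⁻¹ = n := by
    conv_lhs => rw [← a2]
    rw [mul_assoc, lin_mul_inv, mul_one]
  have b1' : lin g₁⁻¹ * n = n := by
    conv_lhs => rw [← b1]
    rw [← mul_assoc, lin_inv_mul, one_mul]
  have b2' : lin g₂⁻¹ * n = n := by
    have b2 : lin g₂ * n = n := by rw [he₂, add_mul, one_mul, m2, add_zero]
    conv_lhs => rw [← b2]
    rw [← mul_assoc, lin_inv_mul, one_mul]
  have d1 : lin g₁⁻¹ - 1 = -(lin g₁⁻¹ * A₁) := by
    have := lin_inv_mul g₁
    rw [he₁, mul_add, mul_one] at this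
    rw [sub_eq_iff_eq_add, neg_add_eq_sub, eq_sub_iff_add_eq, this]
  have d2 : lin g₂⁻¹ - 1 = -(A₂ * lin g₂⁻¹) := by
    have := lin_mul_inv g₂
    rw [he₂, add_mul, one_mul] at this
    rw [sub_eq_iff_eq_add, neg_add_eq_sub, eq_sub_iff_add_eq, this]
  obtain ⟨hs1, hm1⟩ := hconj hg₁ hf1 hX hXm
  set X₁ := lin g₁ * X * lin g₁⁻¹ - X with hX₁
  obtain ⟨hs2, hm2⟩ := hconj hg₂ hf2 hs1 hm1
  set X₂ := lin g₂ * X₁ * lin g₂⁻¹ - X₁ with hX₂
  obtain ⟨-, hm3⟩ := hconj hg₃ hf3 hs2 hm2
  have L1 : n * X₁ = -(n * X * lin g₁⁻¹ * A₁) := by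
    rw [hX₁, mul_sub, ← mul_assoc, ← mul_assoc, a1, ← mul_sub_one, d1]
    rw [end_mul_neg, ← mul_assoc]
  have L2 : n * X₂ = (ζ * ζ * (s * h x x)) • (n * X * n) := by
    rw [hX₂, mul_sub, ← mul_assoc, ← mul_assoc, a2, ← mul_sub_one, d2, L1]
    rw [end_mul_neg, end_neg_mul, neg_neg]
    rw [← mul_assoc, mul_assoc (n * X * lin g₁⁻¹), p12, mul_smul_comm, smul_mul_assoc,
      mul_assoc (n * X), b1', mul_assoc (n * X), a2']
  have R1 : X₁ * n = A₁ * X * n := by
    rw [hX₁, sub_mul, mul_assoc (lin g₁ * X), b1', he₁, add_mul, add_mul, one_mul,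
      add_sub_cancel_left]
  have R2 : X₂ * n = (ζ * ζ * (σ s * h x x)) • (n * X * n) := by
    rw [hX₂, sub_mul, mul_assoc (lin g₂ * X₁), b2', he₂, add_mul, add_mul, one_mul,
      add_sub_cancel_left, mul_assoc A₂, R1, ← mul_assoc, ← mul_assoc, p21, smul_mul_assoc,
      smul_mul_assoc]
  have hfin : lin g₃ * X₂ * lin g₃⁻¹ - X₂ = n * X * n := by
    rw [e3, e3']
    simp only [add_mul, mul_sub, one_mul, mul_one, smul_mul_assoc, mul_smul_comm, mul_assoc,
      R2, L2]
    simp only [hnn, mul_zero, smul_zero, add_zero, smul_smul, ← mul_assoc]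
    have : c * ζ * (ζ * ζ * (s * h x x)) - c * ζ * (ζ * ζ * (σ s * h x x)) = 1 := by
      rw [hc]; field_simp [hS.ne, hxx]; linear_combination hs
    calc _ = (c * ζ * (ζ * ζ * (s * h x x)) - c * ζ * (ζ * ζ * (σ s * h x x))) •
          (n * (X * n)) := by module
      _ = _ := by rw [this, one_smul, ← mul_assoc]
  rwa [hfin] at hm3

omit hM in
/-- An operator whose sandwiches at the isotropic vectors vanish commutes with the factor. -/
lemma free_of_sandwich (hk : 3 ≤ k) {l : T} {X : Module.End F ((T → Fin k) → F)}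
    (hX : ∀ u, u ≠ 0 → h u u = 0 → rop h l u u * X * rop h l u u = 0) : Free h l X := by
  classical
  set J : Matrix (Fin k) (Fin k) F := Matrix.of fun a b => ζ * Cfsg.Geo.gramMatrix h a b with hJ
  have hJf : ∀ x y : Fin k → F, x ⬝ᵥ (J *ᵥ fun b => σ (y b)) = sf ζ h x y := by
    intro x y
    rw [sf, ← hS.fu_dot y x, dotProduct_comm (fu h y), dotProduct, dotProduct, Finset.mul_sum]
    refine Finset.sum_congr rfl fun a _ => ?_
    rw [← hS.sum_gram a y, hJ, Matrix.mulVec, dotProduct, Finset.mul_sum, Finset.mul_sum,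
      Finset.mul_sum]
    refine Finset.sum_congr rfl fun b _ => ?_
    simp only [Matrix.of_apply]
    ring
  let D : TensorForm.Datum k F :=
    { J := J
      σ := σ.toRingHom
      invol := hS.herm.involutive
      skew := Matrix.ext fun a b => by
        simp only [hJ, Matrix.transpose_apply, Matrix.neg_apply, Matrix.map_apply, Matrix.of_apply,
          Cfsg.Geo.gramMatrix, RingEquiv.toRingHom_eq_coe, RingHom.coe_coe]
        exact hS.skew₁.skew _ _
      det := fun h0 => by
        obtain ⟨v, hv0, hv⟩ := Matrix.exists_mulVec_eq_zero_iff.2 h0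
        set y : Fin k → F := fun b => σ (v b)
        have hy : y ≠ 0 := fun hy0 => hv0 (funext fun b => by
          simpa [y] using congrFun hy0 b)
        obtain ⟨x, hx⟩ := (hS.skew₁.nondegenerate y hy).1
        refine hx ?_
        rw [← hJf, show (fun b => σ (y b)) = v from funext fun b => hS.herm.involutive _, hv,
          dotProduct_zero] }
  have hD : TensorHerm.IsHerm D := ⟨fun h0 => hS.herm.ne_refl
    (RingEquiv.ext fun x => RingHom.congr_fun h0 x)⟩
  let B : (Fin k → F) → (Fin k → F) → ((Rest l k → F) →ₗ[F] (Rest l k → F)) :=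
    fun a b => (cv h l b).comp (X.comp (ten l a))
  have hB : TensorHerm.Sesq D B :=
    { add_left := fun a a' b => LinearMap.ext fun y => by simp [B, ten_add_left]
      smul_left := fun s a b => LinearMap.ext fun y => by simp [B, ten_smul_left]
      add_right := fun a b b' => LinearMap.ext fun y => by simp [B, hS.cv_add]
      smul_right := fun s a b => LinearMap.ext fun y => by
        simp only [B, LinearMap.comp_apply, LinearMap.smul_apply, hS.cv_smul]; rfl }
  have h0 : ∀ u, D.f1 u u = 0 → B u u = 0 := by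
    intro u hu
    replace hu : h u u = 0 := hS.sf_eq_zero.1 ((hJf u u).symm.trans hu)
    by_cases hu0 : u = 0
    · subst hu0
      exact LinearMap.ext fun y => by simp [B]
    obtain ⟨p, -, hp⟩ := hS.exists_partner hu hu0
    refine LinearMap.ext fun y => ten_injective l hu0 ?_
    have := LinearMap.congr_fun (hX u hu0 hu) (ten l p y)
    simpa [Module.End.mul_apply, rop_apply, hS.cv_ten, hp, B] using this
  obtain ⟨K, hK⟩ := TensorHerm.exists_eq_smul_of_isotropic hD (by omega) hB h0
  have key : ∀ (a : Fin k → F) (y : Rest l k → F), X (ten l a y) = ten l a (ζ • K y) := by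
    intro a y
    refine ext_con (i := l) fun p => ?_
    obtain ⟨b, hb⟩ := hS.fu_surjective (Pi.single p 1)
    rw [← hb]
    change cv h l b (X (ten l a y)) = cv h l b (ten l a (ζ • K y))
    rw [hS.cv_ten, show cv h l b (X (ten l a y)) = B a b y from rfl, hK, LinearMap.smul_apply,
      show D.f1 a b = sf ζ h a b from hJf a b, sf, smul_smul, mul_comm]
  intro a b
  refine ext_ten l fun c y => ?_
  simp only [Module.End.mul_apply, rop_apply, key, hS.cv_ten, map_smul]
  rw [smul_comm]

omit hM in
/-- An operator through root operators on the factors in `A` and commuting with the others. -/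
theorem eq_pat (hk : 3 ≤ k) {A : Finset T} {w v : T → Fin k → F} {X : Module.End F ((T → Fin k) → F)}
    (hwv : ∀ l ∈ A, h (v l) (w l) = 1) (hN : ∀ l ∈ A, SlotN h l (w l) (v l) X)
    (hF : ∀ l ∉ A, Free h l X) :
    ∃ c : F, ∀ u, X (pv u) = (c * patc h A w u) • pv (A.piecewise w u) := by
  classical
  have hk0 : ∀ l ∈ A, w l ≠ 0 := fun l hl h0 => one_ne_zero (α := F) (by
    rw [← hwv l hl, h0, ← hS.sf_eq_zero, Unitary.zero_right hS.skew₁])
  have s1 : ∀ s ⊆ A, ∀ u, X (pv u) = patc h s w u • X (pv (s.piecewise v u)) := by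
    intro s
    induction s using Finset.induction with
    | empty => intro _ u; simp [patc]
    | insert l s hl ih =>
      intro hs u
      obtain ⟨hlA, hsA⟩ := Finset.insert_subset_iff.1 hs
      rw [ih hsA u]
      conv_lhs => rw [← (hN l hlA).2, Module.End.mul_apply, hS.rop_pv, map_smul,
        Finset.piecewise_eq_of_notMem _ _ _ hl, ← Finset.piecewise_insert]
      rw [smul_smul, patc, patc, Finset.prod_insert hl, mul_comm]
  let p0 : Fin k := ⟨0, by omega⟩
  set u0 := A.piecewise v fun _ => Pi.single p0 (1 : F) with hu0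
  choose b hb using fun l => hS.fu_surjective (Pi.single p0 (1 : F))
  have hb1 : ∀ l ∉ A, h (u0 l) (b l) = 1 := fun l hl => by
    rw [hu0, Finset.piecewise_eq_of_notMem _ _ _ hl, ← hS.fu_dot, hb]; simp
  set t0 := A.piecewise w u0 with ht0
  have ht : ∀ l, t0 l ≠ 0 := fun l => by
    by_cases hl : l ∈ A
    · rw [ht0, Finset.piecewise_eq_of_mem _ _ _ hl]; exact hk0 l hl
    · rw [ht0, Finset.piecewise_eq_of_notMem _ _ _ hl, hu0,
        Finset.piecewise_eq_of_notMem _ _ _ hl]
      simp
  obtain ⟨c, hc⟩ := Submodule.mem_span_singleton.1 (mem_span_pv_of_slices t0 ht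
    (z := X (pv u0)) fun l => by
    by_cases hl : l ∈ A
    · rw [ht0, Finset.piecewise_eq_of_mem _ _ _ hl]
      exact Space.slotN_apply_mem (hN l hl) _
    · rw [ht0, Finset.piecewise_eq_of_notMem _ _ _ hl]
      have e : rop h l (u0 l) (b l) (pv u0) = pv u0 := by
        rw [hS.rop_pv, hb1 l hl, one_smul, Function.update_eq_self]
      rw [← e, ← Module.End.mul_apply, ← hF l hl, Module.End.mul_apply, rop_apply]
      exact ten_mem_slice _ _ _)
  refine ⟨c, fun u => ?_⟩
  suffices hs : ∀ s : Finset T, ∀ u, (∀ l ∈ A, u l = v l) → (∀ l ∉ A, l ∉ s → u l = u0 l) →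
      X (pv u) = c • pv (A.piecewise w u) by
    rw [s1 A subset_rfl u, hs Finset.univ (A.piecewise v u)
      (fun l hl => Finset.piecewise_eq_of_mem _ _ _ hl)
      (fun l _ hl => absurd (Finset.mem_univ l) hl), smul_smul, mul_comm,
      Finset.piecewise_piecewise_of_subset_right subset_rfl]
  intro s
  induction s using Finset.induction with
  | empty =>
    intro u h1 h2
    have hu : u = u0 := funext fun l => by
      by_cases hl : l ∈ A
      · rw [h1 l hl, hu0, Finset.piecewise_eq_of_mem _ _ _ hl]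
      · exact h2 l hl (Finset.notMem_empty l)
    rw [hu, ← hc, ht0]
  | insert l s hl ih =>
    intro u h1 h2
    by_cases hlA : l ∈ A
    · refine ih u h1 fun j hj hjs => h2 j hj ?_
      simp only [Finset.mem_insert, hjs, or_false]
      rintro rfl; exact hj hlA
    set u' := Function.update u l (u0 l) with hu'
    have e : rop h l (u l) (b l) (pv u') = pv u := by
      rw [hS.rop_pv, hu', Function.update_self, hb1 l hlA, one_smul, Function.update_idem,
        Function.update_eq_self]
    conv_lhs => rw [← e]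
    rw [← Module.End.mul_apply, ← hF l hlA, Module.End.mul_apply, ih u' (fun j hj => by
        rw [hu', Function.update_of_ne (ne_of_mem_of_not_mem hj hlA)]; exact h1 j hj)
      (fun j hj hjs => by
        by_cases hjl : j = l
        · subst hjl; rw [hu', Function.update_self]
        · rw [hu', Function.update_of_ne hjl]; exact h2 j hj (by simp [hjl, hjs])),
      map_smul, hS.rop_pv, Finset.piecewise_eq_of_notMem _ _ _ hlA, hu', Function.update_self,
      hb1 l hlA, one_smul]
    congr 2
    funext j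
    by_cases hjl : j = l
    · subst hjl; rw [Function.update_self, Finset.piecewise_eq_of_notMem _ _ _ hlA]
    · rw [Function.update_of_ne hjl]
      by_cases hj : j ∈ A <;> simp [hj, u', Function.update_of_ne hjl]

omit hM [Finite F] in
/-- The elementary operators factor through their root operators. -/
lemma slotN_pat {A : Finset T} {w : T → Fin k → F} {d : F}
    {X : Module.End F ((T → Fin k) → F)}
    (hX : ∀ u, X (pv u) = (d * patc h A w u) • pv (A.piecewise w u)) {l : T} (hl : l ∈ A)
    {v : Fin k → F} (hv : h v (w l) = 1) : SlotN h l (w l) v X := by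
  classical
  constructor
  · refine ext_pv fun u => ?_
    rw [Module.End.mul_apply, hX, map_smul, hS.rop_pv, Finset.piecewise_eq_of_mem _ _ _ hl,
      hS.partner_symm hv, one_smul]
    congr 2
    exact Function.update_eq_self_iff.2 (Finset.piecewise_eq_of_mem _ _ _ hl).symm
  · refine ext_pv fun u => ?_
    rw [Module.End.mul_apply, hS.rop_pv, map_smul, hX, hX, smul_smul]
    have hp : h (u l) (w l) * patc h A w (Function.update u l v) = patc h A w u := by
      rw [patc, patc, ← Finset.mul_prod_erase A _ hl, ← Finset.mul_prod_erase A _ hl,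
        Function.update_self, hv, one_mul]
      congr 1
      exact Finset.prod_congr rfl fun j hj => by
        rw [Function.update_of_ne (Finset.ne_of_mem_erase hj)]
    congr 1
    · rw [mul_left_comm, hp]
    · congr 1
      funext j
      by_cases hj : j ∈ A
      · simp [hj]
      · rw [Finset.piecewise_eq_of_notMem _ _ _ hj, Finset.piecewise_eq_of_notMem _ _ _ hj,
          Function.update_of_ne (ne_of_mem_of_not_mem hl hj).symm]

omit hM [Finite F] in
/-- The elementary operators commute with the factors outside their support. -/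
lemma free_pat {A : Finset T} {w : T → Fin k → F} {d : F}
    {X : Module.End F ((T → Fin k) → F)}
    (hX : ∀ u, X (pv u) = (d * patc h A w u) • pv (A.piecewise w u)) {l : T} (hl : l ∉ A) :
    Free h l X := by
  classical
  intro a b
  refine ext_pv fun u => ?_
  have hp : patc h A w (Function.update u l a) = patc h A w u :=
    Finset.prod_congr rfl fun j hj => by rw [Function.update_of_ne (ne_of_mem_of_not_mem hj hl)]
  simp only [Module.End.mul_apply, hX, map_smul, hS.rop_pv, hp, smul_smul,
    Finset.piecewise_eq_of_notMem _ _ _ hl]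
  congr 1
  · ring
  · congr 1
    funext j
    by_cases hjl : j = l
    · subst hjl; simp [hl]
    · by_cases hj : j ∈ A <;> simp [hj, Function.update_of_ne hjl]

omit hM in
/-- Reading an elementary operator off a member with slots and free factors. -/
lemma hasPat_of_slots (hk : 3 ≤ k) {A : Finset T} {w v : T → Fin k → F}
    {X : Module.End F ((T → Fin k) → F)} (hXm : Mem M X) (hX0 : X ≠ 0)
    (hwv : ∀ l ∈ A, h (v l) (w l) = 1) (hwi : ∀ l ∈ A, h (w l) (w l) = 0)
    (hN : ∀ l ∈ A, SlotN h l (w l) (v l) X) (hF : ∀ l ∉ A, Free h l X) : HasPat h M A w := by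
  obtain ⟨c, hc⟩ := eq_pat hS hk hwv hN hF
  refine ⟨fun l hl => ⟨fun h0 => one_ne_zero (α := F) ?_, hwi l hl⟩, c, ?_, X, hXm, hc⟩
  · rw [← hwv l hl, h0, ← hS.sf_eq_zero, Unitary.zero_right hS.skew₁]
  · rintro rfl
    exact hX0 (ext_pv fun u => by simp [hc])

/-- A member through one root operator not commuting with another factor gives an elementary
operator on at least two factors. -/
theorem exists_hasPat (hk : 3 ≤ k) {i l₀ : T} (hl₀ : l₀ ≠ i) {w v : Fin k → F} (hw : h w w = 0)
    (hv : h v w = 1) {X : Module.End F ((T → Fin k) → F)} (hX : SlotN h i w v X) (hXm : Mem M X)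
    (hnf : ¬ Free h l₀ X) : ∃ A W, 2 ≤ A.card ∧ HasPat h M A W := by
  classical
  suffices hs : ∀ s : Finset T, ∃ (A : Finset T) (W V : T → Fin k → F)
      (Y : Module.End F ((T → Fin k) → F)), 2 ≤ A.card ∧ i ∈ A ∧ W i = w ∧ Mem M Y ∧ Y ≠ 0 ∧
      (∀ l ∈ A, h (V l) (W l) = 1 ∧ h (W l) (W l) = 0 ∧ SlotN h l (W l) (V l) Y) ∧
      ∀ l ∈ s, l ∉ A → Free h l Y by
    obtain ⟨A, W, V, Y, hA, -, -, hYm, hY0, hsl, hF⟩ := hs Finset.univ
    exact ⟨A, W, hA, hasPat_of_slots hS hk hYm hY0 (fun l hl => (hsl l hl).1)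
      (fun l hl => (hsl l hl).2.1) (fun l hl => (hsl l hl).2.2)
      fun l hl => hF l (Finset.mem_univ l) hl⟩
  -- one step
  have hnew : ∀ (l : T) (Y : Module.End F ((T → Fin k) → F)), ¬ Free h l Y →
      ∃ u p, h u u = 0 ∧ u ≠ 0 ∧ h p u = 1 ∧ rop h l u u * Y * rop h l u u ≠ 0 ∧
        SlotN h l u p (rop h l u u * Y * rop h l u u) := by
    intro l Y hY
    obtain ⟨u, hu0, hu, hne⟩ : ∃ u, u ≠ 0 ∧ h u u = 0 ∧ rop h l u u * Y * rop h l u u ≠ 0 := by
      by_contra hc
      push Not at hc
      exact hY (free_of_sandwich hS hk hc)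
    obtain ⟨p, -, hp⟩ := hS.exists_partner hu hu0
    refine ⟨u, p, hu, hu0, hp, hne, ?_, ?_⟩
    · rw [← mul_assoc, ← mul_assoc, hS.rop_mul, hS.partner_symm hp, one_smul]
    · rw [mul_assoc, hS.rop_mul, hp, one_smul]
  intro s
  induction s using Finset.induction with
  | empty =>
    obtain ⟨u, p, hu, hu0, hp, hne, hsl⟩ := hnew l₀ X hnf
    obtain ⟨hXi, hXi'⟩ := sandwich hS hM hk hl₀ hw hu hu0 hX hXm
    refine ⟨{i, l₀}, fun l => if l = i then w else u, fun l => if l = i then v else p, _,
      by rw [Finset.card_pair (Ne.symm hl₀)], by simp, by simp, hXi', hne, fun l hl => ?_,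
      fun l hl => absurd hl (Finset.notMem_empty l)⟩
    rcases Finset.mem_insert.1 hl with rfl | hl
    · simp [hv, hw, hXi]
    · rw [Finset.mem_singleton] at hl
      subst hl
      simp [hl₀, hp, hu, hsl]
  | insert l s hls ih =>
    obtain ⟨A, W, V, Y, hA, hiA, hWi, hYm, hY0, hsl, hF⟩ := ih
    by_cases hdone : l ∈ A ∨ Free h l Y
    · refine ⟨A, W, V, Y, hA, hiA, hWi, hYm, hY0, hsl, fun j hj hjA => ?_⟩
      rcases Finset.mem_insert.1 hj with rfl | hj
      · exact hdone.resolve_left hjA
      · exact hF j hj hjA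
    push Not at hdone
    obtain ⟨hlA, hnfl⟩ := hdone
    obtain ⟨u, p, hu, hu0, hp, hne, hslu⟩ := hnew l Y hnfl
    have hli : l ≠ i := fun e => hlA (e ▸ hiA)
    obtain ⟨-, hm⟩ := sandwich hS hM hk hli (hsl i hiA).2.1 hu hu0 (hsl i hiA).2.2 hYm
    refine ⟨insert l A, Function.update W l u, Function.update V l p, _,
      hA.trans (Finset.card_le_card (Finset.subset_insert _ _)), Finset.mem_insert_of_mem hiA,
      by rw [Function.update_of_ne hli.symm, hWi], hm, hne, fun j hj => ?_, fun j hj hjA => ?_⟩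
    · by_cases hjl : j = l
      · subst hjl; simp [hp, hu, hslu]
      · have hjA : j ∈ A := (Finset.mem_insert.1 hj).resolve_left hjl
        rw [Function.update_of_ne hjl, Function.update_of_ne hjl]
        obtain ⟨h1, h2, h3, h4⟩ := hsl j hjA
        have hn := hS.free_rop (l := j) (Ne.symm hjl) u u
        refine ⟨h1, h2, ?_, ?_⟩
        · rw [← mul_assoc, ← mul_assoc, hn, mul_assoc (rop h l u u), h3]
        · rw [mul_assoc, ← hn, ← mul_assoc, mul_assoc (rop h l u u) Y, h4]
    · simp only [Finset.mem_insert, not_or] at hjA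
      have hjs : j ∈ s := (Finset.mem_insert.1 hj).resolve_left hjA.1
      exact ((hS.free_rop (Ne.symm hjA.1) u u).mul (hF j hjs hjA.2)).mul
        (hS.free_rop (Ne.symm hjA.1) u u)

omit hS hM [Finite F] in
lemma mem_conj {g : GL (T → Fin k) F} (hg : g ∈ M) {X : Module.End F ((T → Fin k) → F)}
    (hX : Mem M X) : Mem M (lin g * X * lin g⁻¹) := by
  obtain ⟨g', hg', hg'X⟩ := hX
  refine ⟨g * g' * g⁻¹, mul_mem (mul_mem hg hg') (inv_mem hg), ?_⟩
  rw [lin_mul, lin_mul, hg'X, mul_add, mul_one, add_mul, lin_mul_inv]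

/-- The vectors of an elementary operator may be changed. -/
lemma HasPat.change (hk : 3 ≤ k) {A : Finset T} {w w' : T → Fin k → F} (hP : HasPat h M A w)
    (hw' : ∀ l ∈ A, w' l ≠ 0 ∧ h (w' l) (w' l) = 0) : HasPat h M A w' := by
  classical
  suffices hs : ∀ s ⊆ A, HasPat h M A (s.piecewise w' w) by
    obtain ⟨h1, d, hd, X, hXm, hX⟩ := hs A subset_rfl
    refine ⟨hw', d, hd, X, hXm, fun u => ?_⟩
    rw [hX, Finset.piecewise_piecewise_of_subset_left subset_rfl]
    congr 2
    exact Finset.prod_congr rfl fun l hl => by rw [Finset.piecewise_eq_of_mem _ _ _ hl]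
  intro s
  induction s using Finset.induction with
  | empty => intro _; simpa using hP
  | insert l s hls ih =>
    intro hsA
    obtain ⟨hlA, hsA⟩ := Finset.insert_subset_iff.1 hsA
    obtain ⟨h1, d, hd, X, hXm, hX⟩ := ih hsA
    set W := s.piecewise w' w
    have hWl : W l = w l := Finset.piecewise_eq_of_notMem _ _ _ hls
    obtain ⟨a, ha, hax⟩ := hS.exists_su_move hk (h1 l hlA).2 (hw' l hlA).2 (h1 l hlA).1
      (hw' l hlA).1
    refine ⟨fun j hj => ?_, d, hd, lin (slot l a) * X * lin (slot l a)⁻¹,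
      mem_conj (hM.slot_mem l a ha) hXm, fun u => ?_⟩
    · by_cases hjl : j = l
      · subst hjl; rw [Finset.piecewise_eq_of_mem _ _ _ (Finset.mem_insert_self _ _)]; exact hw' j hj
      · rw [show (insert l s).piecewise w' w j = W j by
          rw [Finset.piecewise_insert, Function.update_of_ne hjl]]
        exact h1 j hj
    have hsap := fun (a : GL (Fin k) F) (ha : a ∈ su h) (u : T → Fin k → F) =>
      (slot_pv_mem (M := M) hM l ha u).2
    rw [Module.End.mul_apply, Module.End.mul_apply, lin_apply, lin_apply, ← map_inv,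
      hsap a⁻¹ (inv_mem ha), hX, ap_smul, hsap a ha]
    congr 1
    · congr 1
      refine Finset.prod_congr rfl fun j hj => ?_
      by_cases hjl : j = l
      · subst hjl
        rw [Function.update_self, Finset.piecewise_eq_of_mem _ _ _ (Finset.mem_insert_self _ _),
          ← hax]
        have := mem_isom_iff.1 ha.1 (ap a⁻¹ (u j)) (W j)
        rw [ap_ap_inv] at this
        exact this.symm
      · rw [Function.update_of_ne hjl, Finset.piecewise_insert, Function.update_of_ne hjl]
    · congr 1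
      funext j
      by_cases hjl : j = l
      · subst hjl
        rw [Function.update_self, Finset.piecewise_eq_of_mem _ _ _ hlA,
          Finset.piecewise_eq_of_mem _ _ _ hlA, hax,
          Finset.piecewise_eq_of_mem _ _ _ (Finset.mem_insert_self _ _)]
      · rw [Function.update_of_ne hjl]
        by_cases hj : j ∈ A
        · rw [Finset.piecewise_eq_of_mem _ _ _ hj, Finset.piecewise_eq_of_mem _ _ _ hj,
            Finset.piecewise_insert, Function.update_of_ne hjl]
        · rw [Finset.piecewise_eq_of_notMem _ _ _ hj, Finset.piecewise_eq_of_notMem _ _ _ hj,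
            Function.update_of_ne hjl]

/-- An elementary operator moves along the cyclic exchanges of factors. -/
lemma HasPat.move {A : Finset T} {w : T → Fin k → F} (hP : HasPat h M A w) {a b c : T}
    (ha : a ∈ A) (hc : c ∈ A) (hb : b ∉ A) (hac : a ≠ c) :
    ∃ w', HasPat h M (insert b (A.erase a)) w' := by
  classical
  obtain ⟨h1, d, hd, X, hXm, hX⟩ := hP
  have hab : a ≠ b := ne_of_mem_of_not_mem ha hb
  have hcb : c ≠ b := ne_of_mem_of_not_mem hc hb
  set π := Equiv.swap a b * Equiv.swap a c with hπ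
  have hA : A.map π.toEmbedding = insert b (A.erase a) := by
    refine Finset.eq_of_subset_of_card_le (fun x hx => ?_) ?_
    · obtain ⟨j, hj, rfl⟩ := Finset.mem_map.1 hx
      by_cases hja : j = a
      · subst hja
        simp [hπ, Equiv.swap_apply_of_ne_of_ne hac.symm hcb, hac.symm, hc]
      by_cases hjc : j = c
      · subst hjc
        simp [hπ]
      · have hjb : j ≠ b := ne_of_mem_of_not_mem hj hb
        simp [hπ, Equiv.swap_apply_of_ne_of_ne hja hjc, Equiv.swap_apply_of_ne_of_ne hja hjb,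
          hja, hj]
    · rw [Finset.card_map, Finset.card_insert_of_notMem (fun hm => hb (Finset.mem_of_mem_erase hm)),
        Finset.card_erase_add_one ha]
  refine ⟨fun l => w (π.symm l), fun l hl => ?_, d, hd, lin (perm π) * X * lin (perm π)⁻¹,
    mem_conj (hM.cyc_mem a c b hac hcb hab) hXm, fun u => ?_⟩
  · rw [← hA] at hl
    obtain ⟨j, hj, rfl⟩ := Finset.mem_map.1 hl
    simpa using h1 j hj
  rw [Module.End.mul_apply, Module.End.mul_apply, lin_apply, lin_apply, ← map_inv, ap_perm_pv,
    hX, ap_smul, ap_perm_pv, ← hA]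
  congr 1
  · rw [patc, patc, Finset.prod_map]
    simp [Equiv.Perm.inv_def]
  · congr 1
    funext l
    by_cases hl : π.symm l ∈ A
    · have : l ∈ A.map π.toEmbedding := Finset.mem_map_equiv.2 hl
      simp [hl, this]
    · have : l ∉ A.map π.toEmbedding := fun hm => hl (Finset.mem_map_equiv.1 hm)
      simp [hl, this, Equiv.Perm.inv_def]

omit [Fintype T] [DecidableEq T] hM in
/-- An isotropic vector with a product of pairings avoiding a given real line. -/
lemma exists_pairing_vector (hk : 3 ≤ k) {w v : Fin k → F} (hw : h w w = 0) (hv : h v v = 0)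
    (hvw : h v w = 1) {Q : F} (hQ : Q ≠ 0) :
    ∃ u, u ≠ 0 ∧ h u u = 0 ∧ h u v * h w u ≠ 0 ∧
      σ (h u v * h w u * Q) ≠ h u v * h w u * Q := by
  have hf₁ := hS.skew₁
  have hwv := hS.partner_symm hvw
  obtain ⟨m, -, hmm, hwm, hvm⟩ := Unitary.exists_anisotropic_perp_pair hf₁
    (Unitary.nondeg_perp_bot hf₁)
    (by rw [Unitary.finrank_perp_bot hf₁, Fintype.card_fin]; exact hk)
    (Unitary.mem_perp_bot hf₁ w) (Unitary.mem_perp_bot hf₁ v) (hS.sf_eq_zero.2 hw)
    (hS.sf_eq_zero.2 hv) (by rw [Ne, hS.sf_eq_zero, hwv]; exact one_ne_zero)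
  rw [hS.sf_eq_zero] at hwm hvm
  rw [Ne, hS.sf_eq_zero] at hmm
  obtain ⟨θ, hθ⟩ := Unitary.exists_trace hf₁
  have hβ : ∀ β : F, β + σ β = -h m m →
      h (w + β • v + m) (w + β • v + m) = 0 ∧ h (w + β • v + m) v = 1 ∧
        h w (w + β • v + m) = σ β := by
    intro β hβ
    refine ⟨?_, ?_, ?_⟩ <;>
      simp only [hS.herm.add_left, hS.add_right, hS.herm.smul_left, hS.smul_right, hw, hv, hvw,
        hwv, hwm, hvm, hS.eq_zero_comm₁.1 hwm, hS.eq_zero_comm₁.1 hvm]
    · linear_combination hβ
    · ring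
    · ring
  have hmσ : σ (h m m) = h m m := (hS.herm.herm m m).symm
  suffices hex : ∃ β : F, β + σ β = -h m m ∧ σ (σ β * Q) ≠ σ β * Q by
    obtain ⟨β, hb, hne⟩ := hex
    obtain ⟨h1, h2, h3⟩ := hβ β hb
    refine ⟨_, fun h0 => one_ne_zero (α := F) ?_, h1, ?_, by rwa [h2, h3, one_mul]⟩
    · rw [← h2, h0, ← hS.sf_eq_zero, Unitary.zero_left hf₁]
    · rw [h2, h3, one_mul, Ne, map_eq_zero_iff σ σ.injective]
      rintro rfl
      rw [map_zero, add_zero, eq_comm, neg_eq_zero] at hb
      exact hmm hb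
  by_contra hc
  push Not at hc
  set β := -(h m m * θ) with hβdef
  have hb : β + σ β = -h m m := by
    rw [hβdef, map_neg, map_mul, hmσ]; linear_combination -(h m m) * hθ
  have e1 := hc β hb
  have e2 := hc (β + ζ) (by rw [map_add, hS.skew]; linear_combination hb)
  rw [map_mul, hS.herm.involutive] at e1 e2
  rw [map_add, hS.skew] at e2
  have hσQ : σ Q = -Q := mul_left_cancel₀ hS.ne (by linear_combination e2 - e1)
  rw [hσQ] at e1
  refine mul_ne_zero hmm hQ ?_
  linear_combination Q * hb + e1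

/-- An elementary operator on some but not all factors gives one on more. -/
theorem HasPat.grow (hk : 3 ≤ k) {A : Finset T} {W₀ : T → Fin k → F} (hP : HasPat h M A W₀)
    (h2 : 2 ≤ A.card) {b : T} (hb : b ∉ A) : ∃ W, HasPat h M (insert b A) W := by
  classical
  obtain ⟨a, ha, c, hc, hac⟩ := Finset.one_lt_card.1 h2
  set C := A.erase a with hC
  have hcC : c ∈ C := Finset.mem_erase.2 ⟨hac.symm, hc⟩
  have hab : a ≠ b := ne_of_mem_of_not_mem ha hb
  have hbC : b ∉ C := fun hm => hb (Finset.mem_of_mem_erase hm)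
  have haC : a ∉ C := Finset.notMem_erase _ _
  obtain ⟨hW₀, -⟩ := id hP
  obtain ⟨z, hz0, hz⟩ : ∃ z, z ≠ 0 ∧ h z z = 0 := ⟨W₀ a, hW₀ a ha⟩
  have hzne : ∀ {y x : Fin k → F}, h y x = 1 → y ≠ 0 := fun {y x} hyx h0 =>
    one_ne_zero (α := F) (by rw [← hyx, h0, ← hS.sf_eq_zero, Unitary.zero_left hS.skew₁])
  -- the vectors
  set w : T → Fin k → F := fun _ => z
  obtain ⟨v, hv, hvz⟩ := hS.exists_partner hz hz0
  have hzv := hS.partner_symm hvz
  have hv0 : v ≠ 0 := hzne hvz
  -- the two operators
  obtain ⟨-, d, hd, X, hXm, hX⟩ := HasPat.change hS hM hk hP (w' := w) fun _ _ => ⟨hz0, hz⟩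
  obtain ⟨w₂, hP₂⟩ := HasPat.move hS hM hP ha hc hb hac
  rw [← hC] at hP₂
  set Wy : T → Fin k → F := Function.update (fun _ => v) b z with hWy
  obtain ⟨-, d', hd', Y, hYm, hY⟩ := HasPat.change hS hM hk hP₂ (w' := Wy) fun l _ => by
    by_cases hlb : l = b
    · subst hlb; simp [hWy, hz0, hz]
    · simp [hWy, hlb, hv0, hv]
  -- their commutator
  have hXa : SlotN h a z v X := slotN_pat hS hX ha (show h v (w a) = 1 from hvz)
  have hYa : Free h a Y := free_pat hS hY (by simp [hab, haC])
  have hYb : SlotN h b z v Y := by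
    have := slotN_pat hS hY (Finset.mem_insert_self b C) (v := v) (by simp [hWy, hvz])
    simpa [hWy] using this
  have hXb : Free h b X := free_pat hS hX hb
  have hXX : X * X = 0 := by
    calc X * X = X * rop h a v z * (rop h a z v * X) := by rw [hXa.2, hXa.1]
      _ = X * (rop h a v z * rop h a z v) * X := by simp only [mul_assoc]
      _ = 0 := by rw [hS.rop_mul, hz]; simp
  have hYY : Y * Y = 0 := by
    calc Y * Y = Y * rop h b v z * (rop h b z v * Y) := by rw [hYb.2, hYb.1]
      _ = Y * (rop h b v z * rop h b z v) * Y := by simp only [mul_assoc]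
      _ = 0 := by rw [hS.rop_mul, hz]; simp
  have hXYX : X * Y * X = 0 := hS.slotN_mul_mul hz hXa hYa
  have hYXY : Y * X * Y = 0 := hS.slotN_mul_mul hz hYb hXb
  set Z := X * Y - Y * X with hZ
  have hZm : Mem M Z := by
    obtain ⟨g, hg, hgX⟩ := hXm
    obtain ⟨g', hg', hgY⟩ := hYm
    refine ⟨g * g' * g⁻¹ * g'⁻¹, mul_mem (mul_mem (mul_mem hg hg') (inv_mem hg)) (inv_mem hg'), ?_⟩
    rw [lin_mul, lin_mul, lin_mul, hgX, hgY,
      lin_inv_eq (g := g) (Y := 1 - X) (by rw [hgX]; simp [mul_sub, add_mul, hXX]),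
      lin_inv_eq (g := g') (Y := 1 - Y) (by rw [hgY]; simp [mul_sub, add_mul, hYY]), hZ]
    simp only [add_mul, mul_add, mul_sub, sub_mul, one_mul, mul_one, hXX, hYY, hXYX, hYXY,
      mul_assoc, zero_mul, mul_zero, ← mul_assoc X X, ← mul_assoc Y Y, ← mul_assoc (X * Y)]
    abel
  have hZa : SlotN h a z v Z := by
    constructor
    · rw [hZ, mul_sub, ← mul_assoc, hXa.1, ← mul_assoc, hYa, mul_assoc Y, hXa.1]
    · rw [hZ, sub_mul, mul_assoc, ← hYa, ← mul_assoc, hXa.2, mul_assoc Y, hXa.2]
  have hZb : SlotN h b z v Z := by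
    constructor
    · rw [hZ, mul_sub, ← mul_assoc, hXb, mul_assoc X, hYb.1, ← mul_assoc, hYb.1]
    · rw [hZ, sub_mul, mul_assoc, hYb.2, mul_assoc, ← hXb, ← mul_assoc, hYb.2]
  -- the vectors of the sandwiches
  obtain ⟨u, hu, hreal⟩ : ∃ u : T → Fin k → F, (∀ l ∈ C, u l ≠ 0 ∧ h (u l) (u l) = 0 ∧
        h (u l) v * h z (u l) ≠ 0) ∧
      σ (∏ l ∈ C, h (u l) v * h z (u l)) ≠ ∏ l ∈ C, h (u l) v * h z (u l) := by
    obtain ⟨u₁, hu₁0, hu₁, hq₁, -⟩ := exists_pairing_vector hS hk hz hv hvz one_ne_zero
    obtain ⟨u₂, hu₂0, hu₂, hq₂, hne⟩ := exists_pairing_vector hS hk hz hv hvz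
      (pow_ne_zero (C.erase c).card hq₁)
    refine ⟨fun l => if l = c then u₂ else u₁, fun l _ => ?_, ?_⟩
    · by_cases hlc : l = c <;> simp [hlc, hu₁0, hu₁, hu₂0, hu₂, hq₁, hq₂]
    · rw [← Finset.mul_prod_erase C _ hcC, Finset.prod_congr rfl (g := fun _ => h u₁ v * h z u₁)
        fun l hl => by simp [Finset.ne_of_mem_erase hl], Finset.prod_const]
      simpa using hne
  choose p hp using fun l : T => show ∃ p, l ∈ C → h p (u l) = 1 by
    by_cases hl : l ∈ C
    · obtain ⟨p, -, hp⟩ := hS.exists_partner (hu l hl).2.1 (hu l hl).1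
      exact ⟨p, fun _ => hp⟩
    · exact ⟨0, fun h' => absurd h' hl⟩
  -- outputs
  let O : Finset T → (Fin k → F) → (T → Fin k → F) → (T → Fin k → F) := fun D o x l =>
    if l = a ∨ l = b then z else if l ∈ D then u l else if l ∈ C then o else x l
  suffices hD : ∀ D ⊆ C, ∃ R, Mem M R ∧ SlotN h a z v R ∧ SlotN h b z v R ∧
      (∀ l ∈ D, SlotN h l (u l) (p l) R) ∧ (∀ l, l ≠ b → l ∉ A → Free h l R) ∧
      ∀ x : T → Fin k → F, x a = v → x b = v → (∀ l ∈ D, x l = p l) → R (pv x) = (d * d') •
        (((∏ l ∈ C \ D, h (x l) v) * ∏ l ∈ D, h (u l) v * h z (u l)) • pv (O D z x) -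
         ((∏ l ∈ C \ D, h (x l) z) * σ (∏ l ∈ D, h (u l) v * h z (u l))) • pv (O D v x)) by
    obtain ⟨R, hRm, hRa, hRb, hRC, hRf, hRv⟩ := hD C subset_rfl
    set V : T → Fin k → F := fun l => if l = a ∨ l = b then v else if l ∈ C then p l else z
    set W : T → Fin k → F := fun l => if l = a ∨ l = b then z else u l
    have hmem : ∀ l ∈ insert b A, l = a ∨ l = b ∨ (¬ (l = a ∨ l = b) ∧ l ∈ C) := by
      intro l hl
      rcases Finset.mem_insert.1 hl with rfl | hl
      · exact Or.inr (Or.inl rfl)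
      · by_cases hla : l = a
        · exact Or.inl hla
        · exact Or.inr (Or.inr ⟨by simp [hla, ne_of_mem_of_not_mem hl hb],
            Finset.mem_erase.2 ⟨hla, hl⟩⟩)
    refine ⟨W, hasPat_of_slots hS hk (v := V) hRm ?_ (fun l hl => ?_) (fun l hl => ?_)
      (fun l hl => ?_) fun l hl => ?_⟩
    · intro h0
      have h1 := hRv V (by simp [V]) (by simp [V]) fun l hl => by
        simp [V, ne_of_mem_of_not_mem hl haC, ne_of_mem_of_not_mem hl hbC, hl]
      have hO : O C z V = O C v V := funext fun l => by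
        simp only [O]; split_ifs <;> rfl
      simp only [h0, hO, Finset.sdiff_self, Finset.prod_empty, one_mul, ← sub_smul, smul_smul,
        LinearMap.zero_apply] at h1
      rw [eq_comm, smul_eq_zero] at h1
      refine h1.elim (mul_ne_zero (mul_ne_zero hd hd') (sub_ne_zero.2 hreal.symm)) ?_
      refine pv_ne_zero fun l => ?_
      simp only [O, V]
      split_ifs with e1 e2
      · exact hz0
      · exact (hu l e2).1
      · exact hz0
    · rcases hmem l hl with rfl | rfl | ⟨h1, h2⟩
      · simp [V, W, hvz]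
      · simp [V, W, hvz]
      · simp only [V, W, if_neg h1, if_pos h2]; exact hp l h2
    · rcases hmem l hl with rfl | rfl | ⟨h1, h2⟩
      · simp [W, hz]
      · simp [W, hz]
      · simp only [W, if_neg h1]; exact (hu l h2).2.1
    · rcases hmem l hl with rfl | rfl | ⟨h1, h2⟩
      · simpa [V, W] using hRa
      · simpa [V, W] using hRb
      · simp only [V, W, if_neg h1, if_pos h2]; exact hRC l h2
    · exact hRf l (fun e => hl (by simp [e])) (fun e => hl (by simp [e]))
  intro D
  induction D using Finset.induction with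
  | empty =>
    intro _
    refine ⟨Z, hZm, hZa, hZb, by simp, fun l hlb hlA => ?_, fun x hxa hxb _ => ?_⟩
    · have h1 : Free h l X := free_pat hS hX hlA
      have h2 : Free h l Y := free_pat hS hY (by simp [hlb, hC, hlA])
      exact (h1.mul h2).sub (h2.mul h1)
    have hXY : X (Y (pv x)) = ((d * d') * ∏ l ∈ C, h (x l) v) • pv (O ∅ z x) := by
      rw [hY, map_smul, hX, smul_smul]
      have e1 : patc h (insert b C) Wy x = ∏ l ∈ C, h (x l) v := by
        rw [patc, Finset.prod_insert hbC, hxb, hWy, Function.update_self, hvz, one_mul]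
        exact Finset.prod_congr rfl fun l hl => by
          rw [Function.update_of_ne (ne_of_mem_of_not_mem hl hbC)]
      have e2 : patc h A w ((insert b C).piecewise Wy x) = 1 := by
        rw [patc]
        refine Finset.prod_eq_one fun l hl => ?_
        by_cases hla : l = a
        · subst hla
          rw [Finset.piecewise_eq_of_notMem _ _ _ (by simp [hab, haC]), hxa]; exact hvz
        · have hlC : l ∈ C := Finset.mem_erase.2 ⟨hla, hl⟩
          rw [Finset.piecewise_eq_of_mem _ _ _ (Finset.mem_insert_of_mem hlC), hWy,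
            Function.update_of_ne (ne_of_mem_of_not_mem hlC hbC)]
          exact hvz
      rw [e1, e2]
      congr 1
      · ring
      · congr 1
        funext l
        simp only [O, Finset.notMem_empty, if_false]
        by_cases hla : l = a
        · subst hla; simp [ha, w]
        by_cases hlb : l = b
        · subst hlb; simp [hb, hWy]
        by_cases hlC : l ∈ C
        · simp [hla, hlb, hlC, Finset.mem_of_mem_erase hlC, w]
        · have hlA : l ∉ A := fun e => hlC (Finset.mem_erase.2 ⟨hla, e⟩)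
          simp [hla, hlb, hlC, hlA]
    have hYX : Y (X (pv x)) = ((d * d') * ∏ l ∈ C, h (x l) z) • pv (O ∅ v x) := by
      rw [hX, map_smul, hY, smul_smul]
      have e1 : patc h A w x = ∏ l ∈ C, h (x l) z := by
        rw [patc, ← Finset.mul_prod_erase A _ ha, hxa, ← hC]
        simp [w, hvz]
      have e2 : patc h (insert b C) Wy (A.piecewise w x) = 1 := by
        rw [patc]
        refine Finset.prod_eq_one fun l hl => ?_
        rcases Finset.mem_insert.1 hl with rfl | hlC
        · rw [Finset.piecewise_eq_of_notMem _ _ _ hb, hxb, hWy, Function.update_self]; exact hvz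
        · rw [Finset.piecewise_eq_of_mem _ _ _ (Finset.mem_of_mem_erase hlC), hWy,
            Function.update_of_ne (ne_of_mem_of_not_mem hlC hbC)]
          exact hzv
      rw [e1, e2]
      congr 1
      · ring
      · congr 1
        funext l
        simp only [O, Finset.notMem_empty, if_false]
        by_cases hla : l = a
        · subst hla; simp [ha, hab, haC, w]
        by_cases hlb : l = b
        · subst hlb; simp [hWy]
        by_cases hlC : l ∈ C
        · simp [hla, hlb, hlC, hWy]
        · have hlA : l ∉ A := fun e => hlC (Finset.mem_erase.2 ⟨hla, e⟩)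
          simp [hla, hlb, hlC, hlA]
    rw [hZ, LinearMap.sub_apply, Module.End.mul_apply, Module.End.mul_apply, hXY, hYX]
    simp only [Finset.sdiff_empty, Finset.prod_empty, map_one, mul_one, smul_sub, smul_smul]
  | insert l D hlD ih =>
    intro hsub
    obtain ⟨hlC, hDC⟩ := Finset.insert_subset_iff.1 hsub
    obtain ⟨R, hRm, hRa, hRb, hRD, hRf, hRv⟩ := ih hDC
    have hla : l ≠ a := ne_of_mem_of_not_mem hlC haC
    have hlb : l ≠ b := ne_of_mem_of_not_mem hlC hbC
    obtain ⟨hu0, hui, -⟩ := hu l hlC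
    obtain ⟨hRa', hRm'⟩ := sandwich hS hM hk hla hz hui hu0 hRa hRm
    have hcomm : ∀ {j : T} {y y' : Fin k → F}, j ≠ l → SlotN h j y y' R →
        SlotN h j y y' (rop h l (u l) (u l) * R * rop h l (u l) (u l)) := by
      intro j y y' hjl hj
      have hn := hS.free_rop (l := j) (Ne.symm hjl) (u l) (u l)
      constructor
      · rw [← mul_assoc, ← mul_assoc, hn, mul_assoc (rop h l _ _), hj.1]
      · rw [mul_assoc, ← hn, ← mul_assoc, mul_assoc (rop h l _ _) R, hj.2]
    refine ⟨_, hRm', hRa', hcomm hlb.symm hRb, fun j hj => ?_, fun j hjb hjA => ?_,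
      fun x hxa hxb hxD => ?_⟩
    · rcases Finset.mem_insert.1 hj with rfl | hj
      · constructor
        · rw [← mul_assoc, ← mul_assoc, hS.rop_mul, hS.partner_symm (hp j hlC), one_smul]
        · rw [mul_assoc, hS.rop_mul, hp j hlC, one_smul]
      · exact hcomm (ne_of_mem_of_not_mem hj hlD) (hRD j hj)
    · have hjl : j ≠ l := fun e => hjA (e ▸ Finset.mem_of_mem_erase hlC)
      exact ((hS.free_rop hjl.symm _ _).mul (hRf j hjb hjA)).mul (hS.free_rop hjl.symm _ _)
    set x' := Function.update x l (u l) with hx'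
    have hlCD : l ∈ C \ D := Finset.mem_sdiff.2 ⟨hlC, hlD⟩
    have hPd : ∀ y, ∏ j ∈ C \ D, h (x' j) y =
        h (u l) y * ∏ j ∈ C \ insert l D, h (x j) y := by
      intro y
      rw [Finset.sdiff_insert, ← Finset.mul_prod_erase _ _ hlCD, hx', Function.update_self]
      congr 1
      exact Finset.prod_congr rfl fun j hj => by
        rw [Function.update_of_ne (Finset.ne_of_mem_erase hj)]
    have hOl : ∀ o, O D o x' l = o := fun o => by simp [O, hla, hlb, hlD, hlC]
    have hO : ∀ o, Function.update (O D o x') l (u l) = O (insert l D) o x := by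
      intro o
      funext j
      by_cases hjl : j = l
      · subst hjl; simp [O, hla, hlb]
      · simp [O, hx', Function.update_of_ne hjl, hjl]
    rw [Module.End.mul_apply, Module.End.mul_apply, hS.rop_pv, hxD l (Finset.mem_insert_self _ _),
      hp l hlC, one_smul, ← hx', hRv x' (by rw [hx', Function.update_of_ne hla.symm, hxa])
        (by rw [hx', Function.update_of_ne hlb.symm, hxb]) fun j hj => by
        rw [hx', Function.update_of_ne (ne_of_mem_of_not_mem hj hlD)]
        exact hxD j (Finset.mem_insert_of_mem hj)]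
    simp only [map_smul, map_sub, hS.rop_pv, hOl, hO, hPd, Finset.prod_insert hlD, map_mul,
      smul_smul, ← hS.herm.herm]
    congr 2 <;> congr 1 <;> ring

/-- An elementary operator on at least two factors gives a pure transvection. -/
theorem hasPure_of_hasPat (hk : 3 ≤ k) {A : Finset T} {W : T → Fin k → F}
    (hP : HasPat h M A W) (h2 : 2 ≤ A.card) : HasPure h σ M := by
  classical
  suffices hn : ∀ n, ∀ A : Finset T, ∀ W, HasPat h M A W → 2 ≤ A.card →
      Fintype.card T - A.card = n → HasPure h σ M from hn _ A W hP h2 rfl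
  intro n
  induction n with
  | zero =>
    intro A W hP h2 hn
    have hA : A = Finset.univ := Finset.eq_univ_of_card A
      (le_antisymm (Finset.card_le_univ A) (by omega))
    subst hA
    obtain ⟨hW, d, hd, X, ⟨g, hg, hgX⟩, hX⟩ := hP
    refine ⟨W, fun l => hW l (Finset.mem_univ l), d, hd, g, hg, fun z => ?_⟩
    let L : ((T → Fin k) → F) →ₗ[F] ((T → Fin k) → F) :=
      { toFun := fun z => (d * tform σ h T z (pv W)) • pv W
        map_add' := fun z z' => by rw [Space.tform_add_left, mul_add, add_smul]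
        map_smul' := fun c z => by
          rw [Space.tform_smul_left, RingHom.id_apply, smul_smul]; ring_nf }
    have hXL : X = L := ext_pv fun u => by
      rw [hX, Finset.piecewise_univ]
      simp [L, hS.tform_pv, patc]
    have := LinearMap.congr_fun hgX z
    rw [lin_apply, LinearMap.add_apply, Module.End.one_apply, hXL] at this
    exact this
  | succ n ih =>
    intro A W hP h2 hn
    obtain ⟨b, -, hb⟩ : ∃ b ∈ (Finset.univ : Finset T), b ∉ A :=
      Finset.exists_mem_notMem_of_card_lt_card (by rw [Finset.card_univ]; omega)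
    obtain ⟨W', hW'⟩ := HasPat.grow hS hM hk hP h2 hb
    refine ih _ W' hW' ?_ ?_ <;> rw [Finset.card_insert_of_notMem hb] <;> omega

/-- Without the special unitary group, radical elements of isotropic slices are scalar. -/
theorem upScalar_of_not_full (hk : 3 ≤ k) (hT : 2 ≤ Fintype.card T)
    (hq : 4 ≤ k ∨ ∃ c : F, σ c = c ∧ c ≠ 0 ∧ c ≠ 1) (hX : ¬ Full σ h M) : UpScalar h M := by
  classical
  intro i w hw0 hw u hu C hC
  obtain ⟨v, -, hvw⟩ := hS.exists_partner hw hw0
  set X : Module.End F ((T → Fin k) → F) := (ten i w).comp (C.comp (cv h i w)) with hXdef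
  have hN : SlotN h i w v X := by
    constructor <;> refine LinearMap.ext fun z => ?_
    · simp [hXdef, rop_apply, hS.cv_ten, hS.partner_symm hvw]
    · simp [hXdef, rop_apply, hS.cv_ten, hvw]
  have hXm : Mem M X := ⟨u, hu, LinearMap.ext fun z => by
    rw [lin_apply, hC z]; rfl⟩
  by_cases hfree : ∀ l, l ≠ i → Free h l X
  · obtain ⟨c, hc⟩ := eq_pat hS hk (A := {i}) (w := fun _ => w) (v := fun _ => v)
      (fun _ _ => hvw) (fun l hl => by rw [Finset.mem_singleton.1 hl]; exact hN)
      fun l hl => hfree l (by simpa using hl)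
    have hXc : X = c • rop h i w w := ext_pv fun u => by
      rw [hc, LinearMap.smul_apply, hS.rop_pv, smul_smul, patc, Finset.prod_singleton]
      congr 2
      funext l
      by_cases hl : l = i <;> simp [hl]
    refine ⟨c, fun y => ten_injective i hw0 ?_⟩
    have := LinearMap.congr_fun hXc (ten i v y)
    simpa [hXdef, rop_apply, hS.cv_ten, hvw, map_smul] using this
  · push Not at hfree
    obtain ⟨l₀, hl₀, hnf⟩ := hfree
    obtain ⟨A, W, h2, hP⟩ := exists_hasPat hS hM hk hl₀ hw hvw hN hXm hnf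
    exact absurd (full_of_hasPure hS hM hk hT hq (hasPure_of_hasPat hS hM hk hP h2)) hX

end

end CfsgLib.Geometric.TPowU
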