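import Cfsg.Agent.Lib.Geometric.TensorUnitary.Basic
import Cfsg.Agent.Lib.Geometric.UnitaryTensorMax.Gen

/-!
An overgroup holding a transvection whose centre is a product of isotropic vectors holds the
special unitary group of the tensor power.
-/

set_option autoImplicit false

namespace CfsgLib.Geometric.TPowU

open Matrix TPow Unitary

variable {T : Type} [Fintype T] [DecidableEq T] {k : ℕ} {F : Type*} [Field F] [Finite F]
variable {σ : F ≃+* F} {h : (Fin k → F) → (Fin k → F) → F} {ζ : F}

namespace Space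

variable (hS : Space σ h ζ)
include hS

lemma sf_eq_zero {κ : Type*} {g : κ → κ → F} {x y : κ} : sf ζ g x y = 0 ↔ g x y = 0 := by
  simp [sf, hS.ne]

lemma eq_zero_comm₁ {x y : Fin k → F} : h x y = 0 ↔ h y x = 0 := by
  rw [← hS.sf_eq_zero (g := h), Unitary.eq_zero_comm hS.skew₁, hS.sf_eq_zero]

lemma tform_smul_right (c : F) (x y : (T → Fin k) → F) :
    tform σ h T x (c • y) = σ c * tform σ h T x y := by
  rw [(hS.herm_tform T).herm, Space.tform_smul_left, map_mul, ← (hS.herm_tform T).herm]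

/-- An isotropic partner of an isotropic vector. -/
lemma exists_partner {w : Fin k → F} (hw : h w w = 0) (hw0 : w ≠ 0) :
    ∃ v, h v v = 0 ∧ h v w = 1 := by
  obtain ⟨p, hp⟩ := exists_one hS.skew₁ hw0
  obtain ⟨l, hl⟩ := exists_isotropic_shift hS.skew₁ (hS.sf_eq_zero.2 hw)
    (by rw [hp]; exact one_ne_zero)
  set v := p + l • w with hv
  have hvw : h v w ≠ 0 := by
    intro h0
    have h1 : sf ζ h p w = 0 := by
      rw [hv, hS.herm.add_left, hS.herm.smul_left, hw, mul_zero, add_zero] at h0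
      exact hS.sf_eq_zero.2 h0
    exact one_ne_zero (hp.symm.trans h1)
  refine ⟨(h v w)⁻¹ • v, ?_, by rw [hS.herm.smul_left, inv_mul_cancel₀ hvw]⟩
  rw [hS.herm.smul_left, hS.smul_right, hS.sf_eq_zero.1 hl, mul_zero, mul_zero]

/-- The special isometries of a factor move any isotropic vector to any other. -/
lemma exists_su_move (hk : 3 ≤ k) {x y : Fin k → F} (hxx : h x x = 0) (hyy : h y y = 0)
    (hx0 : x ≠ 0) (hy0 : y ≠ 0) : ∃ a ∈ su h, ap a x = y := by
  have hf := hS.skew₁
  have hN := nondeg_perp_bot hf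
  have hdim : 3 ≤ Module.finrank F (perp hf ⊥) := by
    rw [finrank_perp_bot hf, Fintype.card_fin]; exact hk
  have one : ∀ x y : Fin k → F, h x x = 0 → h y y = 0 → h x y ≠ 0 → ∃ a ∈ su h, ap a x = y := by
    intro x y hxx hyy hxy
    have hxS := mem_perp_bot hf x
    have hyS := mem_perp_bot hf y
    have hxx' := hS.sf_eq_zero (g := h) |>.2 hxx
    have hyy' := hS.sf_eq_zero (g := h) |>.2 hyy
    have hxy' : sf ζ h x y ≠ 0 := hxy ∘ hS.sf_eq_zero.1
    obtain ⟨e, he, hee, hex, hey⟩ :=
      exists_anisotropic_perp_pair hf hN hdim hxS hyS hxx' hyy' hxy'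
    have hli : y ∉ Submodule.span F {x} := by
      intro hm
      obtain ⟨c, rfl⟩ := Submodule.mem_span_singleton.mp hm
      rw [hS.smul_right, hxx, mul_zero] at hxy
      exact hxy rfl
    have hx0 : x ≠ 0 := fun h0 => hxy' (by rw [h0, Unitary.zero_left hf])
    obtain ⟨u, -, huu, hxu, hyu⟩ := exists_isotropic_common hf hN hxS hyS hli hx0 he hee hex hey
    obtain ⟨hvu, c, hc, hm⟩ := exists_E_move hf huu hxu hyu (hyy'.trans hxx'.symm)
    have hE := Unitary.E_mem hf (hu := huu) (hvu := hvu) hc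
    exact ⟨_, ⟨(isom_mul_const hS.ne h).le hE.1, hE.2⟩, hm⟩
  by_cases hxy : h x y = 0
  · have hker : ∀ z : Fin k → F, z ≠ 0 → ¬ (⊤ : Submodule F (Fin k → F)) ≤
        LinearMap.ker (fl hf z) := by
      intro z hz0 hle
      obtain ⟨w, hw⟩ := (hf.nondegenerate z hz0).1
      exact hw (by simpa using hle (Submodule.mem_top (x := w)))
    obtain ⟨p, -, hpx, hpy⟩ := exists_mem_notMem_notMem (hker x hx0) (hker y hy0)
    simp only [LinearMap.mem_ker, fl_apply] at hpx hpy
    obtain ⟨l, hl⟩ := exists_isotropic_shift hf (hS.sf_eq_zero.2 hxx) hpx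
    set z := p + l • x with hz
    have hzx : h x z ≠ 0 := by
      rw [hz, hS.add_right, hS.smul_right, hxx, mul_zero, add_zero]
      exact fun h0 => hpx (hS.sf_eq_zero.2 (hS.eq_zero_comm₁.1 h0))
    have hzy : h z y ≠ 0 := by
      rw [hz, hS.herm.add_left, hS.herm.smul_left, hxy, mul_zero, add_zero]
      exact hpy ∘ hS.sf_eq_zero.2
    obtain ⟨a, ha, hax⟩ := one x z hxx (hS.sf_eq_zero.1 hl) hzx
    obtain ⟨b, hb, hbz⟩ := one z y (hS.sf_eq_zero.1 hl) hyy hzy
    exact ⟨b * a, mul_mem hb ha, by rw [ap_mul, hax, hbz]⟩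
  · exact one x y hxx hyy hxy

end Space

variable (hS : Space σ h ζ) {M : Subgroup (GL (T → Fin k) F)} (hM : Over σ h M)
include hS

omit [Finite F] in
lemma tform_pv_eq_zero {u u' : T → Fin k → F} (l : T) (hl : h (u l) (u' l) = 0) :
    tform σ h T (pv u) (pv u') = 0 := by
  rw [hS.tform_pv]; exact Finset.prod_eq_zero (Finset.mem_univ l) hl

omit [Finite F] in
lemma tform_pv_ne_zero {u u' : T → Fin k → F} (hl : ∀ l, h (u l) (u' l) ≠ 0) :
    tform σ h T (pv u) (pv u') ≠ 0 := by
  rw [hS.tform_pv]; exact Finset.prod_ne_zero_iff.2 fun l _ => hl l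

omit hS [Finite F] in
lemma pv_update (u : T → Fin k → F) (l : T) (a : Fin k → F) :
    pv (Function.update u l a) = ten l a (pv fun j : {j : T // j ≠ l} => u j) := by
  rw [pv_eq_ten l, Function.update_self]
  congr 2
  funext j
  rw [Function.update_of_ne j.2]

omit hS [Finite F] in
lemma pv_update_add (u : T → Fin k → F) (l : T) (a b : Fin k → F) :
    pv (Function.update u l (a + b)) =
      pv (Function.update u l a) + pv (Function.update u l b) := by
  simp only [pv_update, ten_add_left]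

omit hS [Finite F] in
lemma pv_update_smul (u : T → Fin k → F) (l : T) (c : F) (a : Fin k → F) :
    pv (Function.update u l (c • a)) = c • pv (Function.update u l a) := by
  simp only [pv_update, ten_smul_left]

include hM

lemma le_sf : M ≤ isom (sf ζ (tform σ h T)) :=
  hM.le.trans (isom_mul_const hS.ne _).ge

omit hS in
lemma slot_pv_mem (l : T) {a : GL (Fin k) F} (ha : a ∈ su h) (u : T → Fin k → F) :
    slot l a ∈ M ∧ ap (slot l a) (pv u) = pv (Function.update u l (ap a (u l))) := by
  refine ⟨hM.slot_mem l a ha, ?_⟩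
  rw [ap_slot_pv]
  congr 1
  funext j
  by_cases hj : j = l
  · subst hj; simp
  · simp [Function.update_of_ne hj, Pi.mulSingle_eq_of_ne hj]

/-- A pure transvection gives all transvections at products of isotropic vectors. -/
lemma fullAt_iso (hk : 3 ≤ k) [Nonempty T] (hP : HasPure h σ M) (u : T → Fin k → F)
    (hu : ∀ l, h (u l) (u l) = 0) : FullAt (hS.skewT T) M (pv u) := by
  classical
  have hf := hS.skewT T
  obtain ⟨u₀, hu₀, d, hd, g, hg, hgz⟩ := hP
  have hp : sf ζ (tform σ h T) (pv u₀) (pv u₀) = 0 :=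
    hS.sf_eq_zero.2 (tform_pv_eq_zero hS (Classical.arbitrary T) (hu₀ _).2)
  set c₀ := d / ζ with hc₀
  have hgT : g = Unitary.T hf (pv u₀) c₀ hp := gl_ext fun z => by
    rw [hgz, ap_T hf, hc₀, sf, ← mul_assoc, div_mul_cancel₀ _ hS.ne]
  obtain ⟨v, hv⟩ : ∃ v : T → Fin k → F, ∀ l, h (v l) (u₀ l) = 1 :=
    ⟨fun l => _, fun l => (Classical.choose_spec (hS.exists_partner (hu₀ l).2 (hu₀ l).1)).2⟩
  have hσc₀ : σ c₀ = c₀ := by
    have h1 := mem_isom_iff.1 (hM.le hg) (pv v) (pv v)
    have hvu : tform σ h T (pv v) (pv u₀) = 1 := by simp [hS.tform_pv, hv]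
    have huv : tform σ h T (pv u₀) (pv v) = 1 := by
      rw [(hS.herm_tform T).herm, hvu, map_one]
    rw [hgz, hvu, mul_one, Space.tform_add_left, Space.tform_add_right, Space.tform_add_right,
      Space.tform_smul_left, Space.tform_smul_left, hS.tform_smul_right, hS.tform_smul_right,
      hvu, huv, hS.sf_eq_zero.1 hp] at h1
    have h2 : σ d = -d := by linear_combination h1
    rw [hc₀, map_div₀, h2, hS.skew, neg_div_neg_eq]
  have hc₀0 : c₀ ≠ 0 := div_ne_zero hd hS.ne
  -- all transvections at the given centre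
  have h0 : FullAt hf M (pv u₀) := by
    intro _ t ht
    by_cases ht0 : t = 0
    · rw [show Unitary.T hf (pv u₀) t hp = 1 from gl_ext fun z => by simp [ap_T hf, ht0]]
      exact one_mem M
    obtain ⟨ν, hν⟩ := exists_norm hf (c := t / c₀) (by rw [map_div₀, ht, hσc₀])
    have hν0 : ν ≠ 0 := fun h0 => div_ne_zero ht0 hc₀0 (by rw [← hν, h0, zero_mul])
    set l := Classical.arbitrary T
    obtain ⟨a, ha, hax⟩ := hS.exists_su_move hk (hu₀ l).2
      (y := ν • u₀ l) (by rw [hS.herm.smul_left, hS.smul_right, (hu₀ l).2, mul_zero, mul_zero])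
      (hu₀ l).1 (smul_ne_zero hν0 (hu₀ l).1)
    obtain ⟨hsm, hsap⟩ := slot_pv_mem hM l ha u₀
    have hconj : slot l a * g * (slot l a)⁻¹ ∈ M := mul_mem (mul_mem hsm hg) (inv_mem hsm)
    rw [hgT, conj_T hf (le_sf hS hM hsm)] at hconj
    convert hconj using 1
    refine gl_ext fun z => ?_
    rw [ap_T hf, ap_T hf, hsap, hax, pv_update_smul, Function.update_eq_self,
      Unitary.smul_right hf, smul_smul]
    congr 2
    field_simp at hν
    linear_combination -(sf ζ (tform σ h T) z (pv u₀)) * hν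
  suffices hs : ∀ s : Finset T, ∀ u : T → Fin k → F, (∀ l, u l ≠ 0 ∧ h (u l) (u l) = 0) →
      (∀ l ∉ s, u l = u₀ l) → FullAt hf M (pv u) by
    by_cases h0' : ∀ l, u l ≠ 0
    · exact hs Finset.univ u (fun l => ⟨h0' l, hu l⟩) fun l hl => absurd (Finset.mem_univ l) hl
    · push Not at h0'
      obtain ⟨l, hl⟩ := h0'
      intro _ t _
      have hz : pv u = 0 := funext fun x => Finset.prod_eq_zero (Finset.mem_univ l) (by simp [hl])
      rw [show Unitary.T hf (pv u) t (by rw [hz, Unitary.zero_left hf]) = 1 from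
        gl_ext fun z => by simp [ap_T hf, hz]]
      exact one_mem M
  intro s
  induction s using Finset.induction with
  | empty =>
    intro u _ hu'
    rw [show u = u₀ from funext fun l => hu' l (Finset.notMem_empty l)]
    exact h0
  | insert l s hl ih =>
    intro u hu hu'
    set u' := Function.update u l (u₀ l) with hu'def
    have h1 : FullAt hf M (pv u') := ih u' (fun j => by
      by_cases hj : j = l
      · subst hj; simp [hu'def, hu₀ j]
      · simp [hu'def, Function.update_of_ne hj, hu j]) fun j hj => by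
      by_cases hjl : j = l
      · subst hjl; simp [hu'def]
      · rw [hu'def, Function.update_of_ne hjl]
        exact hu' j (by simp [hjl, hj])
    obtain ⟨a, ha, hax⟩ := hS.exists_su_move hk (hu₀ l).2 (hu l).2 (hu₀ l).1 (hu l).1
    obtain ⟨hsm, hsap⟩ := slot_pv_mem hM l ha u'
    have h2 := FullAt.conj hf h1 hsm (le_sf hS hM hsm)
    rwa [hsap, hu'def, Function.update_self, hax, Function.update_idem,
      Function.update_eq_self] at h2

variable (hq3 : ∃ c : F, σ c = c ∧ c ≠ 0 ∧ c ≠ 1)
include hq3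

/-- Transvections at products of isotropic vectors give those with one anisotropic factor. -/
lemma fullAt_line (hk : 3 ≤ k) (hT : 2 ≤ Fintype.card T)
    (hI : ∀ u : T → Fin k → F, (∀ l, h (u l) (u l) = 0) → FullAt (hS.skewT T) M (pv u))
    (u : T → Fin k → F) (l : T) (hu : ∀ j, j ≠ l → h (u j) (u j) = 0) :
    FullAt (hS.skewT T) M (pv u) := by
  classical
  have hf := hS.skewT T
  have hf₁ := hS.skew₁
  by_cases hn : h (u l) (u l) = 0
  · exact hI u fun j => by
      by_cases hj : j = l
      · subst hj; exact hn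
      · exact hu j hj
  by_cases h0 : ∃ j, j ≠ l ∧ u j = 0
  · obtain ⟨j, -, hj⟩ := h0
    intro _ t _
    have hz : pv u = 0 := funext fun x => Finset.prod_eq_zero (Finset.mem_univ j) (by simp [hj])
    rw [show Unitary.T hf (pv u) t (by rw [hz, Unitary.zero_left hf]) = 1 from
      gl_ext fun z => by simp [ap_T hf, hz]]
    exact one_mem M
  push Not at h0
  set n := u l with hndef
  have hn0 : n ≠ 0 := fun h0' => hn (by rw [h0', ← hS.sf_eq_zero, Unitary.zero_left hf₁])
  -- a hyperbolic pair adding up to the anisotropic vector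
  obtain ⟨w, w'', hw, hw'', hnw⟩ : ∃ w w'', h w w = 0 ∧ h w'' w'' = 0 ∧ n = w + w'' := by
    obtain ⟨z, -, hz0, hzz⟩ := Unitary.exists_isotropic hf₁ (nondeg_perp_bot hf₁)
      (by rw [finrank_perp_bot hf₁, Fintype.card_fin]; omega)
    have hz : ∃ z, h z z = 0 ∧ h n z ≠ 0 := by
      rw [hS.sf_eq_zero] at hzz
      by_cases hnz : h n z = 0
      · obtain ⟨r, hr, hrz⟩ := hS.exists_partner hzz hz0
        by_cases hnr : h n r = 0
        · have hp : h (r + n) z = 1 := by rw [hS.herm.add_left, hrz, hnz, add_zero]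
          obtain ⟨β, hβ⟩ := exists_isotropic_shift hf₁ (hS.sf_eq_zero.2 hzz)
            (p := r + n) (by rw [Ne, hS.sf_eq_zero, hp]; exact one_ne_zero)
          refine ⟨r + n + β • z, hS.sf_eq_zero.1 hβ, ?_⟩
          rwa [hS.add_right, hS.add_right, hS.smul_right, hnr, hnz, mul_zero, zero_add, add_zero]
        · exact ⟨r, hr, hnr⟩
      · exact ⟨z, hzz, hnz⟩
    obtain ⟨z, hz, hnz⟩ := hz
    obtain ⟨β, hβ⟩ := exists_isotropic_shift hf₁ (hS.sf_eq_zero.2 hz) (hnz ∘ hS.sf_eq_zero.1)
    refine ⟨-β • z, n + β • z, ?_, hS.sf_eq_zero.1 hβ, by module⟩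
    rw [hS.herm.smul_left, hS.smul_right, hz, mul_zero, mul_zero]
  set α := h w w'' with hαdef
  have htr : α + σ α = h n n := by
    rw [hnw, hS.herm.add_left, hS.add_right, hS.add_right, hw, hw'', ← hS.herm.herm]
    ring
  have hα : α ≠ 0 := fun h0' => hn (by rw [← htr, h0', map_zero, add_zero])
  obtain ⟨m, -, hmm, hmw, hmw''⟩ := exists_anisotropic_perp_pair hf₁ (nondeg_perp_bot hf₁)
    (by rw [finrank_perp_bot hf₁, Fintype.card_fin]; omega) (mem_perp_bot hf₁ w)
    (mem_perp_bot hf₁ w'') (hS.sf_eq_zero.2 hw) (hS.sf_eq_zero.2 hw'') (hα ∘ hS.sf_eq_zero.1)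
  rw [Ne, hS.sf_eq_zero] at hmm
  rw [hS.sf_eq_zero] at hmw hmw''
  have hσα : σ α ≠ 0 := (map_ne_zero_iff σ σ.injective).2 hα
  set τ := α⁻¹ + σ α⁻¹ with hτdef
  have hτ : τ ≠ 0 := by
    rw [hτdef, map_inv₀, inv_add_inv hα hσα, htr]
    exact div_ne_zero hn (mul_ne_zero hα hσα)
  have hστ : σ τ = τ := by rw [hτdef, map_add, hS.herm.involutive, add_comm]
  have hσmm : σ (h m m) = h m m := (hS.herm.herm m m).symm
  obtain ⟨ν, hν0, C, hC, hC0, hC1⟩ : ∃ ν : F, ν ≠ 0 ∧ ∃ C : F,
      C = -(h m m * (ν * σ ν)) / τ ∧ C ≠ 0 ∧ C ≠ -1 := by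
    by_cases h1 : -(h m m) / τ = -1
    · obtain ⟨c, hc, hc0, hc1⟩ := hq3
      obtain ⟨ν, hν⟩ := exists_norm hf₁ hc
      refine ⟨ν, fun h0' => hc0 (by rw [← hν, h0', zero_mul]), _, rfl, ?_, ?_⟩
      · rw [hν]; exact div_ne_zero (neg_ne_zero.2 (mul_ne_zero hmm hc0)) hτ
      · rw [hν, show -(h m m * c) / τ = c * (-(h m m) / τ) by ring, h1]
        intro h2
        exact hc1 (by linear_combination -h2)
    · exact ⟨1, one_ne_zero, _, rfl, div_ne_zero (by simp [hmm]) hτ, by simpa using h1⟩
  have hσC : σ C = C := by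
    rw [hC, map_div₀, map_neg, map_mul, map_mul, hσmm, hS.herm.involutive, hστ]; ring
  set m' := ν • m with hm'
  set a := C / α with had
  set b := σ α⁻¹ with hbd
  set w' := a • w + b • w'' + m' with hw'def
  have hw''w : h w'' w = σ α := hS.herm.herm w'' w
  have hm'w : h m' w = 0 ∧ h m' w'' = 0 ∧ h w m' = 0 ∧ h w'' m' = 0 := by
    simp [hm', hS.herm.smul_left, hS.smul_right, hS.eq_zero_comm₁.1 hmw,
      hS.eq_zero_comm₁.1 hmw'', hmw, hmw'']
  have hww' : h w w' = 1 := by
    rw [hw'def, hS.add_right, hS.add_right, hS.smul_right, hS.smul_right, hw, hm'w.2.2.1,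
      ← hαdef, hbd, hS.herm.involutive, inv_mul_cancel₀ hα]
    ring
  have hw'w'' : h w' w'' = C := by
    rw [hw'def, hS.herm.add_left, hS.herm.add_left, hS.herm.smul_left, hS.herm.smul_left, hw'',
      hm'w.2.1, ← hαdef, had, div_mul_cancel₀ _ hα]
    ring
  have hw'i : h w' w' = 0 := by
    simp only [hw'def, hS.herm.add_left, hS.add_right, hS.herm.smul_left, hS.smul_right, hw,
      hw'', hm'w.1, hm'w.2.1, hm'w.2.2.1, hm'w.2.2.2, ← hαdef, hw''w]
    rw [hm', hS.herm.smul_left, hS.smul_right, had, hbd, map_div₀, hσC, hS.herm.involutive,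
      map_inv₀]
    have hCτ : C * τ = -(h m m * (ν * σ ν)) := by rw [hC, div_mul_cancel₀ _ hτ]
    rw [hτdef, hbd, map_inv₀] at hCτ
    field_simp at hCτ ⊢
    linear_combination hCτ
  have hnw' : h n w' = 1 + C := by
    rw [hnw, hS.herm.add_left, hww', hS.herm.herm w'' w', hw'w'', hσC]
  have h1C : 1 + C ≠ 0 := fun h0' => hC1 (by linear_combination h0')
  -- the other factors
  obtain ⟨l', hl'⟩ : ∃ l', l' ≠ l := Fintype.exists_ne_of_one_lt_card hT l
  have hv' : ∀ j, ∃ v, j ≠ l → h v v = 0 ∧ h v (u j) = 1 := by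
    intro j
    by_cases hj : j = l
    · exact ⟨0, fun h' => absurd hj h'⟩
    · obtain ⟨v, hv⟩ := hS.exists_partner (hu j hj) (h0 j hj)
      exact ⟨v, fun _ => hv⟩
  choose v hv using hv'
  set p := Function.update u l w with hpdef
  set x := Function.update v l w' with hxdef
  set y := Function.update u l w'' with hydef
  have hpI : ∀ j, h (p j) (p j) = 0 := fun j => by
    by_cases hj : j = l
    · subst hj; simp [hpdef, hw]
    · simp [hpdef, Function.update_of_ne hj, hu j hj]
  have hxI : ∀ j, h (x j) (x j) = 0 := fun j => by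
    by_cases hj : j = l
    · subst hj; simp [hxdef, hw'i]
    · simp [hxdef, Function.update_of_ne hj, (hv j hj).1]
  have hyI : ∀ j, h (y j) (y j) = 0 := fun j => by
    by_cases hj : j = l
    · subst hj; simp [hydef, hw'']
    · simp [hydef, Function.update_of_ne hj, hu j hj]
  have hpu : ∀ a, tform σ h T (pv (Function.update u l a)) (pv x) = h a w' := by
    intro a
    rw [hS.tform_pv, ← Finset.mul_prod_erase _ _ (Finset.mem_univ l),
      Finset.prod_eq_one fun j hj => ?_, mul_one]
    · simp [hxdef]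
    · have hj' := Finset.ne_of_mem_erase hj
      rw [Function.update_of_ne hj', hxdef, Function.update_of_ne hj', hS.herm.herm,
        (hv j hj').2, map_one]
  have hxy : tform σ h T (pv x) (pv y) = C := by
    rw [hS.tform_pv, ← Finset.mul_prod_erase _ _ (Finset.mem_univ l),
      Finset.prod_eq_one fun j hj => ?_, mul_one]
    · simp [hxdef, hydef, hw'w'']
    · have hj' := Finset.ne_of_mem_erase hj
      rw [hxdef, hydef, Function.update_of_ne hj', Function.update_of_ne hj', (hv j hj').2]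
  have hpy : tform σ h T (pv p) (pv y) = 0 := tform_pv_eq_zero hS l' (by
    simp [hpdef, hydef, Function.update_of_ne hl', hu l' hl'])
  have hζ2 : σ (ζ * ζ) = ζ * ζ := by rw [map_mul, hS.skew]; ring
  -- the three moves
  set t₂ := 1 / (ζ * ζ * C) with ht₂
  set t₃ := -(1 : F) / (1 + C) with ht₃
  have ht₂σ : σ t₂ = t₂ := by rw [ht₂, map_div₀, map_one, map_mul, hζ2, hσC]
  have ht₃σ : σ t₃ = t₃ := by rw [ht₃, map_div₀, map_neg, map_one, map_add, map_one, hσC]
  have hxs := hS.sf_eq_zero (g := tform σ h T) |>.2 (tform_pv_eq_zero hS l (hxI l))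
  have hys := hS.sf_eq_zero (g := tform σ h T) |>.2 (tform_pv_eq_zero hS l (hyI l))
  have h₁ := hI x hxI hxs 1 (map_one σ)
  have h₂ := hI y hyI hys t₂ ht₂σ
  have h₃ := hI x hxI hxs t₃ ht₃σ
  set g := Unitary.T hf (pv x) t₃ hxs * Unitary.T hf (pv y) t₂ hys *
    Unitary.T hf (pv x) 1 hxs with hgdef
  have hg : g ∈ M := mul_mem (mul_mem h₃ h₂) h₁
  have h4 := FullAt.conj hf (hI p hpI) hg (le_sf hS hM hg)
  have hres : ap g (pv p) = pv u := by
    have hu1 : pv u = pv p + pv y := by
      rw [hpdef, hydef, ← pv_update_add, ← hnw, hndef, Function.update_eq_self]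
    have hsum : tform σ h T (pv p + pv y) (pv x) = 1 + C := by
      rw [hu1.symm, ← Function.update_eq_self l u, hpu, ← hndef, hnw']
    have hyx : tform σ h T (pv y) (pv x) = C := by rw [(hS.herm_tform T).herm, hxy, hσC]
    have hpx : tform σ h T (pv p) (pv x) = 1 := by rw [hpdef, hpu, hww']
    have hxx' : tform σ h T (pv x) (pv x) = 0 := tform_pv_eq_zero hS l (hxI l)
    rw [hgdef, ap_mul, ap_mul, ap_T hf, ap_T hf, ap_T hf, hu1]
    simp only [sf, Space.tform_add_left, Space.tform_smul_left, hxy, hpy, hyx, hpx, hxx', ht₂, ht₃,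
      mul_zero, add_zero, zero_add, mul_one]
    match_scalars <;> field_simp [hS.ne, hC0, h1C] <;> ring
  rwa [hres] at h4

omit hq3

omit hS hM [Finite F] in
/-- Products with the factors in given sets span those with the factors in their spans. -/
lemma pv_mem_of_span (K : Submodule F ((T → Fin k) → F)) (G : T → Set (Fin k → F))
    (hG : ∀ u : T → Fin k → F, (∀ j, u j ∈ G j) → pv u ∈ K) (u : T → Fin k → F)
    (hu : ∀ j, u j ∈ Submodule.span F (G j)) : pv u ∈ K := by
  classical
  suffices hs : ∀ s : Finset T, ∀ u : T → Fin k → F, (∀ j ∈ s, u j ∈ Submodule.span F (G j)) →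
      (∀ j ∉ s, u j ∈ G j) → pv u ∈ K from
    hs Finset.univ u (fun j _ => hu j) fun j hj => absurd (Finset.mem_univ j) hj
  intro s
  induction s using Finset.induction with
  | empty => intro u _ h2; exact hG u fun j => h2 j (Finset.notMem_empty j)
  | insert l s hl ih =>
    intro u h1 h2
    let L : (Fin k → F) →ₗ[F] ((T → Fin k) → F) :=
      { toFun := fun a => pv (Function.update u l a)
        map_add' := pv_update_add u l
        map_smul' := pv_update_smul u l }
    have hle : Submodule.span F (G l) ≤ K.comap L := Submodule.span_le.2 fun a ha =>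
      ih (Function.update u l a) (fun j hj => by
        rw [Function.update_of_ne (ne_of_mem_of_not_mem hj hl)]; exact h1 j (Finset.mem_insert_of_mem hj))
        fun j hj => by
        by_cases hjl : j = l
        · subst hjl; simpa using ha
        · rw [Function.update_of_ne hjl]; exact h2 j (by simp [hjl, hj])
    have := hle (h1 l (Finset.mem_insert_self _ _))
    simpa [L] using this

omit hS hM [Finite F] in
/-- A vector in all the slices of given factors is a multiple of their product. -/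
lemma mem_span_pv_of_slices (w : T → Fin k → F) (hw : ∀ l, w l ≠ 0) {z : (T → Fin k) → F}
    (hz : ∀ l, z ∈ slice l (w l)) : z ∈ Submodule.span F {pv w} := by
  classical
  choose a ha using fun l => Function.ne_iff.1 (hw l)
  have key : ∀ s : Finset T, ∀ x, z x = (∏ l ∈ s, w l (x l) / w l (a l)) * z (s.piecewise a x) := by
    intro s
    induction s using Finset.induction with
    | empty => intro x; simp
    | insert l s hl ih =>
      intro x
      obtain ⟨y, hy⟩ := hz l
      have hsl : ∀ x : T → Fin k, z x = w l (x l) / w l (a l) * z (Function.update x l (a l)) := by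
        intro x
        rw [← hy, ten_apply, ten_apply, Function.update_self, res_update]
        field_simp [show w l (a l) ≠ 0 from ha l]
      rw [ih x, hsl (s.piecewise a x), Finset.piecewise_eq_of_notMem _ _ _ hl,
        ← Finset.piecewise_insert, Finset.prod_insert hl]
      ring
  refine Submodule.mem_span_singleton.2 ⟨z a / ∏ l, w l (a l), funext fun x => ?_⟩
  rw [key Finset.univ x, Finset.piecewise_univ, Pi.smul_apply, smul_eq_mul, pv,
    Finset.prod_div_distrib]
  ring

omit hM in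
/-- The isotropic vectors not orthogonal to a given isotropic one span. -/
lemma span_iso_nonorth {w : Fin k → F} (hw : h w w = 0) (hw0 : w ≠ 0) (x : Fin k → F) :
    x ∈ Submodule.span F {y | h y y = 0 ∧ h y w ≠ 0} := by
  have hf₁ := hS.skew₁
  obtain ⟨v, hv, hvw⟩ := hS.exists_partner hw hw0
  have hwv : h w v = 1 := by rw [hS.herm.herm, hvw, map_one]
  refine mem_of_forall_perp hf₁ fun p hp => ?_
  have hp' : ∀ y, h y y = 0 → h y w ≠ 0 → h p y = 0 := fun y h1 h2 =>
    hS.sf_eq_zero.1 (hp y (Submodule.subset_span ⟨h1, h2⟩))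
  have hpv : h p v = 0 := hp' v hv (by rw [hvw]; exact one_ne_zero)
  have hpw : h p w = 0 := by
    have h1 := hp' (v + ζ • w) (by
      simp only [hS.herm.add_left, hS.add_right, hS.herm.smul_left, hS.smul_right, hv, hw, hvw,
        hwv, hS.skew]
      ring) (by
      rw [hS.herm.add_left, hS.herm.smul_left, hw, mul_zero, add_zero, hvw]; exact one_ne_zero)
    rw [hS.add_right, hS.smul_right, hpv, zero_add] at h1
    exact (mul_eq_zero.1 h1).resolve_left ((map_ne_zero_iff σ σ.injective).2 hS.ne)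
  rw [hS.sf_eq_zero, hS.eq_zero_comm₁]
  obtain ⟨θ, hθ⟩ := Unitary.exists_trace hf₁
  set a := x - (h x w) • v - (h x v) • w with ha
  have haw : h a w = 0 := by
    rw [ha, sub_eq_add_neg, sub_eq_add_neg, hS.herm.add_left, hS.herm.add_left, ← neg_smul,
      ← neg_smul, hS.herm.smul_left, hS.herm.smul_left, hw, hvw]
    ring
  have hav : h a v = 0 := by
    rw [ha, sub_eq_add_neg, sub_eq_add_neg, hS.herm.add_left, hS.herm.add_left, ← neg_smul,
      ← neg_smul, hS.herm.smul_left, hS.herm.smul_left, hv, hwv]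
    ring
  set b := -(h a a * θ) with hb
  have h1 := hp' (v + a + b • w) (by
    simp only [hS.herm.add_left, hS.add_right, hS.herm.smul_left, hS.smul_right, hv, hw, hvw,
      hwv, haw, hav, hS.eq_zero_comm₁.1 haw, hS.eq_zero_comm₁.1 hav, hb, map_neg, map_mul,
      ← hS.herm.herm a a]
    linear_combination -(h a a) * hθ) (by
    rw [hS.herm.add_left, hS.herm.add_left, hS.herm.smul_left, hw, hvw, haw]
    simp)
  rw [hS.add_right, hS.add_right, hS.smul_right, hpv, hpw, zero_add, mul_zero, add_zero] at h1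
  have hx : x = a + (h x w) • v + (h x v) • w := by rw [ha]; module
  rw [hx, hS.add_right, hS.add_right, hS.smul_right, hS.smul_right, h1, hpv, hpw]
  ring

/-- Eichler elements at a product of isotropic vectors in all orthogonal directions. -/
lemma eMem_pure (hk : 3 ≤ k) (hT : 2 ≤ Fintype.card T)
    (hq : 4 ≤ k ∨ ∃ c : F, σ c = c ∧ c ≠ 0 ∧ c ≠ 1)
    (hI : ∀ u : T → Fin k → F, (∀ l, h (u l) (u l) = 0) → FullAt (hS.skewT T) M (pv u))
    (w : T → Fin k → F) (hw : ∀ l, h (w l) (w l) = 0) (hw0 : ∀ l, w l ≠ 0)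
    {X : (T → Fin k) → F} (hX : tform σ h T X (pv w) = 0) :
    EMem (hS.skewT T) M (pv w) X := by
  classical
  have hf := hS.skewT T
  have hf₁ := hS.skew₁
  have hother : ∀ l : T, ∃ j, j ≠ l := fun l => Fintype.exists_ne_of_one_lt_card hT l
  have hpp : sf ζ (tform σ h T) (pv w) (pv w) = 0 :=
    hS.sf_eq_zero.2 (tform_pv_eq_zero hS (Classical.choice (Fintype.card_pos_iff.1
      (show 0 < Fintype.card T by omega))) (hw _))
  set Good : (Fin k → F) → Prop := fun a => h a a = 0 ∨ ∃ c : F, σ c = c ∧ c ≠ 0 ∧ c ≠ 1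
  have hfull : ∀ (u : T → Fin k → F) (l : T), (∀ j, j ≠ l → h (u j) (u j) = 0) → Good (u l) →
      FullAt hf M (pv u) := by
    rintro u l hu (hl | hq3)
    · exact hI u fun j => by
        by_cases hj : j = l
        · subst hj; exact hl
        · exact hu j hj
    · exact fullAt_line hS hM hq3 hk hT hI u l hu
  have hsplit : ∀ (l : T) (x : Fin k → F), h x (w l) = 0 → ∃ x₁ x₂, x = x₁ + x₂ ∧
      h x₁ (w l) = 0 ∧ h x₂ (w l) = 0 ∧ Good x₁ ∧ Good x₂ := by
    intro l x hx
    rcases hq with hk4 | hq3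
    · obtain ⟨x₁, x₂, h1, h2, h3, h4, h5⟩ :=
        exists_isotropic_add_perp hf₁ hk4 (hS.sf_eq_zero.2 hx)
      exact ⟨x₁, x₂, h5, hS.sf_eq_zero.1 h1, hS.sf_eq_zero.1 h2, Or.inl (hS.sf_eq_zero.1 h3),
        Or.inl (hS.sf_eq_zero.1 h4)⟩
    · exact ⟨x, 0, (add_zero x).symm, hx, hS.sf_eq_zero.1 (Unitary.zero_left hf₁ _), Or.inr hq3,
        Or.inr hq3⟩
  let K : Submodule F ((T → Fin k) → F) :=
    { carrier := {y | ∀ s : F, EMem hf M (pv w) (s • y)}
      add_mem' := fun hy hy' s => by rw [smul_add]; exact EMem.add hf (hy s) (hy' s)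
      zero_mem' := fun s => by rw [smul_zero]; exact EMem.zero hf hpp
      smul_mem' := fun c y hy s => by rw [smul_smul]; exact hy _ }
  -- one factor changed
  have hA : ∀ (l : T) (a : Fin k → F), h a (w l) = 0 → pv (Function.update w l a) ∈ K := by
    intro l a ha
    obtain ⟨x₁, x₂, rfl, h1, h2, g1, g2⟩ := hsplit l a ha
    rw [pv_update_add]
    suffices hgood : ∀ a, h a (w l) = 0 → Good a → pv (Function.update w l a) ∈ K from
      K.add_mem (hgood x₁ h1 g1) (hgood x₂ h2 g2)
    intro a ha hga s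
    obtain ⟨j, hj⟩ := hother l
    rw [← pv_update_smul]
    have hsa : h (s • a) (w l) = 0 := by rw [hS.herm.smul_left, ha, mul_zero]
    have hgs : Good (s • a) := hga.imp_left fun h0 => by
      rw [hS.herm.smul_left, hS.smul_right, h0, mul_zero, mul_zero]
    have hgsum : Good (w l + s • a) := hgs.imp_left fun h0 => by
      rw [hS.herm.add_left, hS.add_right, hS.add_right, hw, h0, hsa, hS.eq_zero_comm₁.1 hsa]
      simp
    have hoth : ∀ b, ∀ j, j ≠ l → h (Function.update w l b j) (Function.update w l b j) = 0 :=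
      fun b j hj => by rw [Function.update_of_ne hj]; exact hw j
    refine EMem.of_full hf hpp (hS.sf_eq_zero.2 (tform_pv_eq_zero hS j (hoth _ j hj)))
      (hS.sf_eq_zero.2 (tform_pv_eq_zero hS l (by rw [Function.update_self]; exact hsa)))
      (hI w hw) (hfull _ l (hoth _) (by rw [Function.update_self]; exact hgs)) ?_
    have h3 := hfull _ l (hoth (w l + s • a)) (by rw [Function.update_self]; exact hgsum)
    rwa [pv_update_add, Function.update_eq_self] at h3
  -- moved by a transvection at a product orthogonal to the centre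
  have hB : ∀ (l : T) (r : T → Fin k → F), h (r l) (w l) = 0 → Good (r l) →
      r l ∉ Submodule.span F {w l} → (∀ j, j ≠ l → h (r j) (r j) = 0 ∧ h (r j) (w j) ≠ 0) →
      pv r ∈ K := by
    intro l r hrl hg hns hr s
    obtain ⟨a, ha, hra⟩ := exists_perp_ne hf₁ hns
    rw [mem_perp_span hf₁, hS.sf_eq_zero] at ha
    rw [Ne, hS.sf_eq_zero] at hra
    set B := tform σ h T (pv (Function.update w l a)) (pv r) with hBdef
    have hB0 : B ≠ 0 := tform_pv_ne_zero hS fun j => by
      by_cases hj : j = l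
      · subst hj; rw [Function.update_self]; exact hra ∘ hS.eq_zero_comm₁.1
      · rw [Function.update_of_ne hj]; exact (hr j hj).2 ∘ hS.eq_zero_comm₁.1
    obtain ⟨j, hj⟩ := hother l
    have hrr := hS.sf_eq_zero (g := tform σ h T) |>.2 (tform_pv_eq_zero hS j (hr j hj).1)
    have hg' := hfull r l (fun j hj => (hr j hj).1) hg hrr 1 (map_one σ)
    have hfix : ap (Unitary.T hf (pv r) 1 hrr) (pv w) = pv w :=
      ap_T_fix hf hrr (hS.sf_eq_zero.2 (tform_pv_eq_zero hS l (hS.eq_zero_comm₁.1 hrl)))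
    have hY := hA l a ha (s / (ζ * B))
    have h1 := EMem.sub hf (EMem.conj hf hY hg' (le_sf hS hM hg') hfix) hY
    rw [ap_T hf, add_sub_cancel_left, one_mul, hf.smul_left, sf, ← hBdef,
      div_mul_cancel₀ _ (mul_ne_zero hS.ne hB0)] at h1
    exact h1
  -- all directions
  have hall : ∀ (l : T) (a : Fin k → F), h a (w l) = 0 → ∀ u : T → Fin k → F,
      pv (Function.update u l a) ∈ K := by
    intro l a ha u
    refine pv_mem_of_span K (fun j => if j = l then {x | h x (w l) = 0 ∧ Good x ∧
      x ∉ Submodule.span F {w l}} else {y | h y y = 0 ∧ h y (w j) ≠ 0}) (fun r hr => ?_) _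
      fun j => ?_
    · have hl := hr l
      simp only [if_pos rfl] at hl
      exact hB l r hl.1 hl.2.1 hl.2.2 fun j hj => by simpa [hj] using hr j
    by_cases hj : j = l
    · subst hj
      simp only [Function.update_self, if_pos rfl]
      set S := Submodule.span F {x | h x (w j) = 0 ∧ Good x ∧ x ∉ Submodule.span F {w j}}
      obtain ⟨r₀, hr₀, hg₀, hn₀⟩ : ∃ r₀, h r₀ (w j) = 0 ∧ Good r₀ ∧
          r₀ ∉ Submodule.span F {w j} := by
        obtain ⟨v, hv, hvw⟩ := hS.exists_partner (hw j) (hw0 j)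
        obtain ⟨e, -, hee, hwe, -⟩ := exists_anisotropic_perp_pair hf₁ (nondeg_perp_bot hf₁)
          (by rw [finrank_perp_bot hf₁, Fintype.card_fin]; exact hk) (mem_perp_bot hf₁ (w j))
          (mem_perp_bot hf₁ v) (hS.sf_eq_zero.2 (hw j)) (hS.sf_eq_zero.2 hv) (by
            rw [Ne, hS.sf_eq_zero, hS.eq_zero_comm₁, hvw]; exact one_ne_zero)
        rw [hS.sf_eq_zero] at hwe
        rw [Ne, hS.sf_eq_zero] at hee
        have hne : e ∉ Submodule.span F {w j} := fun hm => by
          obtain ⟨c, rfl⟩ := Submodule.mem_span_singleton.1 hm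
          exact hee (by rw [hS.herm.smul_left, hS.smul_right, hw, mul_zero, mul_zero])
        obtain ⟨x₁, x₂, rfl, h1, h2, g1, g2⟩ := hsplit j e (hS.eq_zero_comm₁.1 hwe)
        by_cases hx₁ : x₁ ∈ Submodule.span F {w j}
        · exact ⟨x₂, h2, g2, fun hx₂ => hne (Submodule.add_mem _ hx₁ hx₂)⟩
        · exact ⟨x₁, h1, g1, hx₁⟩
      obtain ⟨x₁, x₂, rfl, h1, h2, g1, g2⟩ := hsplit j a ha
      suffices hgood : ∀ x, h x (w j) = 0 → Good x → x ∈ S from
        S.add_mem (hgood x₁ h1 g1) (hgood x₂ h2 g2)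
      intro x hx hgx
      by_cases hxs : x ∈ Submodule.span F {w j}
      · have h3 : x + r₀ ∈ S := Submodule.subset_span ⟨by rw [hS.herm.add_left, hx, hr₀, add_zero],
          hg₀.imp_left fun h0 => by
            obtain ⟨c, rfl⟩ := Submodule.mem_span_singleton.1 hxs
            simp [hS.herm.add_left, hS.add_right, hS.herm.smul_left, hS.smul_right, hw, h0, hr₀,
              hS.eq_zero_comm₁.1 hr₀],
          fun hm => hn₀ (by simpa using Submodule.sub_mem _ hm hxs)⟩
        simpa using S.sub_mem h3 (Submodule.subset_span ⟨hr₀, hg₀, hn₀⟩)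
      · exact Submodule.subset_span ⟨hx, hgx, hxs⟩
    · simp only [Function.update_of_ne hj, if_neg hj]
      exact span_iso_nonorth hS (hw j) (hw0 j) _
  have hK : ∀ X, tform σ h T X (pv w) = 0 → X ∈ K := by
    intro X hX
    refine mem_of_forall_perp hf fun P hP => ?_
    have hsl : ∀ l, P ∈ slice l (w l) := by
      intro l
      refine (mem_slice_iff l (hw0 l)).2 fun φ hφ => ?_
      obtain ⟨a, rfl⟩ := hS.fu_surjective φ
      rw [hS.fu_dot] at hφ
      by_contra hne
      obtain ⟨⟨y, hy⟩, -⟩ := (hS.herm_tform {j : T // j ≠ l}).nondegenerate (cv h l a P) hne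
      refine hy ?_
      rw [(hS.herm_tform _).herm, map_eq_zero_iff σ σ.injective, ← hS.tform_ten_right]
      have hmem : ∀ y, ten l a y ∈ K := by
        intro y
        rw [pi_eq_sum_univ' y, map_sum]
        refine K.sum_mem fun r _ => ?_
        rw [map_smul, ten_single]
        refine K.smul_mem _ ?_
        have h2 := hall l a (hS.eq_zero_comm₁.1 hφ)
          (fun j => if hj : j = l then a else Pi.single (r ⟨j, hj⟩) 1)
        rwa [show Function.update (fun j => if hj : j = l then a else Pi.single (r ⟨j, hj⟩) 1) l a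
          = fun j => if hj : j = l then a else Pi.single (r ⟨j, hj⟩) 1 from
            Function.update_eq_self_iff.2 (by simp)] at h2
      exact hS.sf_eq_zero.1 (hP _ (hmem y))
    obtain ⟨c, rfl⟩ := Submodule.mem_span_singleton.1 (mem_span_pv_of_slices w hw0 hsl)
    rw [Unitary.smul_right hf, hS.sf_eq_zero.2 hX, mul_zero]
  simpa using hK X hX 1

/-- A transvection with pure isotropic centre forces the special unitary group. -/
theorem full_of_hasPure (hk : 3 ≤ k) (hT : 2 ≤ Fintype.card T)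
    (hq : 4 ≤ k ∨ ∃ c : F, σ c = c ∧ c ≠ 0 ∧ c ≠ 1) (hP : HasPure h σ M) : Full σ h M := by
  classical
  have hf := hS.skewT T
  have hf₁ := hS.skew₁
  have : Nonempty T := Fintype.card_pos_iff.1 (by omega)
  have hI := fullAt_iso hS hM hk hP
  suffices hHT : HasT hf M by
    refine fun g hg => Unitary.le_of_hasT hf ?_ hHT ⟨(isom_mul_const hS.ne _).ge hg.1, hg.2⟩
    rw [Fintype.card_fun, Fintype.card_fin]
    calc 4 ≤ k ^ 2 := by nlinarith
      _ ≤ k ^ Fintype.card T := Nat.pow_le_pow_right (by omega) hT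
  intro X hX t ht
  by_cases hX0 : X = 0
  · rw [show Unitary.T hf X t hX = 1 from gl_ext fun z => by simp [ap_T hf, hX0]]
    exact one_mem M
  suffices h' : FullAt hf M X from h' hX t ht
  obtain ⟨z₀, -, hz₀, hzz₀⟩ := Unitary.exists_isotropic hf₁ (nondeg_perp_bot hf₁)
    (by rw [finrank_perp_bot hf₁, Fintype.card_fin]; omega)
  rw [hS.sf_eq_zero] at hzz₀
  obtain ⟨w, hw, hne⟩ : ∃ w : T → Fin k → F, (∀ l, h (w l) (w l) = 0) ∧
      tform σ h T X (pv w) ≠ 0 := by
    by_contra hc
    push Not at hc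
    obtain ⟨Y, hY⟩ := (hf.nondegenerate X hX0).2
    refine hY ?_
    let K : Submodule F ((T → Fin k) → F) :=
      { carrier := {y | tform σ h T X y = 0}
        add_mem' := fun {y y'} hy hy' => by
          simp only [Set.mem_setOf_eq, Space.tform_add_right] at *; rw [hy, hy', add_zero]
        zero_mem' := hS.sf_eq_zero.1 (Unitary.zero_right hf X)
        smul_mem' := fun c y hy => by
          simp only [Set.mem_setOf_eq, hS.tform_smul_right] at *; rw [hy, mul_zero] }
    have hKall : ∀ y, y ∈ K := fun y => by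
      rw [pi_eq_sum_univ' y]
      refine K.sum_mem fun f _ => K.smul_mem _ ?_
      rw [← pv_single]
      exact pv_mem_of_span K (fun _ => {y | h y y = 0 ∧ h y z₀ ≠ 0})
        (fun u hu => hc u fun l => (hu l).1) _ fun l => span_iso_nonorth hS hzz₀ hz₀ _
    exact hS.sf_eq_zero.2 (hKall Y)
  have hw0 : ∀ l, w l ≠ 0 := fun l hl => hne (by
    rw [show pv w = 0 from funext fun x => Finset.prod_eq_zero (Finset.mem_univ l) (by simp [hl])]
    exact hS.sf_eq_zero.1 (Unitary.zero_right hf X))
  choose v hv hvw using fun l => hS.exists_partner (hw l) (hw0 l)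
  set p := pv w with hpdef
  set l₀ := Classical.arbitrary T
  set q := pv (Function.update v l₀ (ζ⁻¹ • v l₀)) with hqdef
  have hqI : ∀ l, h (Function.update v l₀ (ζ⁻¹ • v l₀) l) (Function.update v l₀ (ζ⁻¹ • v l₀) l) = 0 := by
    intro l
    by_cases hl : l = l₀
    · subst hl
      rw [Function.update_self, hS.herm.smul_left, hS.smul_right, hv, mul_zero, mul_zero]
    · rw [Function.update_of_ne hl]; exact hv l
  have hqp : sf ζ (tform σ h T) q p = 1 := by
    have h1 : tform σ h T (pv v) (pv w) = 1 := by simp [hS.tform_pv, hvw]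
    rw [hqdef, pv_update_smul, Function.update_eq_self, hf.smul_left, sf, hpdef, h1]
    field_simp [hS.ne]
  have hpp : sf ζ (tform σ h T) p p = 0 := hS.sf_eq_zero.2 (tform_pv_eq_zero hS l₀ (hw l₀))
  have hqq : sf ζ (tform σ h T) q q = 0 := hS.sf_eq_zero.2 (tform_pv_eq_zero hS l₀ (hqI l₀))
  have hXp : sf ζ (tform σ h T) X p ≠ 0 := hne ∘ hS.sf_eq_zero.1
  set X' := (sf ζ (tform σ h T) X p)⁻¹ • X with hX'def
  have hX'p : sf ζ (tform σ h T) X' p = 1 := by rw [hX'def, hf.smul_left, inv_mul_cancel₀ hXp]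
  obtain ⟨hvu, t', ht', hmove⟩ := exists_E_move hf (u := p) (w := q) (y := X') hpp hqp hX'p
    (by rw [hX'def, isotropic_smul hf hX, hqq])
  have hE := EMem.all_mem hf (eMem_pure hS hM hk hT hq hI w hw hw0 (hS.sf_eq_zero.1 hvu))
    (hI w hw) hpp hvu ht'
  have h1 := FullAt.conj hf (hI _ hqI) hE (le_sf hS hM hE)
  rw [hmove] at h1
  have h2 := FullAt.smul hf h1 (sf ζ (tform σ h T) X p)
  rwa [hX'def, smul_smul, mul_inv_cancel₀ hXp, one_smul] at h2

end CfsgLib.Geometric.TPowU
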