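import Cfsg.Agent.Lib.Geometric.TensorUnitary.SliceMap
import Cfsg.Agent.Lib.Geometric.TensorPower.Lift

/-!
An element of an overgroup without the special unitary group carrying an isotropic slice to such a
slice lies in the wreath product, given the dichotomy for one factor fewer.
-/

set_option autoImplicit false

namespace CfsgLib.Geometric.TPowU

open Matrix TPow

variable {T : Type} [Fintype T] [DecidableEq T] {k : ℕ} {F : Type*} [Field F] [Finite F]
variable {σ : F ≃+* F} {h : (Fin k → F) → (Fin k → F) → F} {ζ : F}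
variable {M : Subgroup (GL (T → Fin k) F)}

variable (σ h M) in
/-- The isometries of the other factors induced by the elements of `M` fixing the factor `j`. -/
def liftGroup (j : T) : Subgroup (GL (Rest j k) F) where
  carrier := {e | e ∈ isom (tform σ h {l : T // l ≠ j}) ∧ ∃ g ∈ M, ∃ a : GL (Fin k) F,
    ∀ v y, ap g (ten j v y) = ten j (ap a v) (ap e y)}
  one_mem' := ⟨one_mem _, 1, M.one_mem, 1, fun v y => by simp⟩
  mul_mem' := fun ⟨hi, g, hg, a, ha⟩ ⟨hi', g', hg', a', ha'⟩ =>
    ⟨mul_mem hi hi', g * g', M.mul_mem hg hg', a * a', fun v y => by simp [ap_mul, ha, ha']⟩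
  inv_mem' := fun ⟨hi, g, hg, a, ha⟩ => ⟨inv_mem hi, g⁻¹, M.inv_mem hg, a⁻¹, fun v y =>
    ap_injective g (by rw [ha, ap_ap_inv, ap_ap_inv, ap_ap_inv])⟩

variable (hS : Space σ h ζ) (hM : Over σ h M)
include hS hM

lemma over_liftGroup (j : T) : Over σ h (liftGroup σ h M j) where
  le := fun _ he => he.1
  slot_mem l a ha := ⟨hS.slot_isom l ha.1, slot (l : T) a, hM.slot_mem _ a ha, 1, fun v y => by
    rw [slot_ten_other, ap_one]⟩
  cyc_mem a b c hab hbc hac := ⟨Space.perm_isom _, perm (Equiv.swap (a : T) c * Equiv.swap (a : T) b),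
    hM.cyc_mem a b c (Subtype.coe_injective.ne hab) (Subtype.coe_injective.ne hbc)
      (Subtype.coe_injective.ne hac), 1, fun v y => by
    rw [ap_one]
    refine TPow.perm_ten ?_ (fun l => ?_) v y
    · simp [Equiv.swap_apply_of_ne_of_ne (Ne.symm a.2) (Ne.symm b.2),
        Equiv.swap_apply_of_ne_of_ne (Ne.symm a.2) (Ne.symm c.2)]
    · simp only [Equiv.Perm.mul_apply, Subtype.coe_injective.swap_apply]⟩

/-- The special unitary group of the other factors gives that of all. -/
theorem full_of_liftGroup (hk : 3 ≤ k) (hq : 4 ≤ k ∨ ∃ c : F, σ c = c ∧ c ≠ 0 ∧ c ≠ 1) {j : T}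
    (hc : 3 ≤ Fintype.card T) (hK : Full σ h (liftGroup σ h M j)) : Full σ h M := by
  classical
  have hf₁ := hS.skew₁
  obtain ⟨z, -, hz0, hzz⟩ := Unitary.exists_isotropic hf₁ (Unitary.nondeg_perp_bot hf₁)
    (by rw [Unitary.finrank_perp_bot hf₁, Fintype.card_fin]; omega)
  rw [hS.sf_eq_zero] at hzz
  obtain ⟨v, hv, hvz⟩ := hS.exists_partner hzz hz0
  have hzv := hS.partner_symm hvz
  set A : Finset T := Finset.univ.erase j with hA
  have hAcard : 2 ≤ A.card := by
    rw [hA, Finset.card_erase_of_mem (Finset.mem_univ j), Finset.card_univ]; omega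
  obtain ⟨a₀, ha₀, a₁, ha₁, hne⟩ := Finset.one_lt_card.1 (show 1 < A.card by omega)
  have hj₀ : a₀ ≠ j := Finset.ne_of_mem_erase ha₀
  have hj₁ : a₁ ≠ j := Finset.ne_of_mem_erase ha₁
  set l₀ : {l : T // l ≠ j} := ⟨a₀, hj₀⟩
  set l₁ : {l : T // l ≠ j} := ⟨a₁, hj₁⟩
  -- the lifted transvection
  set W : T → Fin k → F := fun _ => z with hW
  set W' : T → Fin k → F := Function.update W a₀ v with hW'
  set p : Rest j k → F := pv fun l : {l : T // l ≠ j} => W l with hp
  set p' : Rest j k → F := pv fun l : {l : T // l ≠ j} => W' l with hp'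
  set B := tform σ h {l : T // l ≠ j} with hB
  have hpp : B p p = 0 := tform_pv_eq_zero hS l₀ hzz
  have hp'p : B p' p = 0 := tform_pv_eq_zero hS l₁ (by
    simp [hW', hW, l₁, Function.update_of_ne hne.symm, hzz])
  have hsp : sf ζ B p p = 0 := hS.sf_eq_zero.2 hpp
  have hR := hS.skewT {l : T // l ≠ j}
  obtain ⟨g, hg, a, hga⟩ : ∃ g ∈ M, ∃ a : GL (Fin k) F,
      ∀ x y, ap g (ten j x y) = ten j (ap a x) (y + (ζ * B y p) • p) := by
    obtain ⟨-, g, hg, a, ha⟩ := hK (x := Unitary.T hR p 1 hsp)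
      ⟨(isom_mul_const hS.ne _).le (Unitary.T_mem_isom hR hsp (map_one σ)),
        Unitary.T_mem_specialLinear hR hsp⟩
    exact ⟨g, hg, a, fun x y => by rw [ha, Unitary.ap_T hR, one_mul, sf]⟩
  -- the move of the factor
  have hv0 : v ≠ 0 := fun h0 => one_ne_zero (α := F) (by
    rw [← hvz, h0, ← hS.sf_eq_zero, Unitary.zero_left hf₁])
  obtain ⟨t, ht, htz⟩ := hS.exists_su_move hk hzz hv hz0 hv0
  set s := slot a₀ t with hs
  set s₀ := slot l₀ t with hs₀
  have hst : ∀ x y, ap s (ten j x y) = ten j x (ap s₀ y) := fun x y => slot_ten_other j l₀ t x y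
  have hsp' : ap s₀ p = p' := by
    rw [hs₀, hp, hp', ap_slot_pv]
    congr 1
    funext l
    by_cases hl : l = l₀
    · subst hl; simp [hW', hW, l₀, htz]
    · have : (l : T) ≠ a₀ := fun e => hl (Subtype.ext e)
      simp [hW', hW, Function.update_of_ne this, Pi.mulSingle_eq_of_ne hl]
  -- patterns
  have hlift : ∀ f : (Rest j k → F) →ₗ[F] (Rest j k → F),
      ∃ P : Module.End F ((T → Fin k) → F), ∀ x y, P (ten j x y) = ten j x (f y) := by
    intro f
    refine ⟨∑ c, (ten j (Pi.single c (1 : F))).comp (f.comp (con j (Pi.single c 1))), fun x y => ?_⟩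
    conv_rhs => rw [eq_sum_ten j (ten j x (f y))]
    simp only [LinearMap.sum_apply, LinearMap.comp_apply, con_ten, map_smul, single_dotProduct,
      one_mul]
  have hpat : ∀ U : T → Fin k → F, ∃ P : Module.End F ((T → Fin k) → F),
      (∀ x y, P (ten j x y) =
        ten j x ((ζ * B y (pv fun l : {l : T // l ≠ j} => U l)) •
          pv fun l : {l : T // l ≠ j} => U l)) ∧
      ∀ u, P (pv u) = (ζ * patc h A U u) • pv (A.piecewise U u) := by
    intro U
    set r : Rest j k → F := pv fun l : {l : T // l ≠ j} => U l with hr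
    obtain ⟨P, hP⟩ := hlift
      { toFun := fun y => (ζ * B y r) • r
        map_add' := fun y y' => by rw [hB, Space.tform_add_left, mul_add, add_smul]
        map_smul' := fun c y => by
          rw [hB, Space.tform_smul_left, RingHom.id_apply, smul_smul]; ring_nf }
    refine ⟨P, hP, fun u => ?_⟩
    rw [pv_eq_ten j u, hP, pv_eq_ten j (A.piecewise U u)]
    simp only [LinearMap.coe_mk, AddHom.coe_mk, map_smul]
    rw [Finset.piecewise_eq_of_notMem _ _ _ (Finset.notMem_erase j _), hB, hr, hS.tform_pv]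
    congr 1
    · rw [patc, hA, Finset.prod_subtype (Finset.univ.erase j) (p := fun l => l ≠ j) (by simp)]
    · congr 2
      funext l
      rw [Finset.piecewise_eq_of_mem _ _ _ (by simp [hA, l.2])]
  obtain ⟨P, hPt, hPv⟩ := hpat W
  obtain ⟨P', hP't, hP'v⟩ := hpat W'
  have hMem : Mem M (P - P') := by
    refine ⟨g * s * g⁻¹ * s⁻¹, M.mul_mem (M.mul_mem (M.mul_mem hg (hM.slot_mem _ t ht))
      (M.inv_mem hg)) (M.inv_mem (hM.slot_mem _ t ht)), ext_ten j fun x y => ?_⟩
    obtain ⟨q, rfl⟩ : ∃ q, ap s₀ q = y := ⟨_, ap_ap_inv _ y⟩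
    have hgi : ap g⁻¹ (ten j x q) = ten j (ap a⁻¹ x) (q - (ζ * B q p) • p) := by
      refine ap_injective g ?_
      rw [ap_ap_inv, hga, ap_ap_inv, sub_eq_add_neg, ← neg_smul, hB, Space.tform_add_left,
        Space.tform_smul_left, ← hB, hpp, mul_zero, add_zero, neg_smul, neg_add_cancel_right]
    have hiso : B (ap s₀ q) p' = B q p := by
      rw [← hsp']
      exact mem_isom_iff.1 (hS.slot_isom l₀ ht.1) q p
    rw [lin_apply, LinearMap.add_apply, Module.End.one_apply, LinearMap.sub_apply, hPt, hP't,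
      ← hp, ← hp', hiso, ap_mul, ap_mul, ap_mul, ← hst x q, ap_inv_ap, hgi, hst, hga, ap_ap_inv,
      ap_sub, ap_smul, hsp', sub_eq_add_neg, ← neg_smul, hB, Space.tform_add_left,
      Space.tform_smul_left, ← hB, hp'p, mul_zero, add_zero, neg_smul, hst]
    simp only [map_add, map_smul, map_neg]
    abel
  -- the sandwich
  have hW'1 : W' a₁ = z := Function.update_of_ne hne.symm _ _
  have hN : SlotN h a₁ z v P := slotN_pat hS hPv ha₁ (show h v (W a₁) = 1 from hvz)
  have hN' : SlotN h a₁ z v P' := by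
    have := slotN_pat hS hP'v ha₁ (v := v) (by rw [hW'1]; exact hvz)
    rwa [hW'1] at this
  have hX : SlotN h a₁ z v (P - P') := ⟨by rw [mul_sub, hN.1, hN'.1], by rw [sub_mul, hN.2, hN'.2]⟩
  obtain ⟨-, hm⟩ := sandwich hS hM hk hne hzz hzz hz0 hX hMem
  set n := rop h a₀ z z with hn
  have e1 : n * P * n = 0 := by
    have h0 := slotN_pat hS hPv ha₀ (show h v (W a₀) = 1 from hvz)
    conv_lhs => rw [← h0.2]
    rw [mul_assoc, mul_assoc P, show W a₀ = z from rfl, hn, hS.rop_mul, hzz]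
    simp
  have e2 : n * P' * n = P := by
    refine ext_pv fun u => ?_
    rw [Module.End.mul_apply, Module.End.mul_apply, hn, hS.rop_pv, map_smul, hP'v, map_smul,
      map_smul, hS.rop_pv, Finset.piecewise_eq_of_mem _ _ _ ha₀, smul_smul, smul_smul, hPv]
    have h1 : W' a₀ = v := Function.update_self _ _ _
    rw [h1, hvz, mul_one]
    congr 1
    · rw [patc, patc, ← Finset.mul_prod_erase A _ ha₀, ← Finset.mul_prod_erase A _ ha₀,
        Function.update_self, h1, hzv, one_mul]
      rw [Finset.prod_congr rfl (g := fun l => h (u l) (W l)) fun l hl => by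
        rw [Function.update_of_ne (Finset.ne_of_mem_erase hl),
          hW', Function.update_of_ne (Finset.ne_of_mem_erase hl)]]
      simp only [hW]
      ring
    · congr 1
      funext l
      by_cases hl : l = a₀
      · subst hl; simp [hW, ha₀]
      · by_cases hlA : l ∈ A <;> simp [hlA, hl, hW', hW]
  rw [mul_sub, sub_mul, e1, e2, zero_sub] at hm
  have hPat : HasPat h M A W := ⟨fun _ _ => ⟨hz0, hzz⟩, -ζ, neg_ne_zero.2 hS.ne, -P, hm, fun u => by
    rw [LinearMap.neg_apply, hPv, neg_mul, neg_smul]⟩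
  exact full_of_hasPure hS hM hk (by omega) hq (hasPure_of_hasPat hS hM hk hPat hAcard)

omit hM in
/-- An isometry splitting off a factor splits into a scalar multiple and an isometry. -/
lemma exists_isom_split (hk : 3 ≤ k) {j : T} {g : GL (T → Fin k) F}
    (hg : g ∈ isom (tform σ h T)) {a : GL (Fin k) F} {e : (Rest j k → F) ≃ₗ[F] (Rest j k → F)}
    (hge : ∀ x y, ap g (ten j x y) = ten j (ap a x) (e y)) :
    ∃ (a' : GL (Fin k) F) (e' : GL (Rest j k) F), e' ∈ isom (tform σ h {l : T // l ≠ j}) ∧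
      ∀ x y, ap g (ten j x y) = ten j (ap a' x) (ap e' y) := by
  have : Nonempty (Fin k) := ⟨⟨0, by omega⟩⟩
  set B := tform σ h {l : T // l ≠ j}
  have hB := hS.herm_tform {l : T // l ≠ j}
  obtain ⟨p, q, hpq⟩ : ∃ p q : Rest j k → F, B p q ≠ 0 := by
    obtain ⟨-, q, hq⟩ := hB.nondegenerate (fun _ => 1) fun h0 =>
      one_ne_zero (congrFun h0 fun _ => Classical.arbitrary _)
    exact ⟨_, q, hq⟩
  obtain ⟨x, x', hxx⟩ : ∃ x x' : Fin k → F, h x x' = 1 := by
    obtain ⟨z, -, hz0, hzz⟩ := Unitary.exists_isotropic hS.skew₁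
      (Unitary.nondeg_perp_bot hS.skew₁)
      (by rw [Unitary.finrank_perp_bot hS.skew₁, Fintype.card_fin]; omega)
    obtain ⟨v, -, hv⟩ := hS.exists_partner (hS.sf_eq_zero.1 hzz) hz0
    exact ⟨v, z, hv⟩
  set c := h (ap a x) (ap a x')
  have hc : ∀ y y', c * B (e y) (e y') = B y y' := fun y y' => by
    have h1 := mem_isom_iff.1 hg (ten j x y) (ten j x' y')
    rwa [hge, hge, hS.tform_ten, hS.tform_ten, hxx, one_mul] at h1
  have hc0 : c ≠ 0 := fun h0 => hpq (by rw [← hc, h0, zero_mul])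
  have hσc : σ c = c := by
    have h1 := congrArg σ (hc q p)
    rw [map_mul, ← hB.herm, ← hB.herm] at h1
    change σ c * B (e p) (e q) = B p q at h1
    rw [← hc p q] at h1
    exact mul_right_cancel₀ (fun h0 => hpq (by rw [← hc, h0, mul_zero])) h1
  obtain ⟨ν, hν⟩ := Unitary.exists_norm hS.skew₁ hσc
  have hν0 : ν ≠ 0 := fun h0 => hc0 (by rw [← hν, h0, zero_mul])
  refine ⟨ofEquiv ((apEquiv a).trans (LinearEquiv.smulOfNeZero F _ ν⁻¹ (inv_ne_zero hν0))),
    ofEquiv (e.trans (LinearEquiv.smulOfNeZero F _ ν hν0)), mem_isom_iff.2 fun y y' => ?_,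
    fun x y => ?_⟩
  · rw [ap_ofEquiv, ap_ofEquiv, LinearEquiv.trans_apply, LinearEquiv.trans_apply]
    change tform σ h _ (ν • e y) (ν • e y') = _
    rw [Space.tform_smul_left, hS.tform_smul_right, ← mul_assoc, hν]
    exact hc y y'
  · rw [ap_ofEquiv, ap_ofEquiv, LinearEquiv.trans_apply, LinearEquiv.trans_apply, hge]
    change ten j (ap a x) (e y) = ten j (ν⁻¹ • ap a x) (ν • e y)
    rw [ten_smul_left, map_smul, inv_smul_smul₀ hν0]

/-- An element carrying an isotropic slice to such a slice acts factorwise. -/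
theorem mem_wreath_of_map_slice (hk : 3 ≤ k) (hT : 2 ≤ Fintype.card T)
    (hq : 4 ≤ k ∨ ∃ c : F, σ c = c ∧ c ≠ 0 ∧ c ≠ 1) (hX : ¬ Full σ h M)
    (IH : ∀ j : T, 3 ≤ Fintype.card T → Dichotomy σ h {l : T // l ≠ j})
    {g : GL (T → Fin k) F} (hg : g ∈ M) {i j : T} {w w' : Fin k → F} (hw0 : w ≠ 0) (hw'0 : w' ≠ 0)
    (hw : h w w = 0) (hw' : h w' w' = 0)
    (hmap : (slice j w').map (apEquiv g).toLinearMap = slice i w) : g ∈ wreath T k F := by
  have hU := upScalar_of_not_full hS hM hk hT hq hX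
  obtain ⟨a₀, e₀, -, he₀⟩ := split_isom hS hM hk hq hU hg hw0 hw'0 hw hw' hmap
  have hsplit : Split g j i := ⟨a₀, e₀, he₀⟩
  obtain ⟨π, hπ, hπi, hπM⟩ : ∃ π : Equiv.Perm T, perm π ∈ wreath T k F ∧ π i = j ∧
      (3 ≤ Fintype.card T → perm (F := F) (m := k) π ∈ M) := by
    by_cases hij : i = j
    · exact ⟨1, perm_mem_wreath 1, by simp [hij], fun _ => by rw [map_one]; exact M.one_mem⟩
    by_cases hc : 3 ≤ Fintype.card T
    · obtain ⟨c, -, hc'⟩ : ∃ c ∈ (Finset.univ : Finset T), c ∉ ({i, j} : Finset T) :=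
        Finset.exists_mem_notMem_of_card_lt_card (by
          rw [Finset.card_univ, Finset.card_pair hij]; omega)
      simp only [Finset.mem_insert, Finset.mem_singleton, not_or] at hc'
      exact ⟨_, perm_mem_wreath _, by
        simp [Equiv.swap_apply_of_ne_of_ne (Ne.symm hij) (Ne.symm hc'.2)],
        fun _ => hM.cyc_mem i j c hij (Ne.symm hc'.2) (Ne.symm hc'.1)⟩
    · exact ⟨Equiv.swap i j, perm_mem_wreath _, Equiv.swap_apply_left _ _, fun h => absurd h hc⟩
  obtain ⟨a, e, he⟩ : Split (perm π * g) j j :=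
    hsplit.trans (hπi ▸ split_of_wreath (by omega) (wrW_perm π) i)
  suffices hg' : perm π * g ∈ wreath T k F by
    simpa using (wreath T k F).mul_mem ((wreath T k F).inv_mem hπ) hg'
  by_cases hc : 3 ≤ Fintype.card T
  · have hgM : perm π * g ∈ M := M.mul_mem (hπM hc) hg
    obtain ⟨a', e', he'I, he'⟩ := exists_isom_split hS hk (hM.le hgM) he
    refine TPow.mem_wreath_of_split_self he' ?_
    exact ((IH j hc (liftGroup σ h M j) (over_liftGroup hS hM j)).resolve_left fun hK =>
      hX (full_of_liftGroup hS hM hk hq hc hK)) ⟨he'I, _, hgM, a', he'⟩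
  · refine TPow.mem_wreath_of_split_self (a := a) (h := ofEquiv e)
      (fun v y => by rw [he, ap_ofEquiv]) ?_
    refine TPow.mem_wreath_of_card_eq_one ?_ _
    rw [Fintype.card_subtype_compl, Fintype.card_subtype_eq]
    omega

end CfsgLib.Geometric.TPowU
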