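import Cfsg.Agent.Lib.Frobenius.Kernel
import Cfsg.Agent.Lib.Cores.FPF

/-!
A commutative group of at least three quadratic linear maps is no Frobenius complement: a quadratic
element of odd prime order commutes with every element of order prime to the characteristic which
commutes with its first two conjugates.
-/

set_option autoImplicit false

namespace CfsgLib.Geometric.TPowU

open scoped Matrix Pointwise

section Ring

variable {A : Type*} [Ring A]

/-- A power of `1 + X` for a square-zero `X`. -/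
lemma one_add_pow_of_sq_zero {X : A} (hX : X * X = 0) :
    ∀ k : ℕ, (1 + X) ^ k = 1 + k • X
  | 0 => by simp
  | k + 1 => by
    rw [pow_succ, one_add_pow_of_sq_zero hX k]
    simp only [add_mul, mul_add, one_mul, mul_one, smul_mul_assoc, hX, smul_zero, add_zero,
      succ_nsmul]
    abel

/-- An element commuting with its first two conjugates under a quadratic `1 + n` differs from the
first conjugate by a unipotent factor. -/
lemma conj_mul_pow_char (p : ℕ) (hp : (p : A) = 0) (h2 : IsUnit (2 : A)) {n a a' : A}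
    (hn : n * n = 0) (ha : a' * a = 1) (ha' : a * a' = 1)
    (h1 : Commute a ((1 + n) * a * (1 - n)))
    (h3 : Commute a ((1 + (n + n)) * a * (1 - (n + n)))) :
    (a' * ((1 + n) * a * (1 - n))) ^ p = 1 := by
  obtain ⟨D, hD⟩ : ∃ D, D = n * a - a * n := ⟨_, rfl⟩
  obtain ⟨Q, hQ⟩ : ∃ Q, Q = n * a * n := ⟨_, rfl⟩
  have e1 : (1 + n) * a * (1 - n) = a + (D - Q) := by rw [hD, hQ]; noncomm_ring
  have e2 : (1 + (n + n)) * a * (1 - (n + n)) = a + (2 * D - 4 * Q) := by
    rw [hD, hQ]; noncomm_ring
  have c1 : Commute a (D - Q) := by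
    have := h1.sub_right (Commute.refl a)
    rwa [e1, add_sub_cancel_left] at this
  have c2 : Commute a (2 * D - 4 * Q) := by
    have := h3.sub_right (Commute.refl a)
    rwa [e2, add_sub_cancel_left] at this
  have cQ : Commute a Q := by
    have h4 : Commute a (2 * Q) := by
      have h5 := (c1.add_right c1).sub_right c2
      rwa [show D - Q + (D - Q) - (2 * D - 4 * Q) = 2 * Q by noncomm_ring] at h5
    obtain ⟨u, hu⟩ := h2
    have hau : Commute a ((u⁻¹ : Aˣ) : A) := by
      refine Commute.units_inv_right ?_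
      rw [hu]
      exact Commute.ofNat_right a 2
    have := hau.mul_right h4
    rwa [← hu, ← mul_assoc, Units.inv_mul, one_mul] at this
  have cD : Commute a D := by
    have := c1.add_right cQ
    rwa [sub_add_cancel] at this
  have hDn : D * n = Q := by
    rw [hD, hQ, sub_mul, mul_assoc a n n, hn, mul_zero, sub_zero]
  have hnn : ∀ b, b * n * n = 0 := fun b => by rw [mul_assoc, hn, mul_zero]
  have hQn : Q * n = 0 := by rw [hQ]; exact hnn _
  have hDD : D * D = 0 := by
    have : D * (n * a) - D * (a * n) = 0 := by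
      rw [← mul_assoc, hDn, ← mul_assoc, ← cD.eq, mul_assoc, hDn, cQ.eq, sub_self]
    rwa [← mul_sub, ← hD] at this
  have hDQ : D * Q = 0 := by
    rw [hQ, ← mul_assoc, ← mul_assoc, hDn, ← cQ.eq, mul_assoc, hQn, mul_zero]
  have hQQ : Q * Q = 0 := by
    conv_lhs => arg 2; rw [hQ]
    rw [← mul_assoc, ← mul_assoc, hQn, zero_mul, zero_mul]
  have hQD : Q * D = 0 := by
    rw [hD, mul_sub, ← mul_assoc, hQn, zero_mul, ← mul_assoc, ← cQ.eq, mul_assoc, hQn, mul_zero,
      sub_zero]
  have cX : Commute a' (D - Q) := by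
    show a' * (D - Q) = (D - Q) * a'
    calc a' * (D - Q) = a' * ((D - Q) * (a * a')) := by rw [ha', mul_one]
      _ = a' * (a * (D - Q)) * a' := by rw [c1.eq]; simp only [mul_assoc]
      _ = (D - Q) * a' := by rw [← mul_assoc, ha, one_mul]
  have hX : a' * (D - Q) * (a' * (D - Q)) = 0 := by
    have h0 : (D - Q) * (D - Q) = 0 := by
      simp only [sub_mul, mul_sub, hDD, hDQ, hQD, hQQ, sub_zero]
    rw [mul_assoc, ← mul_assoc (D - Q), ← cX.eq, mul_assoc, h0, mul_zero, mul_zero]
  rw [e1, mul_add, ha, one_add_pow_of_sq_zero hX, nsmul_eq_mul, hp, zero_mul, add_zero]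

end Ring

variable {F : Type*} [Field F] {ι : Type} [Fintype ι] [DecidableEq ι]

/-- A commutative group of at least three quadratic maps is no Frobenius complement. -/
theorem not_frobenius_of_quadratic [Finite F] {J E : Subgroup (GL ι F)} (hEJ : E ≤ J)
    (hcomm : ∀ a ∈ E, ∀ b ∈ E, a * b = b * a)
    (hq : ∀ a ∈ E, ((a : Matrix ι ι F) - 1) * ((a : Matrix ι ι F) - 1) = 0)
    (hcard : 3 ≤ Nat.card E) : ¬ Cfsg.IsFrobeniusComplement (E.subgroupOf J) := by
  intro hF
  classical
  obtain ⟨N, -, hN, hc⟩ := CfsgLib.Frobenius.exists_kernel hF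
  set H : Subgroup J := E.subgroupOf J with hHdef
  have hN1 : N ≠ ⊥ := by
    rintro rfl
    exact hF.2.1 (Subgroup.isComplement'_bot_left.1 hc)
  have hfpf := (CfsgLib.Frobenius.isFrobeniusComplement_iff_fpf N H hc hN1 hF.1).1 hF
  have : IsMulCommutative H := ⟨⟨fun a b => Subtype.ext (Subtype.ext
    (hcomm _ (Subgroup.mem_subgroupOf.1 a.2) _ (Subgroup.mem_subgroupOf.1 b.2)))⟩⟩
  have hcyc : IsCyclic H := Cores.isCyclic_of_fpf hN1 Subgroup.le_normalizer_of_normal
    fun a ha h1 => (eq_bot_iff).2 fun k hk => Subgroup.mem_bot.2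
      (hfpf a ha h1 k hk.1 (Subgroup.mem_centralizer_singleton_iff.1 hk.2).symm)
  obtain ⟨p, hchar⟩ := CharP.exists F
  have hp : p.Prime := CharP.char_is_prime F p
  have hpF : (p : Matrix ι ι F) = 0 := by
    rw [← map_natCast (algebraMap F (Matrix ι ι F)), CharP.cast_eq_zero, map_zero]
  obtain ⟨h, hgen⟩ := hcyc.exists_generator
  have hHcard : Nat.card H = Nat.card E :=
    Nat.card_congr (Subgroup.subgroupOfEquivOfLe hEJ).toEquiv
  have hord : orderOf h = Nat.card E := by rw [orderOf_eq_card_of_forall_mem_zpowers hgen, hHcard]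
  set n : Matrix ι ι F := ((h : J) : GL ι F).val - 1 with hn
  have hnn : n * n = 0 := hq _ (Subgroup.mem_subgroupOf.1 h.2)
  have hval : ((h : J) : GL ι F).val = 1 + n := by rw [hn, add_sub_cancel]
  have hpow : h ^ p = 1 := by
    refine Subtype.ext (Subtype.ext (Units.ext ?_))
    show ((((h : J) : GL ι F) ^ p : GL ι F) : Matrix ι ι F) = 1
    rw [Units.val_pow_eq_pow_val, hval, one_add_pow_of_sq_zero hnn, nsmul_eq_mul, hpF, zero_mul,
      add_zero]
  have hordp : orderOf h = p := by
    rcases (Nat.dvd_prime hp).1 (orderOf_dvd_of_pow_eq_one hpow) with h1 | h1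
    · omega
    · exact h1
  have h2 : IsUnit (2 : Matrix ι ι F) := by
    have h2F : (2 : F) ≠ 0 := fun h0 => by
      have : p ∣ 2 := (CharP.cast_eq_zero_iff F p 2).1 (by exact_mod_cast h0)
      have := Nat.le_of_dvd two_pos this
      omega
    rw [← map_ofNat (algebraMap F (Matrix ι ι F))]
    exact (isUnit_iff_ne_zero.2 h2F).map _
  have hcop : p.Coprime (Nat.card N) := by
    rw [← hc.index_eq_card, ← hordp, hord, ← hHcard]
    exact CfsgLib.Frobenius.coprime_card_index hF
  -- a Sylow subgroup of the kernel invariant under the generator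
  set α : MulAut N := MulAut.conjNormal (h : J) with hα
  have hα' : ∀ x : N, ((α x : N) : J) = (h : J) * (x : J) * (h : J)⁻¹ := fun x =>
    MulAut.conjNormal_apply _ _
  have hh1 : (h : J) ≠ 1 := fun h0 => by
    rw [Subtype.ext (show (h : J) = ((1 : H) : J) from h0), orderOf_one] at hordp
    exact hp.ne_one hordp.symm
  obtain ⟨r, hr, hrN⟩ := Nat.exists_prime_and_dvd (n := Nat.card N)
    (fun h0 => hN1 (Subgroup.card_eq_one.1 h0))
  have := Fact.mk hr
  obtain ⟨R⟩ : Nonempty (Sylow r N) := inferInstance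
  obtain ⟨g, hg⟩ := MulAction.exists_smul_eq N R (α • R)
  have hinj : Function.Injective fun x : N => (α x)⁻¹ * x := by
    intro x y hxy
    have e : (x * y⁻¹) = α (x * y⁻¹) := by
      have hxy' : (α x)⁻¹ * x = (α y)⁻¹ * y := hxy
      calc x * y⁻¹ = α x * ((α x)⁻¹ * x) * y⁻¹ := by group
        _ = α x * ((α y)⁻¹ * y) * y⁻¹ := by rw [hxy']
        _ = α (x * y⁻¹) := by rw [map_mul, map_inv]; group
    have e' := congrArg Subtype.val e
    rw [hα'] at e'
    have := hfpf (h : J) h.2 hh1 ((x * y⁻¹ : N) : J) (x * y⁻¹).2 (eq_mul_inv_iff_mul_eq.1 e').symm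
    exact mul_inv_eq_one.1 (Subtype.ext this)
  obtain ⟨x, hx⟩ := Finite.surjective_of_injective hinj g
  set R' : Sylow r N := x • R with hR'
  have hfix : α • R' = R' := by
    have e : α • R' = (α x) • (α • R) := by
      apply Sylow.ext
      rw [hR']
      simp only [Sylow.pointwise_smul_def, Sylow.coe_subgroup_smul]
      rw [smul_smul, smul_smul]
      congr 1
      ext z
      simp
    rw [e, ← hg, smul_smul, ← hx, mul_inv_cancel_left]
  have hinv : ∀ z : N, z ∈ R' → α z ∈ R' := fun z hz => by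
    have := Subgroup.smul_mem_pointwise_smul z α (R' : Subgroup N) hz
    rw [← Sylow.pointwise_smul_def, hfix] at this
    exact this
  have hR'1 : (R' : Subgroup N) ≠ ⊥ := Sylow.ne_bot_of_dvd_card R' hrN
  have : Nontrivial (R' : Subgroup N) := (Subgroup.nontrivial_iff_ne_bot _).2 hR'1
  have := R'.2.center_nontrivial
  obtain ⟨z, hz⟩ := exists_ne (1 : Subgroup.center (R' : Subgroup N))
  set a : N := ((z : (R' : Subgroup N)) : N) with ha
  have haR : a ∈ R' := (z : (R' : Subgroup N)).2
  have hac : ∀ y ∈ R', Commute a y := fun y hy =>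
    (congrArg Subtype.val (Subgroup.mem_center_iff.1 z.2 ⟨y, hy⟩)).symm
  have c1 := hac _ (hinv a haR)
  have c2 := hac _ (hinv _ (hinv a haR))
  -- pass to matrices
  let φ : N →* Matrix ι ι F :=
    (Units.coeHom _).comp (J.subtype.comp N.subtype)
  have hαφ : ∀ y : N, φ (α y) = (1 + n) * φ y * (1 - n) := fun y => by
    show ((((α y : N) : J) : GL ι F) : Matrix ι ι F) = _
    rw [hα', Subgroup.coe_mul, Subgroup.coe_mul, Units.val_mul, Units.val_mul, hval]
    congr 1
    have hinv1 : (1 + n) * (1 - n) = 1 := by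
      rw [add_mul, one_mul, mul_sub, mul_one, hnn, sub_zero, sub_add_cancel]
    rw [Subgroup.coe_inv]
    refine Units.inv_eq_of_mul_eq_one_right ?_
    rw [hval, hinv1]
  have d2 : φ (α (α a)) = (1 + (n + n)) * φ a * (1 - (n + n)) := by
    rw [hαφ, hαφ]
    have hl : (1 + n) * (1 + n) = 1 + (n + n) := by
      rw [add_mul, one_mul, mul_add, mul_one, hnn, add_zero]; abel
    have hr' : (1 - n) * (1 - n) = 1 - (n + n) := by
      rw [sub_mul, one_mul, mul_sub, mul_one, hnn, sub_zero]; abel
    rw [← hl, ← hr']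
    simp only [mul_assoc]
  have hb := conj_mul_pow_char p hpF h2 hnn (a := φ a) (a' := φ a⁻¹)
    (by rw [← map_mul, inv_mul_cancel, map_one]) (by rw [← map_mul, mul_inv_cancel, map_one])
    (hαφ a ▸ c1.map φ) (d2 ▸ c2.map φ)
  rw [← hαφ, ← map_mul, ← map_pow] at hb
  have hφ : Function.Injective φ := Units.val_injective.comp
    (Subtype.val_injective.comp Subtype.val_injective)
  have hb1 : a⁻¹ * α a = 1 := orderOf_eq_one_iff.1 (Nat.eq_one_of_dvd_coprimes hcop
    (orderOf_dvd_of_pow_eq_one (hφ (hb.trans (map_one φ).symm))) (orderOf_dvd_natCard _))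
  have hfix' : (h : J) * (a : J) = (a : J) * (h : J) := by
    have := congrArg Subtype.val (inv_mul_eq_one.1 hb1)
    rw [hα'] at this
    exact (eq_mul_inv_iff_mul_eq.1 this).symm
  have ha1 : a = 1 := Subtype.ext (hfpf (h : J) h.2 hh1 a a.2 hfix')
  exact hz (Subtype.ext (Subtype.ext ha1))

end CfsgLib.Geometric.TPowU
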