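import Cfsg.Agent.Lib.Geometric.TensorUnitary.Lift
import Cfsg.Agent.Lib.Geometric.TensorUnitary.PlaneTwo
import Cfsg.Agent.Lib.Geometric.TensorUnitary.Quadratic

/-!
An overgroup of the special factorwise isometries and the cyclic exchanges of factors holds the
special unitary group or lies in the wreath product: the root group of the first slice of a least
pair would be a quadratic Frobenius complement.
-/

set_option autoImplicit false
set_option linter.unusedSectionVars false

namespace CfsgLib.Geometric.TPowU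

open Matrix TPow

variable {T : Type} [Fintype T] [DecidableEq T] {k : ℕ} {F : Type*} [Field F] [Finite F]
variable {σ : F ≃+* F} {h : (Fin k → F) → (Fin k → F) → F} {ζ : F}
variable {M : Subgroup (GL (T → Fin k) F)}

/-- The transvection of a slice with coefficient `c`. -/
def trU (hS : Space σ h ζ) (i : T) {w : Fin k → F} (hw : h w w = 0) (c : F) :
    GL (T → Fin k) F :=
  slot i (Unitary.T hS.skew₁ w c (by rw [sf, hw, mul_zero]))

variable (hS : Space σ h ζ)
include hS

lemma ap_trU (i : T) {w : Fin k → F} (hw : h w w = 0) (c : F) (z : (T → Fin k) → F) :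
    ap (trU hS i hw c) z = z + ten i w ((c * ζ) • cv h i w z) := by
  refine LinearMap.congr_fun (ext_ten i (f := (apEquiv (trU hS i hw c)).toLinearMap)
    (f' := LinearMap.id + (ten i w).comp ((c * ζ) • cv h i w)) fun u r => ?_) z
  simp only [LinearEquiv.coe_coe, apEquiv_apply, trU, slot_ten, Unitary.ap_T hS.skew₁,
    LinearMap.add_apply, LinearMap.id_apply, LinearMap.comp_apply, LinearMap.smul_apply,
    hS.cv_ten, map_smul, ten_add_left, ten_smul_left, sf, smul_smul, mul_assoc]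

lemma trU_mem (i : T) {w : Fin k → F} (hw : h w w = 0) {c : F} (hc : σ c = c) :
    trU hS i hw c ∈ rootU hS i hw :=
  ⟨_, ⟨c, hc, fun v => by rw [Unitary.ap_T hS.skew₁, sf, mul_assoc]⟩, rfl⟩

lemma exists_eq_trU {i : T} {w : Fin k → F} {hw : h w w = 0} {d : GL (T → Fin k) F}
    (hd : d ∈ rootU hS i hw) : ∃ c, σ c = c ∧ d = trU hS i hw c := by
  obtain ⟨a, ⟨c, hc, ha⟩, rfl⟩ := hd
  exact ⟨c, hc, congrArg (slot i) (gl_ext fun v => by
    rw [ha, Unitary.ap_T hS.skew₁, sf, mul_assoc])⟩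

lemma rootU_le (hM : Over σ h M) (i : T) {w : Fin k → F} (hw : h w w = 0) :
    rootU hS i hw ≤ M := by
  rintro _ ⟨a, ha, rfl⟩
  exact hM.slot_mem i a (tvGroup_le_su hS hw ha)

omit hS in
lemma rootU_le_wreath {hS : Space σ h ζ} (i : T) {w : Fin k → F} {hw : h w w = 0} :
    rootU hS i hw ≤ wreath T k F := by
  rintro _ ⟨a, -, rfl⟩
  exact slot_mem_wreath i a

lemma trU_mul (i : T) {w : Fin k → F} (hw : h w w = 0) (c c' : F) :
    trU hS i hw c * trU hS i hw c' = trU hS i hw (c + c') := by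
  refine gl_ext fun z => ?_
  rw [ap_mul, ap_trU, ap_trU, ap_trU, map_add, hS.cv_ten, hw, zero_smul, add_zero, add_mul,
    add_smul, map_add]
  abel

lemma mov_trU (i : T) {w : Fin k → F} (hw : h w w = 0) (hw0 : w ≠ 0) {c : F} (hc : c ≠ 0) :
    mov (trU hS i hw c) = slice i w := by
  refine le_antisymm (mov_le_iff.2 fun z => by
    rw [ap_trU, add_sub_cancel_left]; exact ten_mem_slice _ _ _) ?_
  rintro _ ⟨y, rfl⟩
  obtain ⟨⟨x, hx⟩, -⟩ := hS.herm.nondegenerate w hw0
  have := sub_mem_mov (trU hS i hw c) (ten i ((c * ζ * h x w)⁻¹ • x) y)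
  rw [ap_trU, add_sub_cancel_left, hS.cv_ten, hS.herm.smul_left, smul_smul,
    show c * ζ * ((c * ζ * h x w)⁻¹ * h x w) = 1 by field_simp [hS.ne, hx, hc], one_smul] at this
  exact this

variable (hM : Over σ h M)
include hM

/-- A conjugate of a slice's transvection in the wreath product exchanges two factors. -/
lemma sign_eq_neg_one (hk : 3 ≤ k) [Nonempty T] (hA : SliceClosed h M) {g : GL (T → Fin k) F}
    (hg : g ∈ M) (hgW : g ∉ wreath T k F) {i : T} {w : Fin k → F} (hw : h w w = 0) (hw0 : w ≠ 0)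
    {c : F} (hc : c ≠ 0) {π : Equiv.Perm T} {a : T → GL (Fin k) F}
    (hK : WrW (g * trU hS i hw c * g⁻¹) π a) : Equiv.Perm.sign π = -1 := by
  have : Nonempty (Fin k) := ⟨⟨0, by omega⟩⟩
  have hmov : mov (g * trU hS i hw c * g⁻¹) = (slice i w).map (apEquiv g).toLinearMap := by
    rw [mov_conj, mov_trU hS i hw hw0 hc]
  have hd : Module.finrank F (mov (g * trU hS i hw c * g⁻¹)) = sdim T k := by
    rw [hmov, LinearEquiv.finrank_map_eq, finrank_slice i hw0]
  have h1 : g * trU hS i hw c * g⁻¹ ≠ 1 := by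
    intro he
    have hbot : mov (1 : GL (T → Fin k) F) = ⊥ := le_bot_iff.1 (mov_le_iff.2 fun z => by simp)
    rw [he, hbot, finrank_bot] at hd
    have := TPow.sdim_pos (T := T) hk
    omega
  by_cases hπ : π = 1
  · subst hπ
    obtain ⟨l, u, hu, hlu⟩ := mov_eq_slice hk hK h1 hd.le
    exact absurd (hA.mem_of_map hS hM hg hw0 hu hw (hmov.symm.trans hlu)) hgW
  · obtain ⟨x, y, hxy, rfl⟩ := perm_eq_swap hk hK hd.le hπ
    exact Equiv.Perm.sign_swap hxy

/-- Some element of a slice's root group leaves the wreath product under conjugation. -/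
lemma exists_conj_rootU_notMem (hk : 3 ≤ k) [Nonempty T]
    (hq3 : ∃ c : F, σ c = c ∧ c ≠ 0 ∧ c ≠ 1) (hA : SliceClosed h M) {g : GL (T → Fin k) F}
    (hg : g ∈ M) (hgW : g ∉ wreath T k F) (i : T) {w : Fin k → F} (hw : h w w = 0) (hw0 : w ≠ 0) :
    ∃ r ∈ rootU hS i hw, g * r * g⁻¹ ∉ wreath T k F := by
  obtain ⟨c, hc, hc0, hc1⟩ := hq3
  by_contra hno
  push Not at hno
  obtain ⟨π, a, ha⟩ := hno _ (trU_mem hS i hw (map_one σ))
  obtain ⟨π', a', ha'⟩ := hno _ (trU_mem hS i hw (c := -c) (by rw [map_neg, hc]))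
  have h3 := ha.mul ha'
  rw [show g * trU hS i hw 1 * g⁻¹ * (g * trU hS i hw (-c) * g⁻¹) =
    g * (trU hS i hw 1 * trU hS i hw (-c)) * g⁻¹ by group, trU_mul] at h3
  have e1 := sign_eq_neg_one hS hM hk hA hg hgW hw hw0 one_ne_zero ha
  have e2 := sign_eq_neg_one hS hM hk hA hg hgW hw hw0 (neg_ne_zero.2 hc0) ha'
  have e3 := sign_eq_neg_one hS hM hk hA hg hgW hw hw0 (c := 1 + -c)
    (fun h0 => hc1 (by linear_combination -h0)) h3
  rw [map_mul, e1, e2] at e3
  exact absurd e3 (by decide)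

omit hS hM in
variable (h M) in
/-- A pair of isotropic slices spanning least, whose span holds no further slice of the factor. -/
structure LeastIso (g : GL (T → Fin k) F) (i j : T) (w w' : Fin k → F) : Prop where
  mem : g ∈ M
  notMem : g ∉ wreath T k F
  ne : w ≠ 0
  iso : h w w = 0
  ne' : w' ≠ 0
  iso' : h w' w' = 0
  least : ∀ g' ∈ M, g' ∉ wreath T k F → ∀ (i' j' : T) (v v' : Fin k → F), v ≠ 0 → h v v = 0 →
    v' ≠ 0 → h v' v' = 0 →
    Module.finrank F ↥(span2 g i j w w') ≤ Module.finrank F ↥(span2 g' i' j' v v')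
  good : ∀ u, slice i u ≤ span2 g i j w w' → u ∈ Submodule.span F {w}

omit hS hM in
lemma finrank_span2_le (g : GL (T → Fin k) F) (i j : T) {w w' : Fin k → F} (hw : w ≠ 0)
    (hw' : w' ≠ 0) : Module.finrank F ↥(span2 g i j w w') ≤ 2 * sdim T k := by
  refine (Submodule.finrank_add_le_finrank_add_finrank _ _).trans ?_
  rw [LinearEquiv.finrank_map_eq, finrank_slice i hw, finrank_slice j hw']
  omega

omit hS hM in
lemma finrank_sup_slice {i : T} {w u : Fin k → F} (hw : w ≠ 0)
    (hu : u ∉ Submodule.span F {w}) :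
    Module.finrank F ↥(slice (F := F) i w ⊔ slice i u) = 2 * sdim T k := by
  have hu0 : u ≠ 0 := fun h0 => hu (by rw [h0]; exact zero_mem _)
  have hinf : slice (F := F) i w ⊓ slice i u = ⊥ := by
    refine (Submodule.eq_bot_iff _).2 ?_
    rintro _ ⟨⟨p, rfl⟩, ⟨q, hq⟩⟩
    obtain ⟨φ, hφ, hφu⟩ := exists_dot_of_notMem hu
    have h1 := congrArg (con i φ) hq
    rw [con_ten, con_ten, hφu, one_smul, hφ w (Submodule.mem_span_singleton_self w),
      zero_smul] at h1
    rw [← hq, h1, map_zero]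
  have h1 := Submodule.finrank_sup_add_finrank_inf_eq (slice (F := F) i w) (slice i u)
  rw [hinf, finrank_bot, add_zero, finrank_slice i hw, finrank_slice i hu0] at h1
  rw [h1, two_mul]

omit hS hM in
lemma span2_eq_of_slice_le {g : GL (T → Fin k) F} {i j : T}
    {w w' u : Fin k → F} (hw : w ≠ 0) (hw' : w' ≠ 0) (hu : u ∉ Submodule.span F {w})
    (hle : slice i u ≤ span2 g i j w w') : slice i w ⊔ slice i u = span2 g i j w w' :=
  Submodule.eq_of_le_of_finrank_le (sup_le le_sup_left hle)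
    ((finrank_span2_le g i j hw hw').trans (finrank_sup_slice hw hu).ge)

/-- Outside the wreath product there is a least pair without a further slice in its span. -/
lemma exists_leastIso (hk : 3 ≤ k) [Nonempty T] (hA : SliceClosed h M)
    (hnle : ¬ M ≤ wreath T k F) : ∃ g i j w w', LeastIso h M g i j w w' := by
  classical
  have : Nonempty (Fin k) := ⟨⟨0, by omega⟩⟩
  have hf₁ := hS.skew₁
  obtain ⟨g₀, hg₀, hg₀W⟩ := SetLike.not_le_iff_exists.1 hnle
  obtain ⟨z, -, hz0, hzz⟩ := Unitary.exists_isotropic hf₁ (Unitary.nondeg_perp_bot hf₁)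
    (by rw [Unitary.finrank_perp_bot hf₁, Fintype.card_fin]; omega)
  rw [hS.sf_eq_zero] at hzz
  let P : ℕ → Prop := fun n => ∃ g ∈ M, g ∉ wreath T k F ∧ ∃ (i j : T) (w w' : Fin k → F),
    w ≠ 0 ∧ h w w = 0 ∧ w' ≠ 0 ∧ h w' w' = 0 ∧ Module.finrank F (span2 g i j w w') = n
  have hex : ∃ n, P n := ⟨_, g₀, hg₀, hg₀W, Classical.arbitrary T, Classical.arbitrary T, z, z,
    hz0, hzz, hz0, hzz, rfl⟩
  obtain ⟨g, hg, hgW, i, j, w, w', hw, hww, hw', hww', hn⟩ := Nat.find_spec hex
  have hmin : ∀ g' ∈ M, g' ∉ wreath T k F → ∀ (i' j' : T) (v v' : Fin k → F), v ≠ 0 →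
      h v v = 0 → v' ≠ 0 → h v' v' = 0 →
      Module.finrank F ↥(span2 g i j w w') ≤ Module.finrank F ↥(span2 g' i' j' v v') :=
    fun g' hg' hg'W i' j' v v' hv hvv hv' hvv' =>
      hn.trans_le (Nat.find_min' hex ⟨g', hg', hg'W, i', j', v, v', hv, hvv, hv', hvv', rfl⟩)
  by_cases hgood : ∀ u, slice i u ≤ span2 g i j w w' → u ∈ Submodule.span F {w}
  · exact ⟨g, i, j, w, w', hg, hgW, hw, hww, hw', hww', hmin, hgood⟩
  push Not at hgood
  obtain ⟨u, hule, hu⟩ := hgood
  have heq := span2_eq_of_slice_le hw hw' hu hule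
  -- an isotropic vector outside the plane
  obtain ⟨w₁, hw₁, hw₁U⟩ : ∃ w₁, h w₁ w₁ = 0 ∧ w₁ ∉ Submodule.span F {w, u} := by
    by_contra hc
    push Not at hc
    have hle : (⊤ : Submodule F (Fin k → F)) ≤ Submodule.span F {w, u} := fun x _ =>
      Submodule.span_le.2 (fun y (hy : h y y = 0 ∧ h y z ≠ 0) => hc y hy.1)
        (span_iso_nonorth hS hzz hz0 x)
    have h1 := Submodule.finrank_mono hle
    rw [finrank_top, Module.finrank_fin_fun, Submodule.span_insert] at h1
    have h2 := Submodule.finrank_add_le_finrank_add_finrank (Submodule.span F {w})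
      (Submodule.span F {u})
    rw [finrank_span_singleton hw, finrank_span_singleton fun h0 => hu (by rw [h0]; exact zero_mem _)] at h2
    omega
  have hw₁0 : w₁ ≠ 0 := fun h0 => hw₁U (by rw [h0]; exact zero_mem _)
  have hdim : 2 * sdim T k ≤ Module.finrank F ↥(span2 g i j w w') := by
    rw [← heq, finrank_sup_slice hw hu]
  refine ⟨g, i, j, w₁, w', hg, hgW, hw₁0, hw₁, hw', hww', fun g' hg' hg'W i' j' v v' hv hvv hv'
    hvv' => ((finrank_span2_le g i j hw₁0 hw').trans hdim).trans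
      (hmin g' hg' hg'W i' j' v v' hv hvv hv' hvv'), fun u' hu'le => ?_⟩
  by_contra hu'
  have heq' := span2_eq_of_slice_le hw₁0 hw' hu' hu'le
  obtain ⟨φ, hφ, hφw₁⟩ := exists_dot_of_notMem hw₁U
  set u₀ := u' - (φ ⬝ᵥ u') • w₁ with hu₀
  have hu₀0 : u₀ ≠ 0 := fun h0 => hu' (Submodule.mem_span_singleton.2 ⟨_, (sub_eq_zero.1 h0).symm⟩)
  refine hgW (hA.mem_of_map hS hM hg (j := j) (l := i) hw' hu₀0 hww' (Submodule.eq_of_le_of_finrank_le ?_ ?_))
  · intro x hx
    have h1 : x ∈ slice i w ⊔ slice i u := heq.ge (Submodule.mem_sup_right hx)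
    have h2 : x ∈ slice i w₁ ⊔ slice i u' := heq'.ge (Submodule.mem_sup_right hx)
    have h0 := con_eq_zero_of_plane i (hφ w (Submodule.subset_span (by simp)))
      (hφ u (Submodule.subset_span (by simp))) h1
    obtain ⟨_, ⟨p, rfl⟩, _, ⟨q, rfl⟩, rfl⟩ := Submodule.mem_sup.1 h2
    rw [map_add, con_ten, con_ten, hφw₁, one_smul] at h0
    refine ⟨q, ?_⟩
    rw [hu₀, ten_sub_left, ten_smul_left, eq_neg_of_add_eq_zero_left h0, map_neg, map_smul]
    abel
  · rw [LinearEquiv.finrank_map_eq, finrank_slice i hu₀0, finrank_slice j hw']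

variable {g : GL (T → Fin k) F} {i j : T} {w w' : Fin k → F}

/-- The contraction against `w` kills only the first slice in the span. -/
lemma LeastIso.mem_slice (hk : 3 ≤ k) [Nonempty T] (hq3 : ∃ c : F, σ c = c ∧ c ≠ 0 ∧ c ≠ 1)
    (hA : SliceClosed h M) (hL : LeastIso h M g i j w w') {x : (T → Fin k) → F}
    (hx : x ∈ span2 g i j w w') (hxw : cv h i w x = 0) : x ∈ slice i w := by
  by_contra hxS
  obtain ⟨r, hr, hkW⟩ := exists_conj_rootU_notMem hS hM hk hq3 hA (M.inv_mem hL.mem)
    (fun hi => hL.notMem (by simpa using (wreath T k F).inv_mem hi)) i hL.iso hL.ne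
  have hrM := rootU_le hS hM i hL.iso hr
  obtain ⟨c, -, rfl⟩ := exists_eq_trU hS hr
  have hkM : g⁻¹ * trU hS i hL.iso c * g⁻¹⁻¹ ∈ M :=
    M.mul_mem (M.mul_mem (M.inv_mem hL.mem) hrM) (M.inv_mem (M.inv_mem hL.mem))
  have hle := hL.least _ hkM hkW j j w' w' hL.ne' hL.iso' hL.ne' hL.iso'
  set R := span2 g i j w w' with hR
  have h1 := TPow.finrank_map_add_le (cv h i w) (S := slice i w ⊔ Submodule.span F {x}) (R := R)
    (sup_le le_sup_left ((Submodule.span_singleton_le_iff_mem _ _).2 hx))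
    (sup_le (by rintro _ ⟨y, rfl⟩; simp [hS.cv_ten, hL.iso])
      ((Submodule.span_singleton_le_iff_mem _ _).2 hxw))
  rw [TPow.finrank_sup_singleton hxS, finrank_slice i hL.ne] at h1
  set L := (apEquiv g⁻¹).toLinearMap.comp (ten i w) with hLdef
  have h2 : (slice j w').map (apEquiv (g⁻¹ * trU hS i hL.iso c * g⁻¹⁻¹)).toLinearMap ≤
      slice j w' ⊔ (R.map (cv h i w)).map L := by
    rintro _ ⟨y, hy, rfl⟩
    simp only [LinearEquiv.coe_coe, apEquiv_apply, ap_mul, inv_inv, ap_trU, ap_add, ap_inv_ap]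
    exact Submodule.add_mem_sup hy
      (Submodule.mem_map_of_mem (Submodule.smul_mem _ _
        ⟨_, Submodule.mem_sup_right ⟨y, hy, rfl⟩, rfl⟩))
  have h3 := Submodule.finrank_mono (sup_le (le_sup_left : slice j w' ≤ _) h2)
  have h4 := Submodule.finrank_add_le_finrank_add_finrank (slice j w') ((R.map (cv h i w)).map L)
  rw [finrank_slice j hL.ne'] at h4
  have h5 := Submodule.finrank_map_le L (R.map (cv h i w))
  change Module.finrank F R ≤ Module.finrank F ↥(slice j w' ⊔ (slice j w').map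
    (apEquiv (g⁻¹ * trU hS i hL.iso c * g⁻¹⁻¹)).toLinearMap) at hle
  omega

/-- A factorwise element moving into the span lies in the root group of the first slice. -/
lemma LeastIso.mem_rootU (hk : 3 ≤ k) [Nonempty T] (hq3 : ∃ c : F, σ c = c ∧ c ≠ 0 ∧ c ≠ 1)
    (hA : SliceClosed h M) (hL : LeastIso h M g i j w w') {d : GL (T → Fin k) F}
    (hdW : d ∈ wreath T k F) (hdM : d ∈ M) (hdR : d ∈ movInto (span2 g i j w w')) :
    d ∈ rootU hS i hL.iso := by
  have hf₁ := hS.skew₁
  have : Nonempty (Fin k) := ⟨⟨0, by omega⟩⟩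
  have hw := hL.ne
  obtain ⟨π, b, hdb⟩ := hdW
  obtain ⟨φ₀, hφ₀⟩ := hdb.split (by omega) i
  obtain ⟨p, hpw, hp⟩ : ∃ p, h p w = 0 ∧ p ∉ Submodule.span F {w} := by
    by_contra hc
    push Not at hc
    have hle : Unitary.perp hf₁ (Submodule.span F {w}) ≤ Submodule.span F {w} := fun x hx =>
      hc x (hS.sf_eq_zero.1 ((Unitary.mem_perp_span hf₁).1 hx))
    have h1 := Unitary.card_le_finrank_add_finrank_perp hf₁ (Submodule.span F {w})
    have h3 := Submodule.finrank_mono hle
    rw [finrank_span_singleton hw, Fintype.card_fin] at h1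
    rw [finrank_span_singleton hw] at h3
    omega
  obtain ⟨χ, hχ, hχp⟩ := exists_dot_of_notMem hp
  have hχw : χ ⬝ᵥ w = 0 := hχ w (Submodule.mem_span_singleton_self w)
  have hπ : π i = i := by
    by_contra hne
    set c := ap (b (π i)) w
    set u₀ : T → Fin k → F := Function.update (fun _ => c) i p with hu₀
    have h1 : pv u₀ ∈ slice (π i) c := by
      rw [pv_eq_ten (π i), hu₀, Function.update_of_ne hne]
      exact ten_mem_slice _ _ _
    have h2 : pv u₀ = ten i p (pv fun _ : {l : T // l ≠ i} => c) := by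
      rw [pv_eq_ten i, hu₀, Function.update_self]
      congr 2
      funext l
      rw [Function.update_of_ne l.2]
    have h3 : pv u₀ ∈ span2 g i j w w' := by
      rw [← Split.map_slice hφ₀ w] at h1
      obtain ⟨z, hz, hze⟩ := h1
      rw [← hze]
      exact ap_mem_of_movInto hdR (Submodule.mem_sup_left hz)
    rw [h2] at h3
    have h4 := hL.mem_slice hS hM hk hq3 hA h3 (by rw [hS.cv_ten, hpw, zero_smul])
    have h5 := (mem_slice_iff i hw).1 h4 χ hχw
    rw [con_ten, hχp, one_smul] at h5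
    exact pv_ne_zero (fun _ : {l : T // l ≠ i} => ap_ne_zero (b (π i)) hw) h5
  obtain ⟨a, η, hsplit⟩ : Split d i i := by
    have := split_of_wreath (show 1 ≤ k by omega) hdb i
    rwa [hπ] at this
  have hηne : ∀ {y}, y ≠ 0 → η y ≠ 0 := fun hy h0 => hy (η.map_eq_zero_iff.1 h0)
  obtain ⟨μ, hμ⟩ : ∃ μ : F, μ • w = ap a w := by
    refine Submodule.mem_span_singleton.1 (hL.good _ ?_)
    rintro _ ⟨y, rfl⟩
    rw [← η.apply_symm_apply y, ← hsplit]
    exact ap_mem_of_movInto hdR (Submodule.mem_sup_left (ten_mem_slice i w _))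
  have hμ0 : μ ≠ 0 := fun h0 => ap_ne_zero a hw (by rw [← hμ, h0, zero_smul])
  obtain ⟨-, y₂, hy₂⟩ := (hS.herm_tform {l : T // l ≠ i}).nondegenerate _
    (one_ne_zero_rest (F := F) (k := k) i)
  have hperp : h (ap a p) w = 0 := by
    have h1 := mem_isom_iff.1 (hM.le hdM) (ten i p (η.symm fun _ => 1)) (ten i w (η.symm y₂))
    rw [hsplit, hsplit, hS.tform_ten, hS.tform_ten, hpw, zero_mul, η.apply_symm_apply,
      η.apply_symm_apply, mul_eq_zero] at h1
    have h3 := h1.resolve_right hy₂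
    rw [← hμ, hS.smul_right, mul_eq_zero] at h3
    exact h3.resolve_left ((map_ne_zero σ).2 hμ0)
  -- the other factors are scaled
  have hη : ∀ y, (χ ⬝ᵥ ap a p) • η y = y := by
    intro y
    have hmem : ap d (ten i p y) - ten i p y ∈ slice i w :=
      hL.mem_slice hS hM hk hq3 hA (hdR _) (by
        rw [map_sub, hsplit, hS.cv_ten, hS.cv_ten, hperp, hpw, zero_smul, zero_smul, sub_zero])
    have := (mem_slice_iff i hw).1 hmem χ hχw
    rwa [map_sub, hsplit, con_ten, con_ten, hχp, one_smul, sub_eq_zero] at this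
  have hν0 : χ ⬝ᵥ ap a p ≠ 0 := fun h0 => by
    have := hη fun _ => 1
    rw [h0, zero_smul] at this
    exact one_ne_zero_rest i this.symm
  obtain ⟨a', rfl, -⟩ := exists_eq_slot i (d := d)
    (((χ ⬝ᵥ ap a p)⁻¹ • (apEquiv a).toLinearMap)) fun u y => by
      rw [hsplit]
      conv_rhs => rw [← hη y]
      rw [map_smul, LinearMap.smul_apply, ten_smul_left, smul_smul, mul_inv_cancel₀ hν0, one_smul]
      rfl
  have haI : ∀ u u', h (ap a' u) (ap a' u') = h u u' := fun u u' => by
    have h1 := mem_isom_iff.1 (hM.le hdM) (ten i u fun _ => 1) (ten i u' y₂)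
    rw [slot_ten, slot_ten, hS.tform_ten, hS.tform_ten] at h1
    exact mul_right_cancel₀ hy₂ h1
  have hmove : ∀ u, ∃ t : F, t • w = ap a' u - u := fun u => by
    refine Submodule.mem_span_singleton.1 (hL.good _ ?_)
    rintro _ ⟨y, rfl⟩
    rw [ten_sub_left, ← slot_ten]
    exact hdR _
  choose f hf using hmove
  obtain ⟨v, -, hvw⟩ := hS.exists_partner hL.iso hw
  have hwv := hS.partner_symm hvw
  have key : ∀ u u', f u * h w u' + σ (f u') * h u w = 0 := fun u u' => by
    have e := haI u u'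
    rw [sub_eq_iff_eq_add.1 (hf u).symm, sub_eq_iff_eq_add.1 (hf u').symm, hS.herm.add_left,
      hS.add_right, hS.add_right, hS.herm.smul_left, hS.smul_right, hS.herm.smul_left,
      hS.smul_right, hL.iso] at e
    linear_combination e
  have hfv : σ (f v) = -f v := by
    have := key v v
    rw [hwv, hvw] at this
    linear_combination this
  have hfu : ∀ u, f u = f v * h u w := fun u => by
    have := key u v
    rw [hwv, hfv] at this
    linear_combination this
  set c := f v / ζ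
  have hc : σ c = c := by rw [map_div₀, hfv, hS.skew, neg_div_neg_eq]
  convert trU_mem hS i hL.iso hc using 1
  refine congrArg (slot i) (gl_ext fun u => ?_)
  rw [Unitary.ap_T hf₁, sub_eq_iff_eq_add.1 (hf u).symm, hfu, add_comm, sf, ← mul_assoc,
    div_mul_cancel₀ _ hS.ne]

/-- With more than two fixed scalars an overgroup in which isotropic slices are moved factorwise is
factorwise. -/
theorem le_wreath_of_three (hk : 3 ≤ k) [Nonempty T] (hq3 : ∃ c : F, σ c = c ∧ c ≠ 0 ∧ c ≠ 1)
    (hA : SliceClosed h M) : M ≤ wreath T k F := by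
  classical
  by_contra hnle
  obtain ⟨g, i, j, w, w', hL⟩ := exists_leastIso hS hM hk hA hnle
  have : Nonempty (Fin k) := ⟨⟨0, by omega⟩⟩
  set E := rootU hS i hL.iso with hE
  set E' := (rootU hS j hL.iso').map (MulAut.conj g).toMonoidHom with hE'
  set J := E ⊔ E' with hJ
  have hJM : J ≤ M := sup_le (rootU_le hS hM i _) (by
    rintro _ ⟨r, hr, rfl⟩
    simp only [MulEquiv.coe_toMonoidHom, MulAut.conj_apply]
    exact M.mul_mem (M.mul_mem hL.mem (rootU_le hS hM j _ hr)) (M.inv_mem hL.mem))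
  have hJR : J ≤ movInto (span2 g i j w w') := by
    refine sup_le ?_ ?_
    · intro r hr z
      obtain ⟨c, -, rfl⟩ := exists_eq_trU hS hr
      rw [ap_trU, add_sub_cancel_left]
      exact Submodule.mem_sup_left (ten_mem_slice _ _ _)
    · rintro _ ⟨r, hr, rfl⟩ z
      obtain ⟨c, -, rfl⟩ := exists_eq_trU hS hr
      simp only [MulEquiv.coe_toMonoidHom, MulAut.conj_apply, ap_mul, ap_trU, ap_add, ap_ap_inv,
        add_sub_cancel_left]
      exact Submodule.mem_sup_right ⟨_, ten_mem_slice _ _ _, rfl⟩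
  have hJW : ∀ d ∈ J, d ∈ wreath T k F → d ∈ E := fun d hd hdW =>
    hL.mem_rootU hS hM hk hq3 hA hdW (hJM hd) (hJR hd)
  have hmov : ∀ d ∈ E, d ≠ 1 → mov d = slice i w := by
    intro d hd hd1
    obtain ⟨c, -, rfl⟩ := exists_eq_trU hS hd
    refine mov_trU hS i hL.iso hL.ne fun h0 => hd1 (gl_ext fun z => ?_)
    rw [ap_trU, h0, zero_mul, zero_smul, map_zero, add_zero, ap_one]
  have hcard : 3 ≤ Nat.card E := by
    obtain ⟨c₀, hc₀, hc00, hc01⟩ := hq3
    let cs : Fin 3 → F := ![0, 1, c₀]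
    have hcs : ∀ a, σ (cs a) = cs a := fun a => by fin_cases a <;> simp [cs, hc₀]
    obtain ⟨v, -, hvw⟩ := hS.exists_partner hL.iso hL.ne
    have hinj : Function.Injective fun a => (⟨trU hS i hL.iso (cs a), trU_mem hS i _ (hcs a)⟩ : E) := by
      intro a b hab
      have h1 := congrArg (fun x : E => ap (x : GL (T → Fin k) F) (ten i v fun _ => 1)) hab
      simp only [ap_trU, hS.cv_ten, hvw, one_smul, add_right_inj] at h1
      have h2 := ten_injective i hL.ne h1
      have h3 : cs a * ζ = cs b * ζ := by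
        have := congrFun h2 (Classical.arbitrary _)
        simpa using this
      have h4 : cs a = cs b := mul_right_cancel₀ hS.ne h3
      fin_cases a <;> fin_cases b <;>
        simp [cs, hc00, hc01, hc00.symm, hc01.symm] at h4 ⊢
    simpa using Nat.card_le_card_of_injective _ hinj
  refine not_frobenius_of_quadratic (J := J) (E := E) le_sup_left ?_ ?_ hcard ⟨?_, ?_, ?_⟩
  · intro a ha b hb
    obtain ⟨c, -, rfl⟩ := exists_eq_trU hS ha
    obtain ⟨c', -, rfl⟩ := exists_eq_trU hS hb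
    rw [trU_mul, trU_mul, add_comm]
  · intro a ha
    obtain ⟨c, -, rfl⟩ := exists_eq_trU hS ha
    refine Matrix.toLin'.injective (LinearMap.ext fun z => ?_)
    rw [Matrix.toLin'_apply, ← Matrix.mulVec_mulVec, Matrix.sub_mulVec, Matrix.sub_mulVec,
      Matrix.one_mulVec, Matrix.one_mulVec, ← ap_def, ← ap_def, ap_trU, ap_trU, map_zero,
      LinearMap.zero_apply]
    simp only [add_sub_cancel_left, hS.cv_ten, hL.iso, zero_smul, smul_zero, map_zero]
  · intro hbot
    have h1 : (⟨trU hS i hL.iso 1, le_sup_left (a := E) (trU_mem hS i hL.iso (map_one σ))⟩ : J) ∈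
        E.subgroupOf J := Subgroup.mem_subgroupOf.2 (trU_mem hS i hL.iso (map_one σ))
    rw [hbot, Subgroup.mem_bot] at h1
    have h2 := mov_trU hS i hL.iso hL.ne (c := 1) one_ne_zero
    rw [show trU hS i hL.iso 1 = 1 from congrArg Subtype.val h1,
      show mov (1 : GL (T → Fin k) F) = ⊥ from le_bot_iff.1 (mov_le_iff.2 fun z => by simp)] at h2
    have h3 := finrank_slice (F := F) i hL.ne
    rw [← h2, finrank_bot] at h3
    have := TPow.sdim_pos (T := T) hk
    omega
  · obtain ⟨r, hr, hk'⟩ := exists_conj_rootU_notMem hS hM hk hq3 hA hL.mem hL.notMem j hL.iso' hL.ne'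
    intro htop
    have hmem : (⟨g * r * g⁻¹, le_sup_right (a := E) (show g * r * g⁻¹ ∈ E' from
        ⟨r, hr, rfl⟩)⟩ : J) ∈ E.subgroupOf J := htop ▸ Subgroup.mem_top _
    exact hk' (rootU_le_wreath (hS := hS) (hw := hL.iso) i (Subgroup.mem_subgroupOf.1 hmem))
  · intro x hx
    rw [eq_bot_iff]
    rintro d ⟨hd, hd'⟩
    replace hd' : x⁻¹ * d * x ∈ E.subgroupOf J := CfsgLib.Frobenius.mem_conj_smul.1 hd'
    rw [Subgroup.mem_bot]
    by_contra h1
    have h1' : (d : GL (T → Fin k) F) ≠ 1 := fun e => h1 (Subtype.ext e)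
    have h2 := hmov _ (Subgroup.mem_subgroupOf.1 hd') (fun e => h1' (by
      have := congrArg (fun y => (x : GL (T → Fin k) F) * y * (x : GL (T → Fin k) F)⁻¹) e
      simpa [mul_assoc] using this))
    have h3 : mov ((x⁻¹ * d * x : J) : GL (T → Fin k) F) =
        (slice i w).map (apEquiv ((x : GL (T → Fin k) F))⁻¹).toLinearMap := by
      rw [← hmov d (Subgroup.mem_subgroupOf.1 hd) h1', ← mov_conj]
      simp
    refine hx (Subgroup.mem_subgroupOf.2 (hJW _ x.2 ?_))
    have h4 := hA _ (M.inv_mem (hJM x.2)) i i w w hL.ne hL.ne hL.iso hL.iso (h3.symm.trans h2)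
    simpa using (wreath T k F).inv_mem h4

omit hM in
/-- An overgroup holds the special unitary group or is factorwise. -/
theorem dichotomy (hk : 3 ≤ k) (hq : 4 ≤ k ∨ ∃ c : F, σ c = c ∧ c ≠ 0 ∧ c ≠ 1) (T : Type)
    [Fintype T] [DecidableEq T] (hT : 2 ≤ Fintype.card T) : Dichotomy σ h T := by
  suffices key : ∀ n, ∀ (T : Type) [Fintype T] [DecidableEq T], Fintype.card T = n → 2 ≤ n →
      Dichotomy σ h T from key _ T rfl hT
  intro n
  induction n using Nat.strong_induction_on with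
  | _ n ih =>
    intro T _ _ hn h2 M hM
    refine or_iff_not_imp_left.2 fun hX => ?_
    have : Nonempty T := Fintype.card_pos_iff.1 (by omega)
    have hA : SliceClosed h M := fun g hg i j w w' hw hw' hww hww' he =>
      mem_wreath_of_map_slice hS hM hk (by omega) hq hX (fun j hc => by
        have hcard : Fintype.card {l : T // l ≠ j} = n - 1 := by
          rw [Fintype.card_subtype_compl, Fintype.card_subtype_eq, hn]
        exact ih (n - 1) (by omega) _ hcard (by omega)) hg hw hw' hww hww' he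
    by_cases hq3 : ∃ c : F, σ c = c ∧ c ≠ 0 ∧ c ≠ 1
    · exact le_wreath_of_three hS hM hk hq3 hA
    · refine le_wreath_of_two hS (fun c hc => ?_) (hq.resolve_right hq3) (by omega) hM hA
        (upScalar_of_not_full hS hM hk (by omega) hq hX)
      by_contra hne
      push Not at hne
      exact hq3 ⟨c, hc, hne.1, hne.2⟩

end CfsgLib.Geometric.TPowU
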