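import Cfsg.Agent.Lib.Geometric.TensorUnitary.Main
import Cfsg.Agent.Lib.Geometric.TensorPower.Maximal
import Cfsg.Agent.Lib.Geometric.UnitaryTensor

/-!
The stabiliser of a decomposition of a unitary space as a tensor power of a unitary space of
dimension at least three is maximal in the special unitary group.
-/

set_option autoImplicit false
set_option linter.unusedSectionVars false

namespace CfsgLib.Geometric.TPowU

open Matrix TPow

variable {k t : ℕ} {F : Type*} [Field F] [Finite F]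
variable {σ : F ≃+* F} {h : (Fin k → F) → (Fin k → F) → F} {ζ : F}

/-- The special unitary group of a tensor power does not act factorwise. -/
lemma exists_notMem_wreath (hS : Space σ h ζ) (hk : 3 ≤ k) {T : Type} [Fintype T] [DecidableEq T]
    (hT : 2 ≤ Fintype.card T) :
    ∃ g ∈ isom (tform σ h T), g ∈ Cfsg.Geo.specialLinear (T → Fin k) F ∧ g ∉ wreath T k F := by
  classical
  have hf₁ := hS.skew₁
  have : Nonempty T := Fintype.card_pos_iff.1 (by omega)
  obtain ⟨z, -, hz0, hzz⟩ := Unitary.exists_isotropic hf₁ (Unitary.nondeg_perp_bot hf₁)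
    (by rw [Unitary.finrank_perp_bot hf₁, Fintype.card_fin]; omega)
  rw [hS.sf_eq_zero] at hzz
  obtain ⟨v, hv, hvz⟩ := hS.exists_partner hzz hz0
  set l := Classical.arbitrary T
  obtain ⟨l', hl'⟩ := Fintype.exists_ne_of_one_lt_card (show 1 < Fintype.card T by omega) l
  have hR := hS.skewT T
  set p : (T → Fin k) → F := pv fun _ : T => z
  have hp : sf ζ (tform σ h T) p p = 0 := hS.sf_eq_zero.2 (tform_pv_eq_zero hS l hzz)
  refine ⟨Unitary.T hR p 1 hp, (isom_mul_const hS.ne _).le (Unitary.T_mem_isom hR hp (map_one σ)),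
    Unitary.T_mem_specialLinear hR hp, ?_⟩
  rintro ⟨π, a, hga⟩
  have hvp : tform σ h T (pv fun _ : T => v) p = 1 := by simp [p, hS.tform_pv, hvz]
  have he := hga fun _ => v
  rw [Unitary.ap_T hR, sf, hvp, one_mul, mul_one] at he
  set r : T → Fin k → F := fun j => ap (a j) v
  set v' : Rest l k → F := pv fun _ : {j : T // j ≠ l} => v
  set z' : Rest l k → F := pv fun _ : {j : T // j ≠ l} => z
  have he' : ∀ φ : Fin k → F, φ ⬝ᵥ r l = 0 → (φ ⬝ᵥ v) • v' + (ζ * (φ ⬝ᵥ z)) • z' = 0 := by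
    intro φ hφ
    have h1 := congrArg (con l φ) he
    have h2 : con l φ (pv r) = 0 := by rw [pv_eq_ten l, con_ten, hφ, zero_smul]
    rw [map_add, map_smul, pv_eq_ten l, con_ten, show p = pv (fun _ : T => z) from rfl,
      pv_eq_ten l, con_ten, smul_smul] at h1
    exact h1.trans h2
  have hz'z' : tform σ h {j : T // j ≠ l} z' z' = 0 := tform_pv_eq_zero hS ⟨l', hl'⟩ hzz
  have hv'z' : tform σ h {j : T // j ≠ l} v' z' = 1 := by simp [v', z', hS.tform_pv, hvz]
  have hzr : z ∈ Submodule.span F {r l} := by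
    by_contra hc
    obtain ⟨φ, hφ, hφz⟩ := exists_dot_of_notMem hc
    have h1 := he' φ (hφ _ (Submodule.mem_span_singleton_self _))
    rw [hφz, mul_one] at h1
    have h2 := congrArg (fun x => tform σ h {j : T // j ≠ l} x z') h1
    simp only [Space.tform_add_left, Space.tform_smul_left, hz'z', hv'z', mul_one, mul_zero,
      add_zero, tform_zero_left hS] at h2
    rw [h2, zero_smul, zero_add, smul_eq_zero] at h1
    exact h1.elim hS.ne (pv_ne_zero fun _ => hz0)
  have hv0 : v ≠ 0 := fun h0 => one_ne_zero (α := F) (by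
    rw [← hvz, h0, ← hS.sf_eq_zero, Unitary.zero_left hf₁])
  have hvr : v ∈ Submodule.span F {r l} := by
    by_contra hc
    obtain ⟨φ, hφ, hφv⟩ := exists_dot_of_notMem hc
    have h1 := he' φ (hφ _ (Submodule.mem_span_singleton_self _))
    rw [hφv, hφ _ hzr, mul_zero, zero_smul, add_zero, one_smul] at h1
    exact pv_ne_zero (fun _ : {j : T // j ≠ l} => hv0) h1
  obtain ⟨c, hc⟩ := Submodule.mem_span_singleton.1 hzr
  obtain ⟨d, hd⟩ := Submodule.mem_span_singleton.1 hvr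
  refine one_ne_zero (α := F) ?_
  have hc0 : c ≠ 0 := fun h0 => hz0 (by rw [← hc, h0, zero_smul])
  rw [← hvz, show v = (d * c⁻¹) • z by rw [← hd, ← hc, smul_smul, mul_assoc, inv_mul_cancel₀ hc0,
    mul_one], hS.herm.smul_left, hzz, mul_zero]

/-- Maximality for any form similar to the tensor power. -/
theorem isMaximalIn {ι : Type} [Fintype ι] [DecidableEq ι] (hk : 3 ≤ k) (ht : 2 ≤ t)
    (hq : 4 ≤ k ∨ ∃ c : F, σ c = c ∧ c ≠ 0 ∧ c ≠ 1) {f : (ι → F) → (ι → F) → F}
    (hh : Cfsg.Geo.IsUnitaryForm σ h) (e : ι ≃ (Fin t → Fin k)) (P : GL ι F)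
    (hT : Cfsg.Geo.IsTensorPowerFormStructure σ f h e P) :
    Cfsg.Geo.IsMaximalIn (isom f ⊓ Cfsg.Geo.specialLinear ι F)
      (Cfsg.Geo.tensorWreathSubgroup k t e P ⊓ (isom f ⊓ Cfsg.Geo.specialLinear ι F)) := by
  classical
  obtain ⟨ζ, hS⟩ := exists_space hh
  obtain ⟨c, hc, hform⟩ := hT
  let φ : GL (Fin t → Fin k) F ≃* GL ι F := transport e P
  let K := fun x : (Fin t → Fin k) → F => (P : Matrix ι ι F) *ᵥ (x ∘ e)
  have hK : ∀ z x, ap (φ z) (K x) = K (ap z x) := by
    intro z x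
    show ((P * Cfsg.Geo.glReindex e.symm z * P⁻¹ : GL ι F) : Matrix ι ι F) *ᵥ _ = _
    rw [Matrix.GeneralLinearGroup.coe_mul, Matrix.GeneralLinearGroup.coe_mul, Matrix.mulVec_mulVec,
      mul_assoc, Units.inv_mul, mul_one, ← Matrix.mulVec_mulVec]
    congr 1
    funext a
    simp only [Cfsg.Geo.glReindex, Matrix.mulVec, dotProduct, Function.comp_apply, ap_def]
    exact Fintype.sum_equiv e _ _ fun b => by simp
  have hKsurj : ∀ u, ∃ x, K x = u := fun u =>
    ⟨(((P⁻¹ : GL ι F) : Matrix ι ι F) *ᵥ u) ∘ e.symm, by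
      show (P : Matrix ι ι F) *ᵥ _ = u
      rw [Function.comp_assoc, Equiv.symm_comp_self, Function.comp_id, Matrix.mulVec_mulVec,
        Units.mul_inv, Matrix.one_mulVec]⟩
  have hφi : ∀ z, φ z ∈ isom f ↔ z ∈ isom (tform σ h (Fin t)) := by
    intro z
    rw [mem_isom_iff, mem_isom_iff]
    constructor
    · intro hz x y
      have h1 := hz (K x) (K y)
      rw [hK, hK, hform, hform] at h1
      exact mul_left_cancel₀ hc h1
    · intro hz u u'
      obtain ⟨x, rfl⟩ := hKsurj u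
      obtain ⟨y, rfl⟩ := hKsurj u'
      rw [hK, hK, hform, hform]
      exact congrArg (c * ·) (hz x y)
  have hwr : ∀ z, φ z ∈ Cfsg.Geo.tensorWreathSubgroup k t e P ↔ z ∈ wreath (Fin t) k F := by
    intro z
    constructor
    · rintro ⟨_, ⟨y, hy, rfl⟩, hyz⟩
      rw [SetLike.mem_coe, standard_eq_wreath] at hy
      exact φ.injective (hyz : φ y = φ z) ▸ hy
    · exact fun hz => ⟨_, ⟨z, by rw [SetLike.mem_coe, standard_eq_wreath]; exact hz, rfl⟩, rfl⟩
  have hsl := transport_mem_specialLinear (F := F) e P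
  refine ⟨lt_of_le_of_ne inf_le_right fun he => ?_, fun M hHM hMS => ?_⟩
  · obtain ⟨g, hgI, hgS, hgW⟩ := exists_notMem_wreath hS hk (T := Fin t) (by simpa using ht)
    have hmem : φ g ∈ isom f ⊓ Cfsg.Geo.specialLinear ι F := ⟨(hφi g).2 hgI, (hsl g).2 hgS⟩
    rw [← he] at hmem
    exact hgW ((hwr g).1 hmem.1)
  set M' := M.comap φ.toMonoidHom with hM'
  have hin : ∀ z ∈ wreath (Fin t) k F, z ∈ isom (tform σ h (Fin t)) →
      z ∈ Cfsg.Geo.specialLinear (Fin t → Fin k) F → z ∈ M' :=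
    fun z hz hzI hzS => hHM ⟨(hwr z).2 hz, (hφi z).2 hzI, (hsl z).2 hzS⟩
  have hO : Over σ h M' :=
    ⟨fun z hz => (hφi z).1 (hMS hz).1,
      fun i a ha => hin _ (slot_mem_wreath i a) (hS.slot_isom i ha.1) (det_slot i ha.2),
      fun a b c hab _ hac => hin _ (perm_mem_wreath _) (Space.perm_isom _) (det_cyc hab hac)⟩
  rcases dichotomy hS hk hq (Fin t) (by simpa using ht) M' hO with hX | hW
  · refine Or.inr (le_antisymm hMS fun g hg => ?_)
    obtain ⟨z, rfl⟩ := φ.surjective g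
    exact hX ⟨(hφi z).1 hg.1, (hsl z).1 hg.2⟩
  · refine Or.inl (le_antisymm (fun g hg => ⟨?_, hMS hg⟩) hHM)
    obtain ⟨z, rfl⟩ := φ.surjective g
    exact (hwr z).2 (hW hg)

/-- Maximality in `SU_n(q)`. -/
theorem isMaximalIn_GU [Fintype F] {n q : ℕ} (hF : Fintype.card F = q ^ 2) (hk : 3 ≤ k)
    (ht : 2 ≤ t) (hex : ¬ (q = 2 ∧ k = 3)) (e : Fin n ≃ (Fin t → Fin k)) (P : GL (Fin n) F)
    {f₁ : (Fin k → F) → (Fin k → F) → F} (hf₁ : Cfsg.Geo.IsUnitaryFormPow q f₁)
    (hT : Cfsg.Geo.IsTensorPowerFormStructure (fun x : F => x ^ q) (Cfsg.hermForm n F q) f₁ e P) :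
    Cfsg.Geo.IsMaximalIn (Cfsg.GU n F q ⊓ Cfsg.Geo.specialLinear (Fin n) F)
      (Cfsg.Geo.tensorWreathSubgroup k t e P ⊓
        (Cfsg.GU n F q ⊓ Cfsg.Geo.specialLinear (Fin n) F)) := by
  obtain ⟨σ, hσ, hh⟩ := isUnitaryForm_hermForm (F := F) n q hF
  have hu : Cfsg.Geo.IsUnitaryForm σ f₁ := ⟨hh.ne_refl, hh.involutive, hf₁.add_left,
    hf₁.smul_left, fun v w => by rw [hσ]; exact hf₁.herm v w, hf₁.nondegenerate⟩
  rw [show (fun x : F => x ^ q) = ⇑σ from funext fun x => (hσ x).symm] at hT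
  refine isMaximalIn hk ht ?_ hu e P hT
  refine or_iff_not_imp_left.mpr fun h4 => ?_
  by_contra hc
  push Not at hc
  have hall : ∀ x : Fˣ, x ^ (q + 1) = 1 := fun x => Units.ext (by
    have h0 : (x : F) * σ x ≠ 0 := mul_ne_zero x.ne_zero (by simp)
    have := hc ((x : F) * σ x) (by rw [map_mul, hh.involutive, mul_comm]) h0
    rw [hσ] at this
    rw [Units.val_pow_eq_pow_val, Units.val_one, pow_succ']
    exact this)
  have hdvd := (FiniteField.forall_pow_eq_one_iff F (q + 1)).mp hall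
  rw [hF] at hdvd
  have hle := Nat.le_of_dvd (Nat.succ_pos q) hdvd
  have hq2 : 2 ≤ q := by
    have := Fintype.one_lt_card (α := F)
    rw [hF] at this
    by_contra hlt
    interval_cases q <;> simp at this
  have hq2' : q ≠ 2 := fun h => hex ⟨h, by omega⟩
  have : 3 * q ≤ q ^ 2 := by rw [sq]; exact Nat.mul_le_mul_right q (by omega)
  omega

end CfsgLib.Geometric.TPowU
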