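import Cfsg.Agent.Lib.Geometric.TensorUnitary.Basic

/-!
Without non-scalar radical elements at isotropic slices an element of an overgroup moving into the
slices of a totally isotropic plane of one factor acts on that factor alone.
-/

set_option autoImplicit false
set_option linter.unusedSectionVars false

namespace CfsgLib.Geometric.TPowU

open Matrix TPow

variable {T : Type} [Fintype T] [DecidableEq T] {k : ℕ} {F : Type*} [Field F] {σ : F ≃+* F}
  {h : (Fin k → F) → (Fin k → F) → F} {ζ : F}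

/-- Two vectors spanning a totally isotropic plane. -/
structure IsPlane (h : (Fin k → F) → (Fin k → F) → F) (w v : Fin k → F) : Prop where
  ne : w ≠ 0
  notMem : v ∉ Submodule.span F {w}
  ww : h w w = 0
  vv : h v v = 0
  wv : h w v = 0
  vw : h v w = 0

/-- The slices of a plane. -/
abbrev planeS (i : T) (w v : Fin k → F) : Submodule F ((T → Fin k) → F) := slice i w ⊔ slice i v

lemma IsPlane.ne_snd {w v : Fin k → F} (hp : IsPlane h w v) : v ≠ 0 :=
  fun h0 => hp.notMem (h0 ▸ zero_mem _)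

lemma IsPlane.symm {w v : Fin k → F} (hp : IsPlane h w v) : IsPlane h v w where
  ne := hp.ne_snd
  notMem h0 := by
    obtain ⟨c, hc⟩ := Submodule.mem_span_singleton.1 h0
    refine hp.notMem (Submodule.mem_span_singleton.2 ⟨c⁻¹, ?_⟩)
    have hc0 : c ≠ 0 := fun h1 => hp.ne (by rw [← hc, h1, zero_smul])
    rw [← hc, smul_smul, inv_mul_cancel₀ hc0, one_smul]
  ww := hp.vv
  vv := hp.ww
  wv := hp.vw
  vw := hp.wv

/-- The contractions against the plane see the plane's complement only. -/
lemma exists_dual [Finite F] (hS : Space σ h ζ) {w v : Fin k → F}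
    (hv : w ∉ Submodule.span F {v}) : ∃ u, h u w = 1 ∧ h u v = 0 := by
  have hf : fu h w ∉ Submodule.span F {fu h v} := by
    intro h0
    obtain ⟨c, hc⟩ := Submodule.mem_span_singleton.1 h0
    refine hv (Submodule.mem_span_singleton.2 ⟨σ c, ?_⟩)
    by_contra hne
    obtain ⟨⟨x, hx⟩, -⟩ := hS.herm.nondegenerate _ (sub_ne_zero.2 hne)
    refine hx ?_
    rw [← hS.fu_dot, show σ c • v - w = σ c • v + (-1 : F) • w by module, hS.fu_add, hS.fu_smul,
      hS.fu_smul, hS.herm.involutive, hc, map_neg, map_one]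
    simp
  obtain ⟨u, hu0, hu1⟩ := exists_dot_of_notMem hf
  refine ⟨u, ?_, ?_⟩
  · rw [← hS.fu_dot, dotProduct_comm]; exact hu1
  · rw [← hS.fu_dot, dotProduct_comm]; exact hu0 _ (Submodule.mem_span_singleton_self _)

/-- `y` is the identity plus four blocks between the slices of a plane. -/
def Up2 (h : (Fin k → F) → (Fin k → F) → F) (i : T) (w v : Fin k → F)
    (A B C D : (Rest i k → F) →ₗ[F] (Rest i k → F)) (y : GL (T → Fin k) F) : Prop :=
  ∀ z, ap y z = z + ten i w (A (cv h i w z) + B (cv h i v z)) +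
    ten i v (C (cv h i w z) + D (cv h i v z))

variable {i : T} {w v : Fin k → F} {A B C D A' B' C' D' : (Rest i k → F) →ₗ[F] (Rest i k → F)}
  {y y' : GL (T → Fin k) F}

lemma Up2.mul (hS : Space σ h ζ) (hp : IsPlane h w v) (hy : Up2 h i w v A B C D y)
    (hy' : Up2 h i w v A' B' C' D' y') :
    Up2 h i w v (A + A') (B + B') (C + C') (D + D') (y * y') := by
  intro z
  rw [ap_mul, hy', hy]
  simp only [map_add, hS.cv_ten, hp.ww, hp.wv, hp.vw, hp.vv, zero_smul, add_zero,
    LinearMap.add_apply]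
  abel

lemma Up2.inv (hS : Space σ h ζ) (hp : IsPlane h w v) (hy : Up2 h i w v A B C D y) :
    Up2 h i w v (-A) (-B) (-C) (-D) y⁻¹ := by
  intro z
  refine ap_injective y ?_
  rw [ap_ap_inv, hy]
  simp only [map_add, hS.cv_ten, hp.ww, hp.wv, hp.vw, hp.vv, zero_smul, map_zero, add_zero,
    LinearMap.neg_apply, map_neg]
  abel

lemma Up2.swap (hy : Up2 h i w v A B C D y) : Up2 h i v w D C B A y := by
  intro z
  rw [hy]
  simp only [map_add]
  abel

lemma cv_slot_ap [Finite F] (hS : Space σ h ζ) (i : T) {a : GL (Fin k) F} (ha : a ∈ isom h)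
    (t : Fin k → F) (z : (T → Fin k) → F) :
    cv h i (ap a t) (ap (slot i a) z) = cv h i t z :=
  LinearMap.congr_fun (ext_ten i (f := (cv h i (ap a t)).comp (apEquiv (slot i a)).toLinearMap)
    (f' := cv h i t) fun u r => by
      simp [slot_ten, hS.cv_ten, mem_isom_iff.1 ha]) z

/-- Conjugation by an element fixing `w` and moving `v` along it. -/
lemma Up2.conj [Finite F] (hS : Space σ h ζ) {s : GL (Fin k) F} (hs : s ∈ isom h) {l : F}
    (hsw : ap s w = w) (hsv : ap s v = v + l • w) (hy : Up2 h i w v A B C D y) :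
    Up2 h i w v (A + σ l • B + l • C + (l * σ l) • D) (B + l • D) (C + σ l • D) D
      (slot i s * y * (slot i s)⁻¹) := by
  intro z
  have h1 : ∀ t, cv h i t (ap (slot i s)⁻¹ z) = cv h i (ap s t) z := fun t => by
    conv_rhs => rw [← ap_ap_inv (slot i s) z, cv_slot_ap hS i hs]
  rw [ap_mul, ap_mul, hy, ap_add, ap_add, ap_ap_inv, slot_ten, slot_ten, h1, h1, hsw, hsv,
    hS.cv_add, hS.cv_smul, ten_add_left, ten_smul_left]
  simp only [map_add, map_smul, LinearMap.add_apply, LinearMap.smul_apply, smul_add, smul_smul]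
  abel

/-- Shears of a plane are special isometries. -/
lemma exists_shear [Finite F] (hS : Space σ h ζ) (hp : IsPlane h w v) (l : F) :
    ∃ s ∈ su h, ap s w = w ∧ ap s v = v + l • w := by
  obtain ⟨vs, hvs, hvsw⟩ := exists_dual hS hp.notMem
  have hf := hS.skew₁
  set c := σ (l / ζ)
  have hw0 : sf ζ h w w = 0 := by rw [sf, hp.ww, mul_zero]
  have hxw : sf ζ h (c • vs) w = 0 := by rw [sf, hS.herm.smul_left, hvsw, mul_zero, mul_zero]
  obtain ⟨t, ht⟩ := Unitary.exists_sub_eq hf (Unitary.skew_self hf (c • vs))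
  have hmem := Unitary.E_mem hf (u := w) (v := c • vs) (hu := hw0) (hvu := hxw) ht
  refine ⟨_, ⟨(isom_mul_const hS.ne h).le hmem.1, hmem.2⟩, ?_, ?_⟩
  · rw [Unitary.ap_E hf, hw0, (Unitary.eq_zero_comm hf).1 hxw]
    simp
  · have e1 : sf ζ h v w = 0 := by rw [sf, hp.vw, mul_zero]
    have e2 : sf ζ h v (c • vs) = l := by
      rw [sf, hS.smul_right, hS.herm.involutive, hS.herm.herm v vs, hvs, map_one, mul_one]
      field_simp [hS.ne]
    rw [Unitary.ap_E hf, e1, e2]
    simp

/-- The diagonal block is skew. -/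
lemma Up2.skew_diag [Finite F] (hS : Space σ h ζ) (hp : IsPlane h w v)
    (hiso : y ∈ isom (tform σ h T)) (hy : Up2 h i w v A B C D y) {d : F}
    (hd : ∀ r, D r = d • r) : σ d = -d := by
  obtain ⟨vs, hvs, hvsw⟩ := exists_dual hS hp.notMem
  have h1 : h v vs = 1 := by rw [hS.herm.herm v vs, hvs, map_one]
  have h2 : h w vs = 0 := by rw [hS.herm.herm w vs, hvsw, map_zero]
  have hne : ((fun _ => 1 : Rest i k → F)) ≠ 0 := fun h0 => by
    have hk : Nonempty (Fin k) := by
      obtain ⟨c, -⟩ := Function.ne_iff.1 hp.ne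
      exact ⟨c⟩
    exact one_ne_zero (congrFun h0 fun _ => Classical.arbitrary _)
  obtain ⟨-, r', hr⟩ := (hS.herm_tform {l : T // l ≠ i}).nondegenerate _ hne
  set r : Rest i k → F := fun _ => 1
  have hz : ∀ r, ap y (ten i vs r) = ten i vs r + ten i w (B r) + ten i v (d • r) := fun r => by
    rw [hy]
    simp [hS.cv_ten, hvs, hvsw, hd]
  have e := mem_isom_iff.1 hiso (ten i vs r) (ten i vs r')
  rw [hz, hz] at e
  have hsr : ∀ (c : F) (x y : (T → Fin k) → F),
      tform σ h T x (c • y) = σ c * tform σ h T x y := fun c x y => by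
    rw [(hS.herm_tform T).herm, Space.tform_smul_left, map_mul, ← (hS.herm_tform T).herm]
  simp only [Space.tform_add_left, Space.tform_add_right, hS.tform_ten, hp.ww, hp.wv, hp.vw,
    hp.vv, h1, h2, hvs, hvsw, zero_mul, one_mul, add_zero, map_smul, Space.tform_smul_left, hsr,
    mul_zero, zero_add] at e
  have : (d + σ d) * tform σ h {l : T // l ≠ i} r r' = 0 := by linear_combination e
  exact eq_neg_of_add_eq_zero_right ((mul_eq_zero.1 this).resolve_right hr)

variable {M : Subgroup (GL (T → Fin k) F)}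

/-- The blocks away from the first vector are scalar. -/
lemma Up2.scalar [Finite F] (hS : Space σ h ζ) (hp : IsPlane h w v) (hM : Over σ h M)
    (hU : UpScalar h M) (hy : y ∈ M) (hu : Up2 h i w v A B C D y) :
    (∃ b : F, ∀ r, B r = b • r) ∧ (∃ c : F, ∀ r, C r = c • r) ∧ ∃ d : F, ∀ r, D r = d • r := by
  have step : ∀ (l : F) {A B C D : (Rest i k → F) →ₗ[F] (Rest i k → F)} {y : GL (T → Fin k) F},
      y ∈ M → Up2 h i w v A B C D y → ∃ y' ∈ M,
        Up2 h i w v (σ l • B + l • C + (l * σ l) • D) (l • D) (σ l • D) 0 y' := by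
    intro l A B C D y hy hu
    obtain ⟨s, hs, hsw, hsv⟩ := exists_shear hS hp l
    have hsM := hM.slot_mem i s hs
    refine ⟨_, M.mul_mem (M.mul_mem (M.mul_mem hsM hy) (M.inv_mem hsM)) (M.inv_mem hy), ?_⟩
    have := (hu.conj hS hs.1 hsw hsv).mul hS hp (hu.inv hS hp)
    convert this using 1 <;> abel
  have up : ∀ {X : (Rest i k → F) →ₗ[F] (Rest i k → F)} {u : GL (T → Fin k) F}, u ∈ M →
      Up2 h i w v X 0 0 0 u → ∃ c : F, ∀ r, X r = c • r := fun {X u} hu hX =>
    hU i w hp.ne hp.ww u hu X fun z => by simp [hX z]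
  obtain ⟨d, hd⟩ : ∃ d : F, ∀ r, D r = d • r := by
    obtain ⟨θ, hθ⟩ := Unitary.exists_trace hS.skew₁
    obtain ⟨y₁, hy₁, hu₁⟩ := step θ hy hu
    obtain ⟨y₂, hy₂, hu₂⟩ := step 1 hy₁ hu₁
    simp only [map_one, one_smul, smul_zero, add_zero, mul_one] at hu₂
    obtain ⟨d, hd⟩ := up hy₂ hu₂
    refine ⟨d, fun r => ?_⟩
    rw [← hd r]
    simp only [LinearMap.add_apply, LinearMap.smul_apply]
    rw [← add_smul, hθ, one_smul]
  have hdskew := hu.skew_diag hS hp (hM.le hy) hd
  have hA : ∀ l, ∃ x : F, ∀ r, σ l • B r + l • C r = x • r := by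
    intro l
    obtain ⟨y₁, hy₁, hu₁⟩ := step l hy hu
    set c := σ (l * d / ζ)
    have hf := hS.skew₁
    have hw0 : sf ζ h w w = 0 := by rw [sf, hp.ww, mul_zero]
    have hxw : sf ζ h (c • v) w = 0 := by rw [sf, hS.herm.smul_left, hp.vw, mul_zero, mul_zero]
    have hmem := Unitary.E_mem hf (u := w) (v := c • v) (c := (0 : F)) (hu := hw0) (hvu := hxw)
      (by rw [map_zero, sub_zero, sf, hS.herm.smul_left, hS.smul_right, hp.vv]; ring)
    have hsu : Unitary.E hf w (c • v) 0 hw0 hxw ∈ su h :=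
      ⟨(isom_mul_const hS.ne h).le hmem.1, hmem.2⟩
    have hz : Up2 h i w v 0 ((l * d) • LinearMap.id) ((σ l * d) • LinearMap.id) 0
        (slot i (Unitary.E hf w (c • v) 0 hw0 hxw)) := by
      intro z
      refine LinearMap.congr_fun (ext_ten i
        (f := (apEquiv (slot i (Unitary.E hf w (c • v) 0 hw0 hxw))).toLinearMap)
        (f' := LinearMap.id + (ten i w).comp ((l * d) • cv h i v) +
          (ten i v).comp ((σ l * d) • cv h i w)) fun p r => ?_) z |>.trans ?_
      · simp only [LinearEquiv.coe_coe, apEquiv_apply, slot_ten, Unitary.ap_E hf,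
          LinearMap.add_apply, LinearMap.id_apply, LinearMap.comp_apply, LinearMap.smul_apply,
          hS.cv_ten, map_smul, ten_add_left, ten_smul_left, smul_smul, zero_mul, zero_smul,
          add_zero, sf, hS.smul_right]
        have e1 : ζ * (σ c * h p v) = l * d * h p v := by
          simp only [c, hS.herm.involutive]; field_simp [hS.ne]
        have e2 : ζ * h p w * c = σ l * d * h p w := by
          simp only [c, map_div₀, map_mul, hdskew, hS.skew]; field_simp [hS.ne]
        rw [e1, e2]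
        abel
      · simp
    have hy₂ := M.mul_mem hy₁ (M.inv_mem (hM.slot_mem i _ hsu))
    have hu₂ := hu₁.mul hS hp (hz.inv hS hp)
    have e0 : ∀ a : F, a • D + -((a * d) • LinearMap.id) = 0 := fun a => LinearMap.ext fun r => by
      simp [hd, smul_smul]
    rw [neg_zero, add_zero, add_zero, e0, e0] at hu₂
    obtain ⟨x, hx⟩ := up hy₂ hu₂
    refine ⟨x - l * σ l * d, fun r => ?_⟩
    have := hx r
    simp only [LinearMap.add_apply, LinearMap.smul_apply, hd, smul_smul] at this
    rw [sub_smul, ← this, add_sub_cancel_right]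
  obtain ⟨x, hx⟩ := hA 1
  simp only [map_one, one_smul] at hx
  obtain ⟨a, ha⟩ : ∃ a, σ a ≠ a := by
    by_contra hc
    push Not at hc
    exact hS.herm.ne_refl (RingEquiv.ext hc)
  obtain ⟨x', hx'⟩ := hA a
  have hB : ∀ r, B r = ((σ a - a)⁻¹ * (x' - a * x)) • r := fun r => by
    rw [mul_smul, sub_smul, ← hx' r, mul_smul, ← hx r,
      show σ a • B r + a • C r - a • (B r + C r) = (σ a - a) • B r by module,
      inv_smul_smul₀ (sub_ne_zero.2 ha)]
  refine ⟨⟨_, hB⟩, ⟨x - (σ a - a)⁻¹ * (x' - a * x), fun r => ?_⟩, d, hd⟩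
  rw [sub_smul, ← hB r, ← hx r, add_sub_cancel_left]

/-- An element moving into the slices of a plane acts on that factor alone. -/
theorem mem_wreath_of_mov_le_plane [Finite F] (hS : Space σ h ζ) (hp : IsPlane h w v)
    (hM : Over σ h M) (hU : UpScalar h M) (hy : y ∈ M) (hR : mov y ≤ planeS i w v) :
    y ∈ wreath T k F := by
  obtain ⟨ws, hws, hwsv⟩ := exists_dual hS hp.symm.notMem
  obtain ⟨vs, hvs, hvsw⟩ := exists_dual hS hp.notMem
  have hwsv' : h v ws = 0 := by rw [hS.herm.herm v ws, hwsv, map_zero]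
  have hww' : h w ws = 1 := by rw [hS.herm.herm w ws, hws, map_one]
  have hvsw' : h w vs = 0 := by rw [hS.herm.herm w vs, hvsw, map_zero]
  have hvv' : h v vs = 1 := by rw [hS.herm.herm v vs, hvs, map_one]
  -- it fixes the vectors orthogonal to the plane
  have hzero : ∀ z, cv h i w z = 0 → cv h i v z = 0 → ∀ x ∈ planeS i w v,
      tform σ h T z x = 0 := by
    intro z h1 h2 x hx
    obtain ⟨_, ⟨p, rfl⟩, _, ⟨q, rfl⟩, rfl⟩ := Submodule.mem_sup.1 hx
    rw [Space.tform_add_right, hS.tform_ten_right, hS.tform_ten_right, h1, h2]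
    simp [tform]
  have hfix : ∀ z, cv h i w z = 0 → cv h i v z = 0 → ap y z = z := by
    intro z h1 h2
    obtain ⟨r, hr⟩ : ∃ r, r = ap y z - z := ⟨_, rfl⟩
    by_contra hne
    have hr0 : r ≠ 0 := hr ▸ sub_ne_zero.2 hne
    obtain ⟨-, x, hx⟩ := (hS.herm_tform T).nondegenerate r hr0
    refine hx ?_
    obtain ⟨x', rfl⟩ : ∃ x', ap y x' = x := ⟨_, ap_ap_inv y x⟩
    have e : ap y z = z + r := by rw [hr]; abel
    have h3 := mem_isom_iff.1 (hM.le hy) z x'
    have e' : ap y x' = x' + (ap y x' - x') := by abel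
    rw [e, Space.tform_add_left] at h3
    rw [show tform σ h T z (ap y x') = tform σ h T z x' by
      rw [e', Space.tform_add_right, hzero z h1 h2 _ (hR (sub_mem_mov y x')), add_zero]] at h3
    linear_combination h3
  -- the blocks
  set L : ((T → Fin k) → F) →ₗ[F] ((T → Fin k) → F) := (apEquiv y).toLinearMap - LinearMap.id
  have hrec : ∀ z, L z = L (ten i ws (cv h i w z)) + L (ten i vs (cv h i v z)) := by
    intro z
    have h0 := hfix (z - ten i ws (cv h i w z) - ten i vs (cv h i v z))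
      (by simp [hS.cv_ten, hws, hvsw]) (by simp [hS.cv_ten, hwsv, hvs])
    have : L (z - ten i ws (cv h i w z) - ten i vs (cv h i v z)) = 0 := sub_eq_zero.2 h0
    rw [map_sub, map_sub, sub_sub, sub_eq_zero] at this
    exact this
  have hdec : ∀ x ∈ planeS i w v, x = ten i w (cv h i ws x) + ten i v (cv h i vs x) := by
    intro x hx
    obtain ⟨_, ⟨p, rfl⟩, _, ⟨q, rfl⟩, rfl⟩ := Submodule.mem_sup.1 hx
    simp [hS.cv_ten, hww', hwsv', hvsw', hvv']
  set A := (cv h i ws).comp (L.comp (ten i ws)) with hA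
  set B := (cv h i ws).comp (L.comp (ten i vs)) with hB
  set C := (cv h i vs).comp (L.comp (ten i ws)) with hC
  set D := (cv h i vs).comp (L.comp (ten i vs)) with hD
  have hu : Up2 h i w v A B C D y := by
    intro z
    have e := hdec _ (hR (sub_mem_mov y z))
    rw [show ap y z - z = L z from rfl, hrec] at e
    simp only [map_add] at e
    simp only [hA, hB, hC, hD, LinearMap.comp_apply, map_add]
    calc ap y z = z + L z := by simp [L]
      _ = _ := by rw [hrec, e]; abel
  obtain ⟨⟨b, hb⟩, ⟨c, hc⟩, d, hd⟩ := hu.scalar hS hp hM hU hy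
  obtain ⟨-, -, a, ha⟩ := (hu.swap).scalar hS hp.symm hM hU hy
  -- the factor
  let g : (Fin k → F) →ₗ[F] (Fin k → F) :=
    { toFun := fun u => u + (a * h u w + b * h u v) • w + (c * h u w + d * h u v) • v
      map_add' := fun u u' => by simp only [hS.herm.add_left]; module
      map_smul' := fun s u => by simp only [hS.herm.smul_left, RingHom.id_apply]; module }
  have hten : ∀ u r, ap y (ten i u r) = ten i (g u) r := by
    intro u r
    rw [hu]
    simp only [hS.cv_ten, map_smul, hb, hc, hd, ha, g, LinearMap.coe_mk, AddHom.coe_mk,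
      ten_add_left, ten_smul_left, map_add, smul_smul, add_smul]
  have hne : ((fun _ => 1 : Rest i k → F)) ≠ 0 := fun h0 => by
    have hk : Nonempty (Fin k) := by
      obtain ⟨p, -⟩ := Function.ne_iff.1 hp.ne
      exact ⟨p⟩
    exact one_ne_zero (congrFun h0 fun _ => Classical.arbitrary _)
  have hginj : Function.Injective g := by
    refine (injective_iff_map_eq_zero g).2 fun u hu0 => ?_
    have h1 := hten u fun _ => 1
    rw [hu0, ten_zero_left, ← ap_zero y] at h1
    exact ten_inj_left i hne ((ap_injective y h1).trans (ten_zero_left i _).symm)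
  have : y = slot i (ofEquiv (LinearEquiv.ofInjectiveEndo g hginj)) := gl_ext fun z =>
    LinearMap.congr_fun (ext_ten i (f := (apEquiv y).toLinearMap)
      (f' := (apEquiv (slot i (ofEquiv (LinearEquiv.ofInjectiveEndo g hginj)))).toLinearMap)
      fun u r => by simp [hten, slot_ten]) z
  rw [this]
  exact slot_mem_wreath _ _

end CfsgLib.Geometric.TPowU
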