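import Cfsg.Agent.Lib.Geometric.TensorUnitary.Extract

/-!
An element of an overgroup with scalar radical elements which acts trivially on an isotropic slice
and on its orthogonal modulo the slice belongs to that factor alone.
-/

set_option autoImplicit false

namespace CfsgLib.Geometric.TPowU

open Matrix TPow

variable {T : Type} [Fintype T] [DecidableEq T] {k : ℕ} {F : Type*} [Field F] [Finite F]
variable {σ : F ≃+* F} {h : (Fin k → F) → (Fin k → F) → F} {ζ : F}
variable (hS : Space σ h ζ)
include hS

/-- The slice of `w` is where the contractions by the vectors orthogonal to `w` vanish. -/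
lemma mem_slice_of_cv (i : T) {w : Fin k → F} (hw0 : w ≠ 0) {z : (T → Fin k) → F}
    (hz : ∀ a, h a w = 0 → cv h i a z = 0) : z ∈ slice i w :=
  (mem_slice_iff i hw0).2 fun φ hφ => by
    obtain ⟨a, rfl⟩ := hS.fu_surjective φ
    rw [hS.fu_dot] at hφ
    exact hz a (hS.eq_zero_comm₁.1 hφ)

lemma tform_zero_left (y : (T → Fin k) → F) : tform σ h T 0 y = 0 :=
  hS.sf_eq_zero.1 (Unitary.zero_left (hS.skewT T) y)

lemma eq_zero_of_tform (z : (T → Fin k) → F) (hz : ∀ y, tform σ h T z y = 0) : z = 0 := by
  by_contra hne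
  obtain ⟨-, y, hy⟩ := (hS.herm_tform T).nondegenerate z hne
  exact hy (hz y)

/-- The orthogonal of a slice. -/
lemma cv_eq_zero_iff (i : T) (w : Fin k → F) (z : (T → Fin k) → F) :
    cv h i w z = 0 ↔ ∀ x ∈ slice i w, tform σ h T z x = 0 := by
  constructor
  · rintro h0 _ ⟨y, rfl⟩
    rw [hS.tform_ten_right, h0, tform_zero_left hS]
  · intro h0
    refine eq_zero_of_tform hS (cv h i w z) fun y => ?_
    rw [← hS.tform_ten_right]
    exact h0 _ (ten_mem_slice _ _ _)

/-- The decomposition along an isotropic vector and its partner. -/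
lemma cv_sub_partner (i : T) {w v : Fin k → F} (hvw : h v w = 1) (z : (T → Fin k) → F) :
    cv h i w (z - ten i v (cv h i w z)) = 0 := by
  rw [map_sub, hS.cv_ten, hvw, one_smul, sub_self]

/-- An element fixing a slice and its orthogonal modulo the slice comes from that factor. -/
theorem exists_slot_of_fix {M : Subgroup (GL (T → Fin k) F)} (hM : Over σ h M) (hU : UpScalar h M)
    {i : T} {w : Fin k → F} (hw0 : w ≠ 0) (hw : h w w = 0) {u : GL (T → Fin k) F} (hu : u ∈ M)
    (h1 : ∀ y, ap u (ten i w y) = ten i w y)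
    (h2 : ∀ z, cv h i w z = 0 → ap u z - z ∈ slice i w) :
    ∃ (a : GL (Fin k) F) (φ : Fin k → F), u = slot i a ∧
      ∀ z, cv h i w z = 0 → ap u z = z + ten i w (con i φ z) := by
  have hf₁ := hS.skew₁
  obtain ⟨v, -, hvw⟩ := hS.exists_partner hw hw0
  have hwv := hS.partner_symm hvw
  set L : ((T → Fin k) → F) →ₗ[F] ((T → Fin k) → F) := (apEquiv u).toLinearMap - LinearMap.id
    with hL
  have hLap : ∀ z, L z = ap u z - z := fun _ => rfl
  have hLu : ∀ z, ap u z = z + L z := fun z => by rw [hLap]; abel
  have hLw : ∀ y, L (ten i w y) = 0 := fun y => by rw [hLap, h1, sub_self]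
  have hLS : ∀ z, cv h i w z = 0 → L z = ten i w (cv h i v (L z)) := by
    intro z hz
    obtain ⟨y, hy⟩ := h2 z hz
    rw [hLap, ← hy, hS.cv_ten, hwv, one_smul]
  have hcvL : ∀ z, cv h i w (L z) = 0 := by
    intro z
    refine (cv_eq_zero_iff hS i w _).2 ?_
    rintro _ ⟨y, rfl⟩
    have e := mem_isom_iff.1 (hM.le hu) z (ten i w y)
    rw [h1, hLu, Space.tform_add_left] at e
    linear_combination e
  -- the elements of the factor
  have hin : ∀ (b : Fin k → F), h b w = 0 → ∃ e : GL (Fin k) F, e ∈ su h ∧
      ∃ c : F, ∀ x, ap e x = x + (ζ * h x w) • b + (ζ * h x b) • w + (c * (ζ * h x w)) • w := by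
    intro b hb
    have hbw : sf ζ h b w = 0 := by rw [sf, hb, mul_zero]
    have hww : sf ζ h w w = 0 := by rw [sf, hw, mul_zero]
    obtain ⟨c, hc⟩ := Unitary.exists_sub_eq hf₁ (Unitary.skew_self hf₁ b)
    have hE := Unitary.E_mem hf₁ (u := w) (v := b) (hu := hww) (hvu := hbw) hc
    exact ⟨_, ⟨(isom_mul_const hS.ne h).le hE.1, hE.2⟩, c, fun x => by rw [Unitary.ap_E hf₁]; rfl⟩
  set Lm : (Fin k → F) → ((Rest i k → F) →ₗ[F] (Rest i k → F)) :=
    fun a => (cv h i v).comp (L.comp (ten i a)) with hLm
  have hLm_smul : ∀ (s : F) a, Lm (s • a) = s • Lm a := fun s a => LinearMap.ext fun y => by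
    simp [hLm, ten_smul_left]
  have hCscal : ∀ b, h b w = 0 → ∀ l : F, ∃ d : F, ∀ y,
      l • Lm b y - σ l • cv h i b (L (ten i v y)) = d • y := by
    intro b hb l
    obtain ⟨e, he, c, hec⟩ := hin (l • b) (by rw [hS.herm.smul_left, hb, mul_zero])
    have heM := hM.slot_mem i e he
    set C : (Rest i k → F) →ₗ[F] (Rest i k → F) :=
      ζ • (Lm (l • b) - (cv h i (l • b)).comp (L.comp (ten i v))) with hC
    have hA : ∀ r, cv h i w r = 0 →
        ap (slot i e) r = r + ten i w (ζ • cv h i (l • b) r) := by
      intro r hr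
      have key : (apEquiv (slot i e)).toLinearMap = LinearMap.id + ζ • (ten i (l • b)).comp (cv h i w)
          + ζ • (ten i w).comp (cv h i (l • b)) + (c * ζ) • (ten i w).comp (cv h i w) :=
        ext_ten i fun x y => by
          simp only [LinearEquiv.coe_coe, apEquiv_apply, slot_ten, hec, LinearMap.add_apply,
            LinearMap.id_apply, LinearMap.smul_apply, LinearMap.comp_apply, hS.cv_ten, map_smul,
            ten_add_left, ten_smul_left, smul_smul, mul_assoc]
      have := LinearMap.congr_fun key r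
      simpa [hr] using this
    have hAv : ∀ y, ap (slot i e) (ten i v y) = ten i v y + ζ • ten i (l • b) y +
        ((ζ * h v (l • b)) + c * ζ) • ten i w y := by
      intro y
      rw [slot_ten, hec, hvw]
      simp only [mul_one, ten_add_left, ten_smul_left]
      module
    have hup : IsUp h i w C (u * slot i e * u⁻¹ * (slot i e)⁻¹) := by
      intro z
      obtain ⟨x, rfl⟩ : ∃ x, ap (slot i e) (ap u x) = z := ⟨ap u⁻¹ (ap (slot i e)⁻¹ z), by
        rw [ap_ap_inv, ap_ap_inv]⟩
      rw [ap_mul, ap_mul, ap_mul, ap_inv_ap, ap_inv_ap]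
      obtain ⟨y, r, hr, rfl⟩ : ∃ y r, cv h i w r = 0 ∧ x = ten i v y + r :=
        ⟨cv h i w x, x - ten i v (cv h i w x), cv_sub_partner hS i hvw x, by abel⟩
      have hLr := hLS r hr
      have hr1 : ap u (ap (slot i e) r) = ap (slot i e) (ap u r) := by
        rw [hA r hr, ap_add, h1, hLu r, ap_add, hA r hr, hA (L r) (hcvL r), hLr]
        simp only [hS.cv_ten, hS.smul_right, hS.eq_zero_comm₁.1 hb, mul_zero, zero_smul,
          smul_zero, map_zero]
        abel
      have hLv := hcvL (ten i v y)
      have hcw : cv h i w (ap (slot i e) (ap u (ten i v y + r))) = y := by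
        rw [hLu]
        have hux : cv h i w (ten i v y + r + L (ten i v y + r)) = y := by
          rw [map_add, map_add, hS.cv_ten, hvw, one_smul, hr, hcvL, add_zero, add_zero]
        have hcvA : ∀ q, cv h i w (ap (slot i e) q) = cv h i w q := by
          intro q
          have hfix : ap e w = w := by
            rw [hec, hw, hS.smul_right, hS.eq_zero_comm₁.1 hb]
            simp
          refine LinearMap.congr_fun (ext_ten i (f := (cv h i w).comp (apEquiv (slot i e)).toLinearMap)
            (f' := cv h i w) fun x' y' => ?_) q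
          simp only [LinearMap.comp_apply, LinearEquiv.coe_coe, apEquiv_apply, slot_ten, hS.cv_ten]
          congr 1
          conv_lhs => rw [← hfix]
          exact mem_isom_iff.1 he.1 x' w
        rw [hcvA, hux]
      have hLb : L (ten i (l • b) y) = ten i w (Lm (l • b) y) := by
        refine hLS _ ?_
        rw [hS.cv_ten, hS.herm.smul_left, hb, mul_zero, zero_smul]
      rw [hcw, ap_add (slot i e), ap_add u, hr1, ap_add u, ap_add (slot i e), hAv, hLu (ten i v y),
        ap_add (slot i e), hAv, hA _ hLv, ap_add u, ap_add u, ap_smul, ap_smul, h1, hLu (ten i v y),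
        hLu (ten i (l • b) y), hLb]
      simp only [hC, LinearMap.smul_apply, LinearMap.sub_apply, LinearMap.comp_apply, map_smul,
        map_sub]
      module
    obtain ⟨d, hd⟩ := hU i w hw0 hw _ (mul_mem (mul_mem (mul_mem hu heM) (inv_mem hu))
      (inv_mem heM)) C hup
    refine ⟨d / ζ, fun y => ?_⟩
    have := hd y
    simp only [hC, LinearMap.smul_apply, LinearMap.sub_apply, LinearMap.comp_apply, hLm_smul,
      hS.cv_smul] at this
    rw [div_eq_inv_mul, mul_smul, ← this, inv_smul_smul₀ hS.ne]
  have hscal : ∀ b, h b w = 0 → ∃ d : F, ∀ y, Lm b y = d • y := by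
    intro b hb
    obtain ⟨α, hα⟩ := Unitary.exists_not_fixed hf₁
    obtain ⟨d₁, hd₁⟩ := hCscal b hb 1
    obtain ⟨d₂, hd₂⟩ := hCscal b hb α
    refine ⟨(α - σ α)⁻¹ * (d₂ - σ α * d₁), fun y => ?_⟩
    rw [mul_smul, sub_smul, mul_smul, ← hd₁ y, ← hd₂ y, map_one, one_smul, one_smul,
      eq_inv_smul_iff₀ (sub_ne_zero.2 (Ne.symm hα))]
    module
  -- the functional
  set ep : Fin k → Fin k → F := fun p => Pi.single p 1 - h (Pi.single p 1) w • v
  have hep : ∀ p, h (ep p) w = 0 := fun p => by
    simp only [ep]
    rw [sub_eq_add_neg, ← neg_smul, hS.herm.add_left, hS.herm.smul_left, hvw]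
    ring
  choose φ hφ using fun p => hscal (ep p) (hep p)
  have hLφ : ∀ z, cv h i w z = 0 → L z = ten i w (con i φ z) := by
    intro z hz
    have hdec : z = ∑ p, ten i (ep p) (con i (Pi.single p 1) z) := by
      conv_lhs => rw [eq_sum_ten i z]
      have : ∑ p, ten i (h (Pi.single p 1) w • v) (con i (Pi.single p 1) z) = 0 := by
        simp only [ten_smul_left]
        simp_rw [← map_smul (ten i v)]
        rw [← map_sum]
        have e : ∑ p, h (Pi.single p 1) w • con i (Pi.single p 1) z = cv h i w z :=
          funext fun r => by simp [Finset.sum_apply, cv, con_apply, fu, ins_eta, Pi.single_apply]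
        rw [e, hz, map_zero]
      simp only [ep, ten_sub_left, Finset.sum_sub_distrib, this, sub_zero]
    conv_lhs => rw [hdec, map_sum]
    rw [Finset.sum_congr rfl fun p _ => show L (ten i (ep p) (con i (Pi.single p 1) z)) =
        ten i w (φ p • con i (Pi.single p 1) z) by
      rw [← hφ p]
      exact hLS _ (by rw [hS.cv_ten, hep, zero_smul]), ← map_sum]
    congr 1
    funext r
    simp [Finset.sum_apply, con_apply, Pi.single_apply]
  have hφw : φ ⬝ᵥ w = 0 := by
    have hne : (fun _ => 1 : Rest i k → F) ≠ 0 := by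
      obtain ⟨p, -⟩ := Function.ne_iff.1 hw0
      exact fun h0 => one_ne_zero (congrFun h0 fun _ => p)
    have e := hLφ (ten i w fun _ => 1) (by rw [hS.cv_ten, hw, zero_smul])
    rw [hLw, con_ten, map_smul, eq_comm, smul_eq_zero] at e
    exact e.resolve_right fun h0 => hne (ten_injective i hw0 (h0.trans (map_zero _).symm))
  -- split off an element of the factor
  obtain ⟨b, hb'⟩ := hS.fu_surjective (ζ⁻¹ • φ)
  have hxb : ∀ x, ζ * h x b = φ ⬝ᵥ x := fun x => by
    rw [← hS.fu_dot, hb', smul_dotProduct, smul_eq_mul, ← mul_assoc, mul_inv_cancel₀ hS.ne, one_mul]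
  have hbw : h b w = 0 := by
    rw [hS.eq_zero_comm₁]
    exact (mul_eq_zero.1 ((hxb w).trans hφw)).resolve_left hS.ne
  obtain ⟨e, he, c, hec⟩ := hin b hbw
  have hee : ∀ r, cv h i w r = 0 → ap (slot i e) r = r + ten i w (con i φ r) := by
    intro r hr
    have key : (apEquiv (slot i e)).toLinearMap = LinearMap.id + ζ • (ten i b).comp (cv h i w)
        + (ten i w).comp (con i φ) + (c * ζ) • (ten i w).comp (cv h i w) :=
      ext_ten i fun x y => by
        simp only [LinearEquiv.coe_coe, apEquiv_apply, slot_ten, hec, LinearMap.add_apply,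
          LinearMap.id_apply, LinearMap.smul_apply, LinearMap.comp_apply, hS.cv_ten, con_ten,
          map_smul, ten_add_left, ten_smul_left, smul_smul, mul_assoc, hxb]
    have := LinearMap.congr_fun key r
    simpa [hr] using this
  set u' := (slot i e)⁻¹ * u with hu'
  have heM := hM.slot_mem i e he
  have hu'M : u' ∈ M := mul_mem (inv_mem heM) hu
  have hfix : ∀ r, cv h i w r = 0 → ap u' r = r := fun r hr => by
    rw [hu', ap_mul, hLu, hLφ r hr, ← hee r hr, ap_inv_ap]
  have hup : IsUp h i w ((cv h i v).comp (((apEquiv u').toLinearMap - LinearMap.id).comp (ten i v)))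
      u' := by
    intro z
    have hz0 := cv_sub_partner hS i hvw z
    have hLz : ap u' z - z = ap u' (ten i v (cv h i w z)) - ten i v (cv h i w z) := by
      have := hfix _ hz0
      rw [ap_sub] at this
      linear_combination (norm := module) this
    have hmem : ap u' z - z ∈ slice i w := by
      refine mem_slice_of_cv hS i hw0 fun a ha => eq_zero_of_tform hS _ fun y => ?_
      rw [← hS.tform_ten_right, sub_eq_add_neg, Space.tform_add_left, ← neg_one_smul F z,
        Space.tform_smul_left]
      have e := mem_isom_iff.1 (hM.le hu'M) z (ten i a y)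
      rw [hfix (ten i a y) (by rw [hS.cv_ten, ha, zero_smul])] at e
      linear_combination e
    obtain ⟨q, hq⟩ := hmem
    have : q = cv h i v (ap u' z - z) := by rw [← hq, hS.cv_ten, hwv, one_smul]
    rw [this, hLz] at hq
    rw [LinearMap.comp_apply, LinearMap.comp_apply, LinearMap.sub_apply, LinearEquiv.coe_coe,
      apEquiv_apply, LinearMap.id_apply, hq, ← hLz]
    abel
  obtain ⟨d, hd⟩ := hU i w hw0 hw u' hu'M _ hup
  let t' : GL (Fin k) F := tv w ((d / ζ) • (Unitary.fl hf₁ w)) (by simp [sf, hw])
  have hu't : u' = slot i t' := by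
    refine gl_ext fun z => ?_
    rw [hup z, hd]
    have key : LinearMap.id + d • (ten i w).comp (cv h i w) = (apEquiv (slot i t')).toLinearMap := by
      refine ext_ten i fun x y => ?_
      have e1 : ap t' x = x + (d * h x w) • w := by
        simp [t', sf]
        congr 1
        field_simp [hS.ne]
      simp [slot_ten, hS.cv_ten, e1, ten_add_left, ten_smul_left, smul_smul]
    rw [map_smul]
    exact LinearMap.congr_fun key z
  refine ⟨e * t', φ, ?_, fun z hz => by rw [hLu, hLφ z hz]⟩
  rw [map_mul, ← hu't, hu', mul_inv_cancel_left]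

end CfsgLib.Geometric.TPowU
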