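import Cfsg.Agent.Lib.Geometric.TensorUnitary.Radical
import Cfsg.Agent.Lib.Geometric.TensorUnitary.PlaneUp

/-!
An element of an overgroup with scalar radical elements carrying a slice of an isotropic vector to
such a slice splits along the two factors: the radicals of the two slices correspond, which
determines the element up to a radical element, and this one is scalar by a second commutator.
-/

set_option autoImplicit false

namespace CfsgLib.Geometric.TPowU

open Matrix TPow

variable {T : Type} [Fintype T] [DecidableEq T] {k : ℕ} {F : Type*} [Field F] [Finite F]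
variable {σ : F ≃+* F} {h : (Fin k → F) → (Fin k → F) → F} {ζ : F}
variable (hS : Space σ h ζ) {M : Subgroup (GL (T → Fin k) F)} (hM : Over σ h M)
include hS

include hM in
/-- The Eichler elements of one factor at an isotropic vector, as linear maps of the power. -/
lemma exists_eichler {w b : Fin k → F} (hw : h w w = 0) (hb : h b w = 0) (i : T) :
    ∃ c : F, ∃ e ∈ M, ∀ z, ap e z =
      z + ζ • ten i b (cv h i w z) + ζ • ten i w (cv h i b z) + (c * ζ) • ten i w (cv h i w z) := by
  have hf₁ := hS.skew₁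
  have hbw : sf ζ h b w = 0 := by rw [sf, hb, mul_zero]
  have hww : sf ζ h w w = 0 := by rw [sf, hw, mul_zero]
  obtain ⟨c, hc⟩ := Unitary.exists_sub_eq hf₁ (Unitary.skew_self hf₁ b)
  have hE := Unitary.E_mem hf₁ (u := w) (v := b) (hu := hww) (hvu := hbw) hc
  set a := Unitary.E hf₁ w b c hww hbw with ha
  refine ⟨c, slot i a, hM.slot_mem i a ⟨(isom_mul_const hS.ne h).le hE.1, hE.2⟩, fun z => ?_⟩
  exact LinearMap.congr_fun (ext_ten i (f := (apEquiv (slot i a)).toLinearMap)
    (f' := LinearMap.id + ζ • (ten i b).comp (cv h i w) + ζ • (ten i w).comp (cv h i b) +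
      (c * ζ) • (ten i w).comp (cv h i w)) fun x y => by
    simp only [LinearEquiv.coe_coe, apEquiv_apply, slot_ten, ha, Unitary.ap_E hf₁,
      LinearMap.add_apply, LinearMap.id_apply, LinearMap.smul_apply, LinearMap.comp_apply,
      hS.cv_ten, map_smul, ten_add_left, ten_smul_left, smul_smul, sf, mul_assoc]) z

/-- A functional on tensors with all values multiples of a given map, from a generating set. -/
lemma exists_scalar_con {i : T} {V : Type*} [AddCommGroup V] [Module F V]
    (Z : V → (T → Fin k) → F) (E : V → Rest i k → F) {G : Set (Fin k → F)}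
    (hG : ∀ φ ∈ G, ∃ s : F, ∀ y, con i φ (Z y) = s • E y) {ψ : Fin k → F}
    (hψ : ψ ∈ Submodule.span F G) : ∃ s : F, ∀ y, con i ψ (Z y) = s • E y := by
  induction hψ using Submodule.span_induction with
  | mem φ hφ => exact hG φ hφ
  | zero => exact ⟨0, fun y => by simp⟩
  | add φ ψ _ _ h1 h2 =>
    obtain ⟨s, hs⟩ := h1
    obtain ⟨t, ht⟩ := h2
    exact ⟨s + t, fun y => by rw [con_add_left, hs, ht, add_smul]⟩
  | smul c φ _ h1 =>
    obtain ⟨s, hs⟩ := h1
    exact ⟨c * s, fun y => by rw [con_smul_left, hs, mul_smul]⟩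

/-- The isometry `1 + ten w ∘ C ∘ cv w` of a skew map `C`. -/
lemma exists_upper {i : T} {w : Fin k → F} (hw : h w w = 0)
    (C : (Rest i k → F) →ₗ[F] (Rest i k → F))
    (hC : ∀ p q, tform σ h {l : T // l ≠ i} p (C q) + tform σ h {l : T // l ≠ i} (C p) q = 0) :
    ∃ U ∈ isom (tform σ h T), (∀ z, ap U z = z + ten i w (C (cv h i w z))) ∧
      ∀ z, ap U⁻¹ z = z - ten i w (C (cv h i w z)) := by
  have hcv : ∀ p, cv h i w (ten i w p) = 0 := fun p => by rw [hS.cv_ten, hw, zero_smul]
  set N : ((T → Fin k) → F) →ₗ[F] ((T → Fin k) → F) := (ten i w).comp (C.comp (cv h i w)) with hN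
  have hNN : ∀ z, N (N z) = 0 := fun z => by simp [hN, hcv]
  let U : GL (T → Fin k) F := ofEquiv (LinearEquiv.ofLinear (LinearMap.id + N) (LinearMap.id - N)
    (LinearMap.ext fun z => by simp [hNN]) (LinearMap.ext fun z => by simp [hNN]))
  have hU : ∀ z, ap U z = z + ten i w (C (cv h i w z)) := fun z => by simp [U, hN]
  refine ⟨U, mem_isom_iff.2 fun x y => ?_, hU, fun z => ap_injective U ?_⟩
  · have hherm := hS.herm_tform T
    rw [hU, hU, Space.tform_add_left, Space.tform_add_right, Space.tform_add_right,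
      hS.tform_ten_right, hS.tform_ten_right, hcv, hherm.herm (ten i w _) y,
      hS.tform_ten_right, ← (hS.herm_tform {l : T // l ≠ i}).herm, tform_zero_left hS]
    linear_combination hC (cv h i w x) (cv h i w y)
  · rw [ap_ap_inv, ap_sub, hU, hU, hcv]
    simp

variable {g : GL (T → Fin k) F} {i j : T} {w w' : Fin k → F}
include hM

/-- An element carrying a slice to a slice is a radical element times a split isometry. -/
theorem exists_upper_split (hk : 3 ≤ k) (hU : UpScalar h M) (hg : g ∈ M) (hw0 : w ≠ 0)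
    (hw'0 : w' ≠ 0) (hw : h w w = 0) (hw' : h w' w' = 0)
    (hmap : (slice j w').map (apEquiv g).toLinearMap = slice i w) :
    ∃ (C : (Rest i k → F) →ₗ[F] (Rest i k → F)) (A : GL (Fin k) F)
      (e : (Rest j k → F) ≃ₗ[F] (Rest i k → F)) (U : GL (T → Fin k) F),
      (∀ z, ap U z = z + ten i w (C (cv h i w z))) ∧
      (∀ z, ap U⁻¹ z = z - ten i w (C (cv h i w z))) ∧
      (∀ y y', tform σ h {l : T // l ≠ i} (e y) (e y') = tform σ h {l : T // l ≠ j} y y') ∧
      A ∈ isom h ∧ ∀ x y, ap g (ten j x y) = ap U (ten i (ap A x) (e y)) := by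
  classical
  have hf₁ := hS.skew₁
  obtain ⟨v, -, hvw⟩ := hS.exists_partner hw hw0
  have hwv := hS.partner_symm hvw
  obtain ⟨v', hv'v', hv'w'⟩ := hS.exists_partner hw' hw'0
  have hgI := hM.le hg
  have hsl : ∀ y, ap g (ten j w' y) ∈ slice i w := fun y => by
    rw [← hmap]; exact ⟨_, ten_mem_slice _ _ _, rfl⟩
  -- the map between the other factors
  set η₀ : (Rest j k → F) →ₗ[F] (Rest i k → F) :=
    (cv h i v).comp ((apEquiv g).toLinearMap.comp (ten j w')) with hη₀
  have hη0 : ∀ y, ap g (ten j w' y) = ten i w (η₀ y) := fun y => by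
    obtain ⟨p, hp⟩ := hsl y
    simp [hη₀, ← hp, hS.cv_ten, hwv]
  have hηinj : Function.Injective η₀ := fun y y' hy =>
    ten_injective j hw'0 (ap_injective g (by rw [hη0, hη0, hy]))
  set η := LinearMap.linearEquivOfInjective η₀ hηinj (by rw [finrank_rest, finrank_rest])
  have hη : ∀ y, ap g (ten j w' y) = ten i w (η y) := hη0
  have hperp : ∀ z, cv h j w' z = 0 ↔ cv h i w (ap g z) = 0 := by
    intro z
    rw [cv_eq_zero_iff hS, cv_eq_zero_iff hS]
    constructor
    · intro h0 x hx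
      rw [← hmap] at hx
      obtain ⟨x, hx, rfl⟩ := hx
      rw [LinearEquiv.coe_coe, apEquiv_apply, mem_isom_iff.1 hgI]
      exact h0 x hx
    · intro h0 x hx
      rw [← mem_isom_iff.1 hgI]
      exact h0 _ (hmap ▸ ⟨x, hx, rfl⟩)
  have hperp' : ∀ r, cv h i w r = 0 → cv h j w' (ap g⁻¹ r) = 0 := fun r hr =>
    (hperp _).2 (by rwa [ap_ap_inv])
  have hfu : ∀ x, cv h i w x = con i (fu h w) x := fun _ => rfl
  -- the radical elements
  have hu : ∀ b, h b w' = 0 → ∃ (a : GL (Fin k) F) (φ : Fin k → F) (c : F),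
      (∀ r, cv h i w r = 0 → ap (slot i a) r = r + ten i w (con i φ r) ∧
        con i φ r = ζ • η (cv h j b (ap g⁻¹ r))) ∧
      ∀ y, ap (slot i a) (ap g (ten j v' y)) = ap g (ten j v' y) + ζ • ap g (ten j b y) +
        (ζ * h v' b + c * ζ) • ten i w (η y) := by
    intro b hb
    obtain ⟨c, e, he, hez⟩ := exists_eichler hS hM hw' hb j
    have hbw' : h w' b = 0 := hS.eq_zero_comm₁.1 hb
    have hue : ∀ z, ap (g * e * g⁻¹) (ap g z) = ap g (ap e z) := fun z => by
      rw [ap_mul, ap_mul, ap_inv_ap]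
    have hperpval : ∀ r, cv h i w r = 0 → ap (g * e * g⁻¹) r =
        r + ten i w (ζ • η (cv h j b (ap g⁻¹ r))) := by
      intro r hr
      conv_lhs => rw [← ap_ap_inv g r]
      rw [hue, hez, hperp' r hr]
      simp only [map_zero, smul_zero, add_zero]
      rw [ap_add, ap_ap_inv, ap_smul, hη, map_smul]
    obtain ⟨a, φ, hua, hφ⟩ := exists_slot_of_fix hS hM hU hw0 hw
      (mul_mem (mul_mem hg he) (inv_mem hg)) (fun y => by
        have h1 := hperpval (ten i w y) (by rw [hS.cv_ten, hw, zero_smul])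
        have h2 : ap g⁻¹ (ten i w y) = ten j w' (η.symm y) :=
          ap_injective g (by rw [ap_ap_inv, hη, LinearEquiv.apply_symm_apply])
        rw [h1, h2, hS.cv_ten, hbw']
        simp)
      fun r hr => by rw [hperpval r hr, add_sub_cancel_left]; exact ten_mem_slice _ _ _
    refine ⟨a, φ, c, fun r hr => ⟨by rw [← hua]; exact hφ r hr, ?_⟩, fun y => ?_⟩
    · exact ten_injective i hw0 (add_left_cancel ((hφ r hr).symm.trans (hperpval r hr)))
    · rw [← hua, hue, hez, hS.cv_ten, hS.cv_ten, hv'w', one_smul]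
      simp only [map_smul, ap_add, ap_smul, hη, smul_smul]
      module
  -- the functionals killing `w`
  set G : Set (Fin k → F) := insert (fu h w) {φ | ∃ b, h b w' = 0 ∧
    ∀ r, cv h i w r = 0 → con i φ r = ζ • η (cv h j b (ap g⁻¹ r))} with hG
  have hspan : ∀ ψ : Fin k → F, ψ ⬝ᵥ w = 0 → ψ ∈ Submodule.span F G := by
    intro ψ hψ
    by_contra hne
    obtain ⟨x, hx, hxψ⟩ := exists_dot_of_notMem hne
    have hxw : h x w = 0 := by
      rw [← hS.fu_dot, dotProduct_comm]
      exact hx _ (Submodule.subset_span (Set.mem_insert _ _))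
    set y₁ : Rest i k → F := fun _ => 1 with hy₁
    have hcx : cv h i w (ten i x y₁) = 0 := by rw [hS.cv_ten, hxw, zero_smul]
    have hmem : ap g⁻¹ (ten i x y₁) ∈ slice j w' := by
      refine mem_slice_of_cv hS j hw'0 fun b hb => ?_
      obtain ⟨a, φ, c, h1, -⟩ := hu b hb
      have h2 := (h1 _ hcx).2
      rw [con_ten, dotProduct_comm, hx φ (Submodule.subset_span
        (Set.mem_insert_of_mem _ ⟨b, hb, fun r hr => (h1 r hr).2⟩)), zero_smul] at h2
      exact η.injective (((smul_eq_zero.1 h2.symm).resolve_left hS.ne).trans (map_zero η).symm)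
    obtain ⟨q, hq⟩ := hmem
    have h3 := congrArg (fun z => con i ψ (ap g z)) hq
    simp only [hη, con_ten, hψ, zero_smul, ap_ap_inv, dotProduct_comm ψ x, hxψ, one_smul] at h3
    exact one_ne_zero (congrFun h3.symm fun _ => ⟨0, by omega⟩)
  -- images of the orthogonal of the first slice
  have hC1 : ∀ b', h b' w' = 0 → ∀ ψ : Fin k → F, ψ ⬝ᵥ w = 0 →
      ∃ s : F, ∀ y, con i ψ (ap g (ten j b' y)) = s • η y := by
    intro b' hb' ψ hψ
    have hcv : ∀ y, cv h i w (ap g (ten j b' y)) = 0 := fun y =>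
      (hperp _).1 (by rw [hS.cv_ten, hb', zero_smul])
    refine exists_scalar_con hS _ (fun y => η y) (fun φ hφ => ?_) (hspan ψ hψ)
    rcases hφ with rfl | ⟨b, -, hb⟩
    · exact ⟨0, fun y => by rw [← hfu, hcv, zero_smul]⟩
    · exact ⟨ζ * h b' b, fun y => by
        rw [hb _ (hcv y), ap_inv_ap, hS.cv_ten, map_smul, smul_smul]⟩
  -- the contraction against `w` of the image of the partner
  obtain ⟨μ, hμ0, hξ⟩ : ∃ μ : F, μ ≠ 0 ∧
      ∀ y, cv h i w (ap g (ten j v' y)) = μ • η y := by
    obtain ⟨b₀, -, hb₀, hb₀w, -⟩ := Unitary.exists_anisotropic_perp_pair hf₁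
      (Unitary.nondeg_perp_bot hf₁)
      (by rw [Unitary.finrank_perp_bot hf₁, Fintype.card_fin]; exact hk)
      (Unitary.mem_perp_bot hf₁ w') (Unitary.mem_perp_bot hf₁ v') (hS.sf_eq_zero.2 hw')
      (hS.sf_eq_zero.2 hv'v') (by
        rw [Ne, hS.sf_eq_zero, hS.partner_symm hv'w']; exact one_ne_zero)
    rw [hS.sf_eq_zero, hS.eq_zero_comm₁] at hb₀w
    rw [Ne, hS.sf_eq_zero] at hb₀
    obtain ⟨ψ, s, hψw, hs0, hψ⟩ : ∃ ψ : Fin k → F, ∃ s : F, ψ ⬝ᵥ w = 0 ∧ s ≠ 0 ∧
        ∀ y, con i ψ (ap g (ten j b₀ y)) = s • η y := by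
      by_contra hc
      push Not at hc
      have hmem : ap g (ten j b₀ fun _ => 1) ∈ slice i w := by
        refine (mem_slice_iff i hw0).2 fun ψ hψ => ?_
        obtain ⟨s, hs⟩ := hC1 b₀ hb₀w ψ hψ
        by_cases hs0 : s = 0
        · rw [hs, hs0, zero_smul]
        · obtain ⟨y, hy⟩ := hc ψ s hψ hs0
          exact absurd (hs y) hy
      rw [← hmap] at hmem
      obtain ⟨_, ⟨q, rfl⟩, hq⟩ := hmem
      obtain ⟨φ, hφ⟩ := exists_dot_eq_one (show b₀ ≠ 0 from fun h0 => hb₀ (by
        rw [h0, ← hS.sf_eq_zero, Unitary.zero_left hf₁]))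
      have e := ap_injective g hq
      have h1 := congrArg (cv h j b₀) e
      simp only [hS.cv_ten, hS.eq_zero_comm₁.1 hb₀w, zero_smul] at h1
      exact one_ne_zero (congrFun ((smul_eq_zero.1 h1.symm).resolve_left hb₀) fun _ => ⟨0, by omega⟩)
    obtain ⟨a, φ, c, h1, h2⟩ := hu b₀ hb₀w
    have key : ∀ y, (ζ * s) • η y =
        (ψ ⬝ᵥ (ap a v - v)) • cv h i w (ap g (ten j v' y)) := by
      intro y
      set z₀ := ap g (ten j v' y)
      have e := h2 y
      have hr := cv_sub_partner hS i hvw z₀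
      set r := z₀ - ten i v (cv h i w z₀) with hrdef
      have hz : ten i v (cv h i w z₀) + r = z₀ := by rw [hrdef]; abel
      have hgen : ∀ p q, cv h i w q = 0 → ap (slot i a) (ten i v p + q) - (ten i v p + q) =
          ten i (ap a v - v) p + ten i w (con i φ q) := fun p q hq => by
        rw [ap_add, slot_ten, (h1 q hq).1, ten_sub_left]; abel
      have e1 := hgen (cv h i w z₀) r hr
      rw [hz] at e1
      rw [e] at e1
      have e2 := congrArg (con i ψ) e1
      simp only [map_add, map_sub, map_smul, con_ten, hψw, zero_smul, smul_zero, add_zero, hψ,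
        smul_smul] at e2
      rw [show ap g (ten j v' y) = z₀ from rfl, add_sub_cancel_left] at e2
      exact e2
    have hd : ψ ⬝ᵥ (ap a v - v) ≠ 0 := by
      intro h0
      have := key (fun _ => 1)
      rw [h0, zero_smul, smul_eq_zero] at this
      exact one_ne_zero (congrFun (η.injective
        ((this.resolve_left (mul_ne_zero hS.ne hs0)).trans (map_zero η).symm))
          fun _ => ⟨0, by omega⟩)
    refine ⟨ζ * s / (ψ ⬝ᵥ (ap a v - v)), div_ne_zero (mul_ne_zero hS.ne hs0) hd, fun y => ?_⟩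
    rw [div_eq_inv_mul, mul_smul, key, inv_smul_smul₀ hd]
  -- the parts in the slice are multiples
  set r₀ : (Rest j k → F) → ((T → Fin k) → F) :=
    fun y => ap g (ten j v' y) - ten i v (μ • η y) with hr₀
  have hr₀cv : ∀ y, cv h i w (r₀ y) = 0 := fun y => by
    rw [hr₀, map_sub, hξ, hS.cv_ten, hvw, one_smul, sub_self]
  have hmix : ∀ b, h b w' = 0 → ∃ d e : F, ∀ y, cv h i v (ap g (ten j b y)) = d • η y ∧
      η (cv h j b (ap g⁻¹ (r₀ y))) = e • η y := by
    intro b hb
    have hone : ∀ l : F, ∃ d : F, ∀ y, l • cv h i v (ap g (ten j b y)) -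
        σ l • η (cv h j b (ap g⁻¹ (r₀ y))) = d • η y := by
      intro l
      obtain ⟨a, φ, c, h1, h2⟩ := hu (l • b) (by rw [hS.herm.smul_left, hb, mul_zero])
      refine ⟨ζ⁻¹ * (h (ap a v - v) v * μ - (ζ * h v' (l • b) + c * ζ)), fun y => ?_⟩
      have hz : ap g (ten j v' y) = ten i v (μ • η y) + r₀ y :=
        (add_sub_cancel _ _).symm
      have e1 : ap (slot i a) (ap g (ten j v' y)) - ap g (ten j v' y) =
          ten i (ap a v - v) (μ • η y) + ten i w (con i φ (r₀ y)) := by
        rw [hz, ap_add, slot_ten, (h1 _ (hr₀cv y)).1, ten_sub_left]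
        abel
      rw [h2 y, (h1 _ (hr₀cv y)).2] at e1
      have e2 := congrArg (cv h i v) e1
      simp only [map_add, map_sub, map_smul, hS.cv_ten, hwv, ten_smul_left, ap_smul,
        hS.cv_smul, add_sub_cancel_left, one_smul, smul_smul] at e2
      rw [mul_smul, eq_inv_smul_iff₀ hS.ne]
      linear_combination (norm := module) e2
    obtain ⟨α, hα⟩ := Unitary.exists_not_fixed hf₁
    obtain ⟨d₁, hd₁⟩ := hone 1
    obtain ⟨d₂, hd₂⟩ := hone α
    have hd : ∀ y, cv h i v (ap g (ten j b y)) =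
        ((α - σ α)⁻¹ * (d₂ - σ α * d₁)) • η y := by
      intro y
      rw [mul_smul, sub_smul, mul_smul, ← hd₁ y, ← hd₂ y, map_one, one_smul, one_smul,
        eq_inv_smul_iff₀ (sub_ne_zero.2 (Ne.symm hα))]
      module
    refine ⟨_, (α - σ α)⁻¹ * (d₂ - σ α * d₁) - d₁, fun y => ⟨hd y, ?_⟩⟩
    rw [sub_smul, ← hd y, ← hd₁ y, map_one, one_smul, one_smul, sub_sub_cancel]
  -- the first component
  have hC2 : ∀ b', h b' w' = 0 → ∃ t : Fin k → F, ∀ y, ap g (ten j b' y) = ten i t (η y) := by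
    intro b' hb'
    obtain ⟨d, e', hd⟩ := hmix b' hb'
    have hψ : ∀ ψ : Fin k → F, ∃ s : F, ∀ y, con i ψ (ap g (ten j b' y)) = s • η y := by
      intro ψ
      obtain ⟨s, hs⟩ := hC1 b' hb' (ψ - (ψ ⬝ᵥ w) • fu h v) (by
        rw [sub_dotProduct, smul_dotProduct, hS.fu_dot, hwv, smul_eq_mul, mul_one, sub_self])
      refine ⟨s + (ψ ⬝ᵥ w) * d, fun y => ?_⟩
      have := hs y
      rw [con_sub_left, con_smul_left, sub_eq_iff_eq_add] at this
      rw [this, add_smul, mul_smul, ← (hd y).1]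
      rfl
    choose t ht using fun p => hψ (Pi.single p 1)
    exact ⟨t, fun y => ext_con fun p => by
      rw [ht, con_ten, single_dotProduct, one_mul]⟩
  obtain ⟨x₁, χ, hz0⟩ : ∃ (x₁ : Fin k → F) (χ : (Rest j k → F) →ₗ[F] (Rest i k → F)),
      ∀ y, ap g (ten j v' y) = ten i x₁ (η y) + ten i w (χ y) := by
    set χ : (Rest j k → F) →ₗ[F] (Rest i k → F) := (cv h i v).comp
      ((apEquiv g).toLinearMap.comp (ten j v') - (ten i v).comp (μ • η.toLinearMap))
    have hψ : ∀ ψ : Fin k → F, ψ ⬝ᵥ w = 0 → ∃ s : F, ∀ y, con i ψ (r₀ y) = s • η y := by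
      intro ψ hψ
      refine exists_scalar_con hS r₀ (fun y => η y) (fun φ hφ => ?_) (hspan ψ hψ)
      rcases hφ with rfl | ⟨b, hbw, hb⟩
      · exact ⟨0, fun y => by rw [← hfu, hr₀cv, zero_smul]⟩
      · obtain ⟨d', e, he⟩ := hmix b hbw
        exact ⟨ζ * e, fun y => by rw [hb _ (hr₀cv y), (he y).2, smul_smul]⟩
    choose t ht using fun p => hψ (Pi.single p 1 - w p • fu h v) (by
      rw [sub_dotProduct, smul_dotProduct, hS.fu_dot, hwv, single_dotProduct, smul_eq_mul]; ring)
    refine ⟨μ • v + t, χ, fun y => ?_⟩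
    have hr : r₀ y = ten i t (η y) + ten i w (χ y) := by
      refine ext_con (i := i) fun p => ?_
      rw [map_add, con_ten, con_ten, single_dotProduct, single_dotProduct, one_mul, one_mul]
      have := ht p y
      rw [con_sub_left, con_smul_left, sub_eq_iff_eq_add] at this
      rw [this]
      rfl
    rw [ten_add_left, ten_smul_left, ← map_smul, add_assoc, ← hr]
    exact (add_sub_cancel _ _).symm
  -- all of the first factor
  choose t ht using fun p : Fin k =>
    hC2 (Pi.single p 1 - h (Pi.single p 1) w' • v') (by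
      rw [sub_eq_add_neg, ← neg_smul, hS.herm.add_left, hS.herm.smul_left, hv'w']; ring)
  set θ : (Fin k → F) →ₗ[F] (Fin k → F) :=
    ∑ p, (LinearMap.proj p : (Fin k → F) →ₗ[F] F).smulRight (t p + h (Pi.single p 1) w' • x₁)
  have hgθ : ∀ x y, ap g (ten j x y) = ten i (θ x) (η y) + h x w' • ten i w (χ y) := by
    intro x y
    let L : (Fin k → F) →ₗ[F] ((T → Fin k) → F) :=
      { toFun := fun x => ap g (ten j x y)
        map_add' := fun a b => by rw [ten_add_left, ap_add]
        map_smul' := fun s a => by rw [ten_smul_left, ap_smul]; rfl }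
    let R : (Fin k → F) →ₗ[F] ((T → Fin k) → F) :=
      { toFun := fun x => ten i (θ x) (η y) + h x w' • ten i w (χ y)
        map_add' := fun a b => by rw [map_add, ten_add_left, hS.herm.add_left, add_smul]; abel
        map_smul' := fun s a => by
          rw [map_smul, ten_smul_left, hS.herm.smul_left, mul_smul, RingHom.id_apply, smul_add] }
    refine LinearMap.congr_fun (f := L) (g := R) (LinearMap.pi_ext' fun p =>
      LinearMap.ext_ring ?_) x
    change ap g (ten j (Pi.single p 1) y) =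
      ten i (θ (Pi.single p 1)) (η y) + h (Pi.single p 1) w' • ten i w (χ y)
    have hθp : θ (Pi.single p 1) = t p + h (Pi.single p 1) w' • x₁ := by
      simp [θ, Pi.single_apply, ite_smul, Finset.sum_add_distrib, Finset.sum_ite_eq']
    have hsplit : (Pi.single p 1 : Fin k → F) =
        (Pi.single p 1 - h (Pi.single p 1) w' • v') + h (Pi.single p 1) w' • v' :=
      (sub_add_cancel _ _).symm
    conv_lhs => rw [hsplit, ten_add_left, ten_smul_left, ap_add, ap_smul, ht, hz0]
    rw [hθp, ten_add_left, ten_smul_left]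
    module
  -- a vector of the other factors pairing non-trivially
  set y₁ : Rest j k → F := fun _ => 1
  have hy₁ : y₁ ≠ 0 := fun h0 => one_ne_zero (congrFun h0 fun _ => ⟨0, by omega⟩)
  have hηy₁ : η y₁ ≠ 0 := fun h0 => hy₁ (η.injective (h0.trans (map_zero η).symm))
  obtain ⟨-, y₂, hy₁₂⟩ := (hS.herm_tform {l : T // l ≠ j}).nondegenerate y₁ hy₁
  have hθw : θ w' = w := by
    have e := hgθ w' y₁
    rw [hη, hw', zero_smul, add_zero] at e
    exact (ten_inj_left i hηy₁ e).symm
  have hθh : ∀ x, h (θ x) w = μ * h x w' := by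
    intro x
    have e := congrArg (cv h i w) (hgθ x y₁)
    rw [show x = (x - h x w' • v') + h x w' • v' from (sub_add_cancel _ _).symm] at e
    nth_rw 1 [ten_add_left, ap_add, ten_smul_left, ap_smul] at e
    rw [map_add (cv h i w), map_smul (cv h i w), (hperp _).1 (by
      rw [hS.cv_ten, sub_eq_add_neg, ← neg_smul, hS.herm.add_left, hS.herm.smul_left, hv'w']
      simp), hξ, sub_add_cancel] at e
    simp only [map_add, map_smul, hS.cv_ten, hw, zero_smul, smul_zero, add_zero, zero_add,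
      smul_smul] at e
    rw [← sub_eq_zero, ← sub_smul] at e
    have := (smul_eq_zero.1 e).resolve_right hηy₁
    linear_combination -this
  have hBη : ∀ y y', μ * tform σ h {l : T // l ≠ i} (η y) (η y') =
      tform σ h {l : T // l ≠ j} y y' := by
    intro y y'
    have e := mem_isom_iff.1 hgI (ten j v' y) (ten j w' y')
    rw [hη, hS.tform_ten_right, hξ, hS.tform_ten, hv'w', one_mul, Space.tform_smul_left] at e
    exact e
  have hμσ : σ μ = μ := by
    have e := congrArg σ (hBη y₂ y₁)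
    rw [map_mul, ← (hS.herm_tform _).herm, ← (hS.herm_tform _).herm, ← hBη y₁ y₂] at e
    have hne : tform σ h {l : T // l ≠ i} (η y₁) (η y₂) ≠ 0 := fun h0 =>
      hy₁₂ (by rw [← hBη, h0, mul_zero])
    exact mul_right_cancel₀ hne e
  obtain ⟨ν, hν⟩ := Unitary.exists_norm hf₁ hμσ
  have hν0 : ν ≠ 0 := fun h0 => hμ0 (by rw [← hν, h0, zero_mul])
  have hσν : σ ν ≠ 0 := (map_ne_zero_iff σ σ.injective).2 hν0
  set e₀ : (Rest j k → F) ≃ₗ[F] (Rest i k → F) :=
    η.trans (LinearEquiv.smulOfNeZero F (Rest i k → F) ν hν0)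
  have he₀ : ∀ y, e₀ y = ν • η y := fun y => rfl
  have heB : ∀ y y', tform σ h {l : T // l ≠ i} (e₀ y) (e₀ y') =
      tform σ h {l : T // l ≠ j} y y' := by
    intro y y'
    rw [he₀, he₀, Space.tform_smul_left, hS.tform_smul_right, ← mul_assoc, hν]
    exact hBη y y'
  set θ₀ := ν⁻¹ • θ with hθ₀
  have hgθ₀ : ∀ x y, ap g (ten j x y) = ten i (θ₀ x) (e₀ y) + h x w' • ten i w (χ y) := by
    intro x y
    rw [hgθ, he₀, hθ₀, LinearMap.smul_apply, ten_smul_left, map_smul, smul_smul,
      inv_mul_cancel₀ hν0, one_smul]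
  have hθ₀h : ∀ x, h (θ₀ x) w = σ ν * h x w' := fun x => by
    rw [hθ₀, LinearMap.smul_apply, hS.herm.smul_left, hθh, ← hν]; field_simp
  set C' : (Rest i k → F) →ₗ[F] (Rest i k → F) :=
    (σ ν)⁻¹ • χ.comp e₀.symm.toLinearMap with hC'
  have hC'χ : ∀ y, C' (e₀ y) = (σ ν)⁻¹ • χ y := fun y => by simp [hC']
  set s := -(h (θ₀ v') (θ₀ v')) / μ with hs
  have hC's : ∀ p q, tform σ h {l : T // l ≠ i} p (C' q) +
      tform σ h {l : T // l ≠ i} (C' p) q = s * tform σ h {l : T // l ≠ i} p q := by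
    intro p q
    obtain ⟨y, rfl⟩ := e₀.surjective p
    obtain ⟨y', rfl⟩ := e₀.surjective q
    have e := mem_isom_iff.1 hgI (ten j v' y) (ten j v' y')
    rw [hgθ₀, hgθ₀, hv'w', one_smul, one_smul, Space.tform_add_left, Space.tform_add_right,
      Space.tform_add_right, hS.tform_ten, hS.tform_ten, hS.tform_ten, hS.tform_ten, hθ₀h, hw,
      hS.herm.herm w (θ₀ v'), hθ₀h, hv'w', mul_one, hS.herm.involutive, hS.tform_ten, hv'v',
      zero_mul, zero_mul, add_zero] at e
    rw [hC'χ, hC'χ, Space.tform_smul_left, hS.tform_smul_right, map_inv₀, hS.herm.involutive,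
      hs, ← hν]
    field_simp
    linear_combination e
  obtain ⟨θt, hθt⟩ := Unitary.exists_trace hf₁
  have hσs : σ s = s := by rw [hs, map_div₀, map_neg, hμσ, ← hS.herm.herm]
  set c₀ := s * θt with hc₀
  have hc₀s : c₀ + σ c₀ = s := by rw [hc₀, map_mul, hσs]; linear_combination s * hθt
  set C : (Rest i k → F) →ₗ[F] (Rest i k → F) := C' - c₀ • LinearMap.id with hC
  obtain ⟨U, hUI, hUz, hUi⟩ := exists_upper hS hw C (fun p q => by
    rw [hC, LinearMap.sub_apply, LinearMap.sub_apply]
    simp only [LinearMap.smul_apply, LinearMap.id_apply, sub_eq_add_neg,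
      ← neg_smul, Space.tform_add_left, Space.tform_add_right, Space.tform_smul_left,
      hS.tform_smul_right, map_neg]
    linear_combination hC's p q - tform σ h {l : T // l ≠ i} p q * hc₀s)
  let θ₁ : (Fin k → F) →ₗ[F] (Fin k → F) :=
    { toFun := fun x => θ₀ x + (c₀ * σ ν * h x w') • w
      map_add' := fun a b => by rw [map_add, hS.herm.add_left]; module
      map_smul' := fun t a => by rw [map_smul, hS.herm.smul_left, RingHom.id_apply]; module }
  have hgU : ∀ x y, ap g (ten j x y) = ap U (ten i (θ₁ x) (e₀ y)) := by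
    intro x y
    rw [hUz, hS.cv_ten, hgθ₀]
    simp only [θ₁, LinearMap.coe_mk, AddHom.coe_mk, hS.herm.add_left, hS.herm.smul_left, hw,
      hθ₀h, mul_zero, add_zero, map_smul, hC, LinearMap.sub_apply, LinearMap.smul_apply,
      LinearMap.id_apply, hC'χ, ten_add_left, ten_smul_left, map_sub, smul_sub, smul_smul]
    match_scalars <;> field_simp <;> ring
  have hθinj : Function.Injective θ₁ := by
    refine (injective_iff_map_eq_zero θ₁).2 fun x hx => ?_
    have e := hgU x y₁
    rw [hx, ten_zero_left, ap_zero, ← ap_zero g] at e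
    exact ten_inj_left j hy₁ ((ap_injective g e).trans (ten_zero_left j _).symm)
  refine ⟨C, ofEquiv (LinearEquiv.ofInjectiveEndo θ₁ hθinj), e₀, U, hUz, hUi, heB, ?_,
    fun x y => by rw [ap_ofEquiv]; exact hgU x y⟩
  refine mem_isom_iff.2 fun x x' => ?_
  have e := mem_isom_iff.1 hgI (ten j x y₁) (ten j x' y₂)
  rw [hgU, hgU, mem_isom_iff.1 hUI, hS.tform_ten, hS.tform_ten, heB] at e
  rw [ap_ofEquiv, ap_ofEquiv]
  exact mul_right_cancel₀ hy₁₂ e

/-- An element carrying a slice to a slice splits, by an isometry of the other factors. -/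
theorem split_isom (hk : 3 ≤ k) (hq : 4 ≤ k ∨ ∃ c : F, σ c = c ∧ c ≠ 0 ∧ c ≠ 1)
    (hU : UpScalar h M) (hg : g ∈ M) (hw0 : w ≠ 0) (hw'0 : w' ≠ 0) (hw : h w w = 0)
    (hw' : h w' w' = 0) (hmap : (slice j w').map (apEquiv g).toLinearMap = slice i w) :
    ∃ (a : GL (Fin k) F) (e : (Rest j k → F) ≃ₗ[F] (Rest i k → F)),
      (∀ y y', tform σ h {l : T // l ≠ i} (e y) (e y') = tform σ h {l : T // l ≠ j} y y') ∧
      ∀ x y, ap g (ten j x y) = ten i (ap a x) (e y) := by
  obtain ⟨C, A, e, U, hUz, hUi, heB, hA, hgU⟩ :=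
    exists_upper_split hS hM hk hU hg hw0 hw'0 hw hw' hmap
  -- every special isometry of the target factor is conjugated into `M`
  have hconj : ∀ a ∈ su h, U * slot i a * U⁻¹ ∈ M := by
    intro a ha
    have hd : A⁻¹ * a * A ∈ Cfsg.Geo.specialLinear (Fin k) F := by
      have : a ∈ Cfsg.Geo.specialLinear (Fin k) F := ha.2
      rw [mem_specialLinear_iff] at this
      rw [mem_specialLinear_iff, Units.val_mul, Units.val_mul, Matrix.det_units_conj', this]
    have ha' : A⁻¹ * a * A ∈ su h :=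
      ⟨(isom h).mul_mem ((isom h).mul_mem ((isom h).inv_mem hA) ha.1) hA, hd⟩
    have e1 : U * slot i a * U⁻¹ * g = g * slot j (A⁻¹ * a * A) := by
      refine gl_ext fun z => LinearMap.congr_fun (ext_ten j
        (f := (apEquiv (U * slot i a * U⁻¹ * g)).toLinearMap)
        (f' := (apEquiv (g * slot j (A⁻¹ * a * A))).toLinearMap) fun x y => ?_) z
      simp only [LinearEquiv.coe_coe, apEquiv_apply, ap_mul, hgU, ap_inv_ap, slot_ten, ap_ap_inv]
    rw [eq_mul_inv_of_mul_eq e1]
    exact mul_mem (mul_mem hg (hM.slot_mem j _ ha')) (inv_mem hg)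
  obtain ⟨c, hc⟩ : ∃ c : F, ∀ y, C y = c • y := by
    obtain ⟨v, hv, hvw⟩ := hS.exists_partner hw hw0
    rcases hq with hk4 | ⟨d, hd, hd0, hd1⟩
    · have hf₁ := hS.skew₁
      obtain ⟨b, hbw, hbb, hbn⟩ : ∃ b, h b w = 0 ∧ h b b = 0 ∧ b ∉ Submodule.span F {w} := by
        obtain ⟨x, hxw, hxx⟩ := Unitary.exists_aniso_perp hf₁ hk w
        obtain ⟨b₁, b₂, h1, h2, h3, h4, h5⟩ :=
          Unitary.exists_isotropic_add_perp hf₁ hk4 hxw
        rw [hS.sf_eq_zero] at h1 h2 h3 h4
        by_cases hb : b₁ ∈ Submodule.span F {w}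
        · refine ⟨b₂, h2, h4, fun hb2 => hxx ?_⟩
          obtain ⟨t, ht⟩ := Submodule.mem_span_singleton.1 (Submodule.add_mem _ hb hb2)
          rw [h5, ← ht, hS.sf_eq_zero, hS.herm.smul_left, hS.smul_right, hw, mul_zero, mul_zero]
        · exact ⟨b₁, h1, h3, hb⟩
      have hp : IsPlane h w b := ⟨hw0, hbn, hw, hbb, hS.eq_zero_comm₁.1 hbw, hbw⟩
      obtain ⟨u, huw, hub⟩ := exists_dual hS hp.symm.notMem
      obtain ⟨l, hl⟩ := Unitary.exists_isotropic_shift hf₁ (hS.sf_eq_zero.2 hw)
        (p := u) (by rw [Ne, hS.sf_eq_zero, huw]; exact one_ne_zero)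
      set v := u + l • w
      rw [hS.sf_eq_zero] at hl
      have hvw : h v w = 1 := by rw [hS.herm.add_left, hS.herm.smul_left, hw, huw]; ring
      have hvb : h v b = 0 := by
        rw [hS.herm.add_left, hS.herm.smul_left, hS.eq_zero_comm₁.1 hbw, hub]; ring
      have hbv := hS.eq_zero_comm₁.1 hvb
      have hwv := hS.partner_symm hvw
      have hvv : sf ζ h v v = 0 := hS.sf_eq_zero.2 hl
      have hbv' : sf ζ h b v = 0 := hS.sf_eq_zero.2 hbv
      have hE := Unitary.E_mem hf₁ (u := v) (v := b) (c := (0 : F)) (hu := hvv) (hvu := hbv')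
        (by rw [map_zero, sub_zero, sf, hbb, mul_zero])
      set a := Unitary.E hf₁ v b 0 hvv hbv'
      have ha : a ∈ su h := ⟨(isom_mul_const hS.ne h).le hE.1, hE.2⟩
      have haz : ∀ z, ap (slot i a) z =
          z + ζ • ten i b (cv h i v z) + ζ • ten i v (cv h i b z) := by
        refine fun z => (LinearMap.congr_fun (ext_ten i (f := (apEquiv (slot i a)).toLinearMap)
          (f' := LinearMap.id + ζ • (ten i b).comp (cv h i v) + ζ • (ten i v).comp (cv h i b))
          fun x y => ?_) z :)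
        simp [a, slot_ten, Unitary.ap_E hf₁, sf, hS.cv_ten, ten_add_left, ten_smul_left, smul_smul]
      have hup : Up2 h i w b 0 (ζ • C) (-(ζ • C)) ((ζ * ζ) • C)
          (U * slot i a * U⁻¹ * (slot i a)⁻¹) := by
        intro q
        obtain ⟨z, rfl⟩ : ∃ z, ap (slot i a) z = q := ⟨_, ap_ap_inv _ q⟩
        rw [ap_mul, ap_mul, ap_mul, ap_inv_ap]
        simp only [hUi, hUz, haz, map_sub, map_add, map_smul, hS.cv_ten,
          hw, hbw, hS.eq_zero_comm₁.1 hbw, hbb, hvb, hbv, hvw, hwv, LinearMap.zero_apply,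
          LinearMap.smul_apply, LinearMap.neg_apply, zero_smul, one_smul, smul_zero, smul_add,
          smul_sub, add_zero, sub_zero, zero_add, map_zero, map_neg, smul_smul]
        module
      obtain ⟨⟨t, ht⟩, -⟩ := hup.scalar hS hp hM hU
        (mul_mem (hconj a ha) (inv_mem (hM.slot_mem i a ha)))
      refine ⟨ζ⁻¹ * t, fun y => ?_⟩
      rw [mul_smul, eq_inv_smul_iff₀ hS.ne, ← ht]
      rfl
    · obtain ⟨l, hl⟩ := Unitary.exists_norm hS.skew₁ hd
      have hl0 : l ≠ 0 := fun h0 => hd0 (by rw [← hl, h0, zero_mul])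
      obtain ⟨a, ha, haw⟩ := hS.exists_su_move hk hw (y := l • w)
        (by rw [hS.herm.smul_left, hS.smul_right, hw, mul_zero, mul_zero]) hw0
        (smul_ne_zero hl0 hw0)
      have hup : IsUp h i w ((1 - d) • C) (U * slot i a * U⁻¹ * (slot i a)⁻¹) := by
        intro q
        obtain ⟨z, rfl⟩ : ∃ z, ap (slot i a) z = q := ⟨_, ap_ap_inv _ q⟩
        have hcv : cv h i w (ap (slot i a) z) = (σ l)⁻¹ • cv h i w z := by
          rw [← cv_slot_ap hS i ha.1 w z, haw, hS.cv_smul,
            inv_smul_smul₀ ((map_ne_zero_iff σ σ.injective).2 hl0)]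
        rw [ap_mul, ap_mul, ap_mul, ap_inv_ap, hUi, hUz, ap_sub, slot_ten, haw, map_sub, hcv,
          hS.cv_ten, hS.herm.smul_left, hw, mul_zero, zero_smul, sub_zero]
        simp only [map_smul, LinearMap.smul_apply, ten_smul_left, smul_smul]
        match_scalars <;> field_simp [(map_ne_zero_iff σ σ.injective).2 hl0] <;>
          linear_combination -hl
      obtain ⟨t, ht⟩ := hU i w hw0 hw _ (mul_mem (hconj a ha) (inv_mem (hM.slot_mem i a ha))) _ hup
      refine ⟨(1 - d)⁻¹ * t, fun y => ?_⟩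
      rw [mul_smul, eq_inv_smul_iff₀ (sub_ne_zero.2 (Ne.symm hd1)), ← ht]
      rfl
  let L : (Fin k → F) →ₗ[F] (Fin k → F) :=
    { toFun := fun x => ap A x + (c * h (ap A x) w) • w
      map_add' := fun x x' => by simp only [ap_add, hS.herm.add_left]; module
      map_smul' := fun s x => by
        simp only [ap_smul, hS.herm.smul_left, RingHom.id_apply]; module }
  have hgL : ∀ x y, ap g (ten j x y) = ten i (L x) (e y) := fun x y => by
    rw [hgU, hUz, hS.cv_ten, map_smul, hc]
    simp only [L, LinearMap.coe_mk, AddHom.coe_mk, ten_add_left, ten_smul_left, map_smul,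
      smul_smul]
    module
  have hLinj : Function.Injective L := by
    refine (injective_iff_map_eq_zero L).2 fun x hx => ?_
    have hne : (fun _ => 1 : Rest j k → F) ≠ 0 := fun h0 =>
      one_ne_zero (congrFun h0 fun _ => ⟨0, by omega⟩)
    have e1 := hgL x fun _ => 1
    rw [hx, ten_zero_left, ← ap_zero g] at e1
    exact ten_inj_left j hne ((ap_injective g e1).trans (ten_zero_left j _).symm)
  exact ⟨ofEquiv (LinearEquiv.ofInjectiveEndo L hLinj), e, heB, fun x y => by
    rw [hgL, ap_ofEquiv]; rfl⟩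

end CfsgLib.Geometric.TPowU
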